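import Cfsg.Agent.Lib.H22.Rank
import Mathlib.LinearAlgebra.Matrix.Rank

/-!
# Rank is unchanged by a field extension, and a factorization criterion
-/

set_option autoImplicit false
set_option linter.unusedSectionVars false
set_option linter.style.haveILetI false
set_option linter.unusedSimpArgs false

namespace Cfsg.Agent.H21

open Matrix

section
variable {F K : Type*} [Field F] [Field K]

theorem rank_fromBlocks_one_zero (r s : ℕ) :
    (fromBlocks (1 : Matrix (Fin r) (Fin r) F) 0 0 (0 : Matrix (Fin s) (Fin s) F)).rank = r := by
  classical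
  rw [← diagonal_one, ← diagonal_zero, fromBlocks_diagonal, rank_diagonal]
  have : Fintype.card {i : Fin r ⊕ Fin s // Sum.elim (fun _ => (1 : F)) (fun _ => (0 : F)) i ≠ 0}
      = Fintype.card (Fin r) := by
    refine Fintype.card_congr ⟨fun i => ?_, fun i => ⟨Sum.inl i, by simp⟩, ?_, ?_⟩
    · rcases i with ⟨i | i, hi⟩
      · exact i
      · exact absurd rfl hi
    · rintro ⟨i | i, hi⟩
      · rfl
      · exact absurd rfl hi
    · intro i
      rfl
  simpa using this

theorem rank_map_field {m : Type*} [Fintype m] [DecidableEq m] (f : F →+* K) (A : Matrix m m F) :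
    (A.map f).rank = A.rank := by
  classical
  obtain ⟨V, U, e, hV, hU, h⟩ := exists_rank_normal_form A
  have hmap : (V.map f) * (A.map f) * (U.map f)
      = (fromBlocks (1 : Matrix (Fin A.rank) (Fin A.rank) K) 0 0
          (0 : Matrix (Fin (Fintype.card m - A.rank)) (Fin (Fintype.card m - A.rank)) K)).submatrix e e := by
    have h2 := congrArg (fun X => X.map f) h
    simp only [Matrix.map_mul] at h2
    rw [h2]
    ext i j
    simp only [Matrix.map_apply, submatrix_apply]
    rcases e i with a | a <;> rcases e j with b | b <;>
      simp [Matrix.one_apply, apply_ite f]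
  have hV' : IsUnit (V.map f).det := by
    have : (V.map f).det = f V.det := by
      exact (RingHom.map_det f V).symm
    rw [this]
    exact ((isUnit_iff_isUnit_det _).1 hV).map f
  have hU' : IsUnit (U.map f).det := by
    have : (U.map f).det = f U.det := by
      exact (RingHom.map_det f U).symm
    rw [this]
    exact ((isUnit_iff_isUnit_det _).1 hU).map f
  rw [← rank_mul_eq_right_of_isUnit_det (V.map f) (A.map f) hV',
    ← rank_mul_eq_left_of_isUnit_det (U.map f) ((V.map f) * (A.map f)) hU', hmap,
    rank_submatrix, rank_fromBlocks_one_zero]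

theorem rank_of_factor {ι m : Type*} [Fintype ι] [Fintype m] [DecidableEq ι] [DecidableEq m]
    (N : Matrix ι ι K) (Om : Matrix m ι K) (Om' : Matrix ι m K) (d : m → K) (hd : ∀ b, d b ≠ 0)
    (hN : N = Om' * diagonal d * Om) (R : Matrix ι m K) (hR : Om * R = 1)
    (L : Matrix m ι K) (hL : L * Om' = 1) : N.rank = Fintype.card m := by
  classical
  apply le_antisymm
  · rw [hN]
    exact (rank_mul_le_right _ _).trans (rank_le_card_height _)
  · have h1 : L * N * R = diagonal d := by
      rw [hN]
      calc L * (Om' * diagonal d * Om) * R = (L * Om') * diagonal d * (Om * R) := by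
            simp only [Matrix.mul_assoc]
        _ = diagonal d := by rw [hL, hR]; simp
    have h2 : (diagonal d).rank = Fintype.card m := by
      rw [rank_diagonal]
      apply Fintype.card_congr
      exact Equiv.subtypeUnivEquiv hd
    rw [← h2, ← h1]
    exact (rank_mul_le_left _ _).trans (rank_mul_le_right _ _)

end

end Cfsg.Agent.H21
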