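import Cfsg.Agent.Lib.H21.BlockRankA
import Cfsg.Agent.Lib.H21.CentralDefect
import Cfsg.Agent.Lib.H22.DefectZeroCount
import Cfsg.Agent.Lib.H22.TCase
import Cfsg.Agent.Lib.H22.Brauer2
import Cfsg.Agent.Lib.H23.Ito

/-!
# Blocks with a normal defect group: character sums
-/

set_option autoImplicit false
set_option linter.unusedSectionVars false
set_option linter.style.haveILetI false
set_option linter.unusedSimpArgs false

namespace Cfsg.Agent.H21

open scoped ComplexConjugate
open Cfsg Module Cfsg.Agent.H22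

universe u v

variable {G : Type u} [Group G] [Finite G]

/-- The multiplicity of the trivial character in `χ` restricted to `T`. -/
noncomputable def muS (T : Subgroup G) (χ : IrrCharacter G) : ℂ :=
  (Nat.card T : ℂ)⁻¹ * ∑ s : T, conj (χ.1 (s : G))

theorem sum_muS (T : Subgroup G) (χ : IrrCharacter G) :
    ∑ s : T, conj (χ.1 (s : G)) = (Nat.card T : ℂ) * muS T χ := by
  unfold muS
  have : (Nat.card T : ℂ) ≠ 0 := by exact_mod_cast Nat.card_pos.ne'
  field_simp

theorem sum_ofOm_sub (T : Subgroup G) (c : IrrCharacter G → ℂ) :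
    ∑ s : T, ofOm c (s : G)
      = (Nat.card G : ℂ)⁻¹ * (Nat.card T : ℂ) * ∑ χ : IrrCharacter G, c χ * χ.1 1 * muS T χ := by
  unfold ofOm
  rw [← Finset.mul_sum, Finset.sum_comm, mul_assoc]
  congr 1
  rw [Finset.mul_sum]
  refine Finset.sum_congr rfl fun χ _ => ?_
  have h := sum_muS T χ
  calc ∑ s : T, c χ * (χ.1 1 * conj (χ.1 (s : G)))
      = c χ * χ.1 1 * ∑ s : T, conj (χ.1 (s : G)) := by
        rw [Finset.mul_sum]
        exact Finset.sum_congr rfl fun _ _ => by ring
    _ = _ := by rw [h]; ring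

theorem muS_nat (T : Subgroup G) (χ : IrrCharacter G) : ∃ m : ℕ, muS T χ = m := by
  obtain ⟨m, hm⟩ := classInner_isNat (isCharacter_restrict T (isCharacter_of_irr χ.2)) (oneIrr T)
  refine ⟨m, ?_⟩
  have h1 := congrArg (starRingEnd ℂ) hm
  rw [Complex.conj_natCast] at h1
  rw [← h1]
  unfold muS classInner
  simp only [map_mul, map_sum, map_inv₀, Complex.conj_natCast, Complex.conj_conj]
  congr 1
  refine Finset.sum_congr rfl fun s _ => ?_
  have : (oneIrr T).1 s = 1 := rfl
  rw [this, mul_one]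

theorem muS_mlr {M : Ideal AlgInt} [M.IsPrime] (T : Subgroup G) (χ : IrrCharacter G) :
    MemLocalRing M (muS T χ) := by
  obtain ⟨m, hm⟩ := muS_nat T χ
  rw [hm]
  exact mlr_natCast m

theorem isConj_inv_inv {a b : G} (h : IsConj a b) : IsConj a⁻¹ b⁻¹ := by
  obtain ⟨c, hc⟩ := isConj_iff.mp h
  refine isConj_iff.mpr ⟨c, ?_⟩
  rw [← hc]
  group

/-- Pairs counted by the statement. -/
theorem card_pairs (x y : G) (S : Subgroup G) :
    ((Nat.card {yz : G × G // IsConj yz.1 x ∧ IsConj yz.2 y ∧ yz.2 * yz.1⁻¹ ∈ S} : ℕ) : ℂ)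
      = ∑ s : S, ofOm (cc y * cc x⁻¹) (s : G) := by
  classical
  simp only [ofOm_cc_mul_cc]
  let e : {yz : G × G // IsConj yz.1 x ∧ IsConj yz.2 y ∧ yz.2 * yz.1⁻¹ ∈ S} ≃
      Σ s : S, {h : G // IsConj h y ∧ IsConj (h⁻¹ * (s : G)) x⁻¹} :=
    { toFun := fun yz => ⟨⟨yz.1.2 * yz.1.1⁻¹, yz.2.2.2⟩, ⟨yz.1.2, yz.2.2.1, by
        have : yz.1.2⁻¹ * (yz.1.2 * yz.1.1⁻¹) = yz.1.1⁻¹ := by group
        show IsConj (yz.1.2⁻¹ * (yz.1.2 * yz.1.1⁻¹)) x⁻¹
        rw [this]
        exact isConj_inv_inv yz.2.1⟩⟩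
      invFun := fun sh => ⟨(((sh.1 : G))⁻¹ * sh.2.1, sh.2.1), by
        refine ⟨?_, sh.2.2.1, ?_⟩
        · have := isConj_inv_inv sh.2.2.2
          have h2 : (sh.2.1⁻¹ * (sh.1 : G))⁻¹ = (sh.1 : G)⁻¹ * sh.2.1 := by group
          rw [h2, inv_inv] at this
          exact this
        · have : sh.2.1 * ((sh.1 : G)⁻¹ * sh.2.1)⁻¹ = (sh.1 : G) := by group
          show sh.2.1 * ((sh.1 : G)⁻¹ * sh.2.1)⁻¹ ∈ S
          rw [this]
          exact sh.1.2⟩
      left_inv := by
        rintro ⟨⟨y', z'⟩, h⟩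
        apply Subtype.ext
        simp only [Prod.mk.injEq, and_true]
        group
      right_inv := by
        rintro ⟨s, h, hh⟩
        refine Sigma.ext (Subtype.ext ?_) ?_
        · simp only
          group
        · simp only
          refine (Subtype.heq_iff_coe_eq ?_).2 rfl
          intro w
          have : ((h * ((s : G)⁻¹ * h)⁻¹ : G)) = (s : G) := by group
          simp only [this] }
  rw [Nat.card_congr e, Nat.card_sigma]
  push_cast
  refine Finset.sum_congr rfl fun s _ => ?_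
  rw [Nat.card_eq_fintype_card, Fintype.card_subtype]

/-- The inverse class has the same size. -/
theorem index_centralizer_inv (x : G) :
    (Subgroup.centralizer ({x⁻¹} : Set G)).index = (Subgroup.centralizer ({x} : Set G)).index := by
  congr 1
  ext g
  simp only [mem_centralizer_singleton_iff]
  constructor
  · intro h
    have : x * g = x * (g * x⁻¹) * x := by group
    rw [this, ← h]
    group
  · intro h
    have : x⁻¹ * g = x⁻¹ * (g * x) * x⁻¹ := by group
    rw [this, ← h]
    group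

theorem cc_inv_mul_one (x : G) (χ : IrrCharacter G) :
    cc x⁻¹ χ * χ.1 1 = ((Subgroup.centralizer ({x} : Set G)).index : ℂ) * χ.1 x⁻¹ := by
  have h := irr_one_ne_zero' χ
  show centralChar χ.1 x⁻¹ * χ.1 1 = _
  unfold centralChar
  rw [index_centralizer_inv]
  field_simp

section DSum

variable (D : Subgroup G) [hDn : D.Normal]

open Classical in
/-- Indicator function of a normal subgroup. -/
noncomputable def indD (g : G) : ℂ := if g ∈ D then 1 else 0

theorem indD_isClass : IsClassFunction G (indD D) := by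
  classical
  intro g k
  unfold indD
  have : k * g * k⁻¹ ∈ D ↔ g ∈ D := by
    constructor
    · intro h
      have h2 := hDn.conj_mem _ h k⁻¹
      simpa [mul_assoc] using h2
    · intro h
      exact hDn.conj_mem _ h k
  simp only [this]

theorem sum_indD (f : G → ℂ) : ∑ x, indD D x * f x = ∑ d : D, f (d : G) := by
  classical
  unfold indD
  simp only [ite_mul, one_mul, zero_mul]
  rw [← Finset.sum_filter]
  refine Finset.sum_bij (fun x hx => (⟨x, by simpa using hx⟩ : D)) ?_ ?_ ?_ ?_
  · intro _ _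
    exact Finset.mem_univ _
  · intro a _ b _ h
    exact congrArg Subtype.val h
  · intro b _
    exact ⟨b.1, by simp, rfl⟩
  · intro _ _
    rfl

theorem conv_indD : conv (indD D) (indD D) = (Nat.card D : ℂ) • indD D := by
  classical
  funext g
  show ∑ h, indD D h * indD D (h⁻¹ * g) = (Nat.card D : ℂ) * indD D g
  rw [sum_indD]
  by_cases hg : g ∈ D
  · have h1 : ∀ d : D, indD D ((d : G)⁻¹ * g) = 1 := by
      intro d
      unfold indD
      rw [if_pos (D.mul_mem (D.inv_mem d.2) hg)]
    simp only [h1, Finset.sum_const, Finset.card_univ, nsmul_eq_mul, mul_one]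
    unfold indD
    rw [if_pos hg, mul_one, Nat.card_eq_fintype_card]
  · have h1 : ∀ d : D, indD D ((d : G)⁻¹ * g) = 0 := by
      intro d
      unfold indD
      rw [if_neg]
      intro h
      apply hg
      have := D.mul_mem d.2 h
      simpa using this
    simp only [h1, Finset.sum_const_zero]
    unfold indD
    rw [if_neg hg, mul_zero]

/-- `om χ` of the indicator, divided by `|D|`. -/
noncomputable def vD (χ : IrrCharacter G) : ℂ := om χ (indD D) / (Nat.card D : ℂ)

theorem vD_eq (χ : IrrCharacter G) : vD D χ = 0 ∨ vD D χ = 1 := by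
  have h0 : (Nat.card D : ℂ) ≠ 0 := by exact_mod_cast Nat.card_pos.ne'
  have h1 := om_conv (indD D) (indD D) (indD_isClass D) χ
  rw [conv_indD] at h1
  have h2 : om χ ((Nat.card D : ℂ) • indD D) = (Nat.card D : ℂ) * om χ (indD D) := by
    unfold om
    simp only [Pi.smul_apply, smul_eq_mul]
    have h : ∑ x, ((Nat.card D : ℂ) * indD D x) * χ.1 x
        = (Nat.card D : ℂ) * ∑ x, indD D x * χ.1 x := by
      rw [Finset.mul_sum]
      exact Finset.sum_congr rfl fun _ _ => by ring
    rw [h]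
    ring
  rw [h2] at h1
  unfold vD
  by_cases h3 : om χ (indD D) = 0
  · left
    rw [h3, zero_div]
  · right
    have : (Nat.card D : ℂ) = om χ (indD D) := by
      apply mul_right_cancel₀ h3
      rw [h1]
    rw [← this]
    exact div_self h0

theorem vD_conj (χ : IrrCharacter G) : conj (vD D χ) = vD D χ := by
  rcases vD_eq D χ with h | h <;> rw [h] <;> simp

theorem vD_mlr {M : Ideal AlgInt} [M.IsPrime] (χ : IrrCharacter G) :
    MemLocalRing M (vD D χ) := by
  rcases vD_eq D χ with h | h <;> rw [h]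
  · exact mlr_zero
  · exact mlr_one

theorem sum_char_D (χ : IrrCharacter G) (y : G) :
    ∑ d : D, conj (χ.1 (y * (d : G))) = (Nat.card D : ℂ) * (vD D χ * conj (χ.1 y)) := by
  have h0 : (Nat.card D : ℂ) ≠ 0 := by exact_mod_cast Nat.card_pos.ne'
  have h1 := sum_class_mul_char (indD D) (indD_isClass D) χ y
  rw [sum_indD] at h1
  have h2 : ∑ d : D, χ.1 (y * (d : G)) = (Nat.card D : ℂ) * (vD D χ * χ.1 y) := by
    have : ∀ d : D, χ.1 (y * (d : G)) = χ.1 ((d : G) * y) := fun d => irr_mul_comm χ _ _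
    simp only [this]
    rw [h1]
    unfold vD
    field_simp
  have h3 := congrArg (starRingEnd ℂ) h2
  rw [map_sum, map_mul, map_mul, vD_conj, Complex.conj_natCast] at h3
  exact h3

theorem sum_ofOm_mul_D (c : IrrCharacter G → ℂ) (y : G) :
    ∑ d : D, ofOm c (y * (d : G))
      = (Nat.card G : ℂ)⁻¹ * (Nat.card D : ℂ)
        * ∑ χ : IrrCharacter G, c χ * (χ.1 1 * (vD D χ * conj (χ.1 y))) := by
  unfold ofOm
  rw [← Finset.mul_sum, Finset.sum_comm, mul_assoc]
  congr 1
  rw [Finset.mul_sum]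
  refine Finset.sum_congr rfl fun χ _ => ?_
  have h := sum_char_D D χ y
  calc ∑ d : D, c χ * (χ.1 1 * conj (χ.1 (y * (d : G))))
      = c χ * χ.1 1 * ∑ d : D, conj (χ.1 (y * (d : G))) := by
        rw [Finset.mul_sum]
        exact Finset.sum_congr rfl fun _ _ => by ring
    _ = _ := by rw [h]; ring

end DSum

section Sing

variable {p : ℕ} [hp : Fact p.Prime] {M : Ideal AlgInt} [hMp : M.IsPrime]

theorem singular_of_mul {T : Subgroup G} (hT : IsPGroup p T) {x t : G} (hx : ¬ p ∣ orderOf x)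
    (hcomm : Commute x t) (ht : t ∈ T) (hne : t ≠ 1) : p ∣ orderOf (x * t) := by
  by_contra hn
  obtain ⟨k, hk⟩ := orderOf_of_pGroup hT ht
  have hk0 : k ≠ 0 := by
    rintro rfl
    rw [pow_zero, orderOf_eq_one_iff] at hk
    exact hne hk
  set N := orderOf (x * t) * orderOf x with hN
  have h1 : (x * t) ^ N = 1 := by
    rw [hN, pow_mul, pow_orderOf_eq_one, one_pow]
  rw [hcomm.mul_pow] at h1
  have h2 : x ^ N = 1 := by
    rw [hN, mul_comm, pow_mul, pow_orderOf_eq_one, one_pow]
  rw [h2, one_mul] at h1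
  have h3 : orderOf t ∣ N := orderOf_dvd_of_pow_eq_one h1
  rw [hk] at h3
  have h4 : p ∣ N := (dvd_pow_self p hk0).trans h3
  rcases (Nat.Prime.dvd_mul hp.out).mp h4 with h5 | h5
  · exact hn h5
  · exact hx h5

theorem sum_blockCoeff_p (hM : IsPModular p M) {b : Set (IrrCharacter G)} (hb : IsPBlock M b)
    {T : Subgroup G} (hT : IsPGroup p T) {x : G} (hx : ¬ p ∣ orderOf x)
    (hTx : T ≤ Subgroup.centralizer ({x} : Set G)) :
    ∑ t : T, blockCoeff b (x * (t : G)) = blockCoeff b x := by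
  classical
  rw [Finset.sum_eq_single (⟨1, T.one_mem⟩ : T)]
  · simp
  · intro t _ hne
    apply blockCoeff_eq_zero_of_singular hM hb
    apply singular_of_mul hT hx _ t.2
    · intro h
      apply hne
      exact Subtype.ext h
    · exact (mem_centralizer_singleton_iff.mp (hTx t.2))
  · intro h
    exact absurd (Finset.mem_univ _) h

/-- Formula from a `p`-subgroup. -/
theorem blockCoeff_one_of_sylow (hM : IsPModular p M) {b : Set (IrrCharacter G)}
    (hb : IsPBlock M b) {T : Subgroup G} (hT : IsPGroup p T) :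
    blockCoeff b 1 = (Nat.card G : ℂ)⁻¹ * (Nat.card T : ℂ)
        * ∑ χ : IrrCharacter G, eB b χ * χ.1 1 * muS T χ := by
  have h1 := sum_blockCoeff_p hM hb hT (x := 1) (by simp [hp.out.ne_one])
    (by
      intro t _
      simp [mem_centralizer_singleton_iff])
  rw [← h1, ← sum_ofOm_sub]
  refine Finset.sum_congr rfl fun t _ => ?_
  rw [one_mul, blockCoeff_eq_ofOm]

theorem blockCoeff_of_D (hM : IsPModular p M) {b : Set (IrrCharacter G)}
    (hb : IsPBlock M b) (D : Subgroup G) [D.Normal] (hD : IsPGroup p D) {x : G}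
    (hx : ¬ p ∣ orderOf x) (hDx : D ≤ Subgroup.centralizer ({x} : Set G)) :
    blockCoeff b x = (Nat.card G : ℂ)⁻¹ * (Nat.card D : ℂ)
        * ∑ χ : IrrCharacter G, eB b χ * (χ.1 1 * (vD D χ * conj (χ.1 x))) := by
  have h1 := sum_blockCoeff_p hM hb hD hx hDx
  rw [← h1, ← sum_ofOm_mul_D]
  refine Finset.sum_congr rfl fun t _ => ?_
  rw [blockCoeff_eq_ofOm]

end Sing

end Cfsg.Agent.H21
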