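import Cfsg.Agent.Lib.H21.BlockRankB

/-!
# Blocks with a normal defect group: the good elements
-/

set_option autoImplicit false
set_option linter.unusedSectionVars false
set_option linter.style.haveILetI false
set_option linter.unusedSimpArgs false

namespace Cfsg.Agent.H21

open scoped ComplexConjugate
open Cfsg Module Cfsg.Agent.H22

universe u v

variable {G : Type u} [Group G] [Finite G]
variable {p : ℕ} [hp : Fact p.Prime] {M : Ideal AlgInt} [hMp : M.IsPrime]

/-- `x` is `p`-regular and `D` is a Sylow `p`-subgroup of its centralizer. -/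
def GoodEl (p : ℕ) (D : Subgroup G) (x : G) : Prop :=
  ¬ p ∣ orderOf x ∧ D ≤ Subgroup.centralizer ({x} : Set G) ∧
    Nat.card D = p ^ (Nat.card (Subgroup.centralizer ({x} : Set G))).factorization p

theorem good_of_sylow {D : Subgroup G} {x : G} (hx : ¬ p ∣ orderOf x)
    (Q : Sylow p (Subgroup.centralizer ({x} : Set G)))
    (hQ : (Q : Subgroup (Subgroup.centralizer ({x} : Set G))).map
      (Subgroup.centralizer ({x} : Set G)).subtype = D) : GoodEl p D x := by
  subst hQ
  refine ⟨hx, ?_, ?_⟩
  · rintro _ ⟨u, _, rfl⟩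
    exact u.2
  · have h3 : Nat.card ((Q : Subgroup (Subgroup.centralizer ({x} : Set G))).map
        (Subgroup.centralizer ({x} : Set G)).subtype) = Nat.card Q :=
      Nat.card_congr (Subgroup.equivMapOfInjective _ _ (Subgroup.subtype_injective _)).symm.toEquiv
    rw [h3, Sylow.card_eq_multiplicity]

theorem sylow_of_good {D : Subgroup G} {x : G} (h : GoodEl p D x) :
    ∃ Q : Sylow p (Subgroup.centralizer ({x} : Set G)),
      (Q : Subgroup (Subgroup.centralizer ({x} : Set G))).map
        (Subgroup.centralizer ({x} : Set G)).subtype = D := by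
  have hc : Nat.card (D.subgroupOf (Subgroup.centralizer ({x} : Set G)))
      = p ^ (Nat.card (Subgroup.centralizer ({x} : Set G))).factorization p := by
    rw [← h.2.2]
    exact Nat.card_congr (Subgroup.subgroupOfEquivOfLe h.2.1).toEquiv
  refine ⟨Sylow.ofCard _ hc, ?_⟩
  show (D.subgroupOf (Subgroup.centralizer ({x} : Set G))).map _ = D
  rw [Subgroup.subgroupOf_map_subtype]
  exact inf_eq_left.mpr h.2.1

theorem card_cen_conj {a b : G} (h : IsConj a b) :
    Nat.card (Subgroup.centralizer ({a} : Set G)) = Nat.card (Subgroup.centralizer ({b} : Set G)) := by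
  have h1 := index_mul_card_centralizer a
  have h2 := index_mul_card_centralizer b
  have h3 : (Subgroup.centralizer ({a} : Set G)).index = (Subgroup.centralizer ({b} : Set G)).index := by
    rw [← card_isConj_eq_index a, ← card_isConj_eq_index b]
    exact Nat.card_congr (Equiv.subtypeEquivRight fun x => ⟨fun hx => hx.trans h, fun hx => hx.trans h.symm⟩)
  rw [← h2, ← h3] at h1
  exact Nat.eq_of_mul_eq_mul_left (Nat.pos_of_ne_zero Subgroup.index_ne_zero_of_finite) h1

theorem good_conj {D : Subgroup G} [hDn : D.Normal] {x y : G} (h : GoodEl p D x) (hc : IsConj x y) :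
    GoodEl p D y := by
  obtain ⟨c, rfl⟩ := isConj_iff.mp hc
  refine ⟨by rw [orderOf_conj']; exact h.1, ?_, ?_⟩
  · intro d hd
    rw [mem_centralizer_singleton_iff]
    have h1 := mem_centralizer_singleton_iff.mp (h.2.1 (hDn.conj_mem d hd c⁻¹))
    have : c * x * c⁻¹ * d = c * (x * (c⁻¹ * d * c⁻¹⁻¹)) * c⁻¹ := by group
    rw [this, h1]
    group
  · rw [← card_cen_conj hc]
    exact h.2.2

theorem centralizer_inv_eq (x : G) :
    Subgroup.centralizer ({x⁻¹} : Set G) = Subgroup.centralizer ({x} : Set G) := by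
  ext g
  simp only [mem_centralizer_singleton_iff]
  constructor
  · intro h
    have : x * g = x * (g * x⁻¹) * x := by group
    rw [this, ← h]
    group
  · intro h
    have : x⁻¹ * g = x⁻¹ * (g * x) * x⁻¹ := by group
    rw [this, ← h]
    group

theorem good_inv {D : Subgroup G} {x : G} (h : GoodEl p D x) : GoodEl p D x⁻¹ := by
  unfold GoodEl
  rw [centralizer_inv_eq, orderOf_inv]
  exact h

theorem good_max {D U : Subgroup G} {x : G} (h : GoodEl p D x) (hU : IsPGroup p U) (hDU : D ≤ U)
    (hUC : U ≤ Subgroup.centralizer ({x} : Set G)) : U = D := by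
  symm
  apply Subgroup.eq_of_le_of_card_ge hDU
  rw [h.2.2]
  obtain ⟨k, hk⟩ := IsPGroup.iff_card.mp hU
  have h1 : Nat.card U ∣ Nat.card (Subgroup.centralizer ({x} : Set G)) :=
    Subgroup.card_dvd_of_le hUC
  rw [hk] at h1 ⊢
  exact Nat.pow_le_pow_right hp.out.pos
    ((Nat.Prime.pow_dvd_iff_le_factorization hp.out Nat.card_pos.ne').mp h1)

theorem le_of_subConj_normal {Q D : Subgroup G} [hDn : D.Normal] (h : SubConj Q D) : Q ≤ D := by
  obtain ⟨c, hc⟩ := h
  intro s hs
  have h1 := hDn.conj_mem _ (hc s hs) c⁻¹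
  have : c⁻¹ * (c * s * c⁻¹) * c⁻¹⁻¹ = s := by group
  rwa [this] at h1

/-- Blocks not having `D` as defect group vanish on good classes. -/
theorem cc_mli_of_not_defect (hM : IsPModular p M) {D : Subgroup G} [D.Normal] (hD : IsPGroup p D)
    {x : G} (h : GoodEl p D x) (χ : IrrCharacter G)
    (hχ : ¬ IsDefectGroup p M (blockOf M χ.1) D) : MemLocalIdeal M (cc x χ) := by
  by_contra hx
  have hb : IsPBlock M (blockOf M χ.1) := ⟨χ, rfl⟩
  obtain ⟨D₀, hD₀⟩ := isDefectGroup_exists (p := p) hb
  have h1 : D ≤ D₀ := normal_le_defect hM hD hb hD₀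
  have h2 : SubConj D₀ D := subConj_of_cc hM hb hD₀ (self_mem_blockOf χ) hx hD h.2.1
    (fun U hU hDU hUC => good_max h hU hDU hUC)
  have h3 : D₀ = D := le_antisymm (le_of_subConj_normal h2) h1
  exact hχ (h3 ▸ hD₀)

theorem coeff_cc_of_not_good (hM : IsPModular p M) {D : Subgroup G} [D.Normal]
    {b b' : Set (IrrCharacter G)} (hb : IsPBlock M b) (hbD : IsDefectGroup p M b D)
    (hb' : IsPBlock M b') (hbD' : IsDefectGroup p M b' D) {χ : IrrCharacter G} (hχ : χ ∈ b)
    {g : G} (hg : ¬ GoodEl p D g) : MemLocalIdeal M (blockCoeff b' g * cc g χ) := by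
  by_contra hcon
  rw [mli_mul_iff (blockCoeff_mlr hb' g) (cc_mlr g χ)] at hcon
  push Not at hcon
  obtain ⟨h1, h2⟩ := hcon
  have hreg : ¬ p ∣ orderOf g := by
    intro hs
    apply h1
    rw [blockCoeff_eq_zero_of_singular hM hb' hs]
    exact mli_zero
  obtain ⟨T⟩ : Nonempty (Sylow p (Subgroup.centralizer ({g} : Set G))) := inferInstance
  set T' : Subgroup G := (T : Subgroup (Subgroup.centralizer ({g} : Set G))).map
    (Subgroup.centralizer ({g} : Set G)).subtype with hT'
  have hT'p : IsPGroup p T' := T.isPGroup'.map _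
  have hT'le : T' ≤ Subgroup.centralizer ({g} : Set G) := by
    rintro _ ⟨u, _, rfl⟩
    exact u.2
  have hgood : GoodEl p T' g := good_of_sylow hreg T rfl
  have h3 : SubConj D T' := subConj_of_cc hM hb hbD hχ h2 hT'p hT'le
    (fun U hU hDU hUC => good_max hgood hU hDU hUC)
  have h4 : SubConj T' D := subConj_defect_of_coeff hM hb' hbD' h1 hT'p hT'le
  have h5 : T' ≤ D := le_of_subConj_normal h4
  have h6 : Nat.card T' = Nat.card D := card_eq_of_subConj h4 h3
  have h7 : T' = D := Subgroup.eq_of_le_of_card_ge h5 h6.ge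
  exact hg (h7 ▸ hgood)

/-- Size of a good class. -/
theorem exists_index_good {D : Subgroup G} {x : G} (h : GoodEl p D x) :
    ∃ u : ℕ, (Subgroup.centralizer ({x} : Set G)).index
        = p ^ ((Nat.card G).factorization p - (Nat.card D).factorization p) * u ∧ ¬ p ∣ u := by
  have h1 := factorization_index_add (p := p) x
  have h2 : (Nat.card D).factorization p
      = (Nat.card (Subgroup.centralizer ({x} : Set G))).factorization p := by
    rw [h.2.2, Nat.Prime.factorization_pow hp.out, Finsupp.single_eq_same]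
  have h3 : (Nat.card G).factorization p - (Nat.card D).factorization p
      = (Subgroup.centralizer ({x} : Set G)).index.factorization p := by
    omega
  have h0 : (Subgroup.centralizer ({x} : Set G)).index ≠ 0 := Subgroup.index_ne_zero_of_finite
  refine ⟨ordCompl[p] (Subgroup.centralizer ({x} : Set G)).index, ?_, Nat.not_dvd_ordCompl hp.out h0⟩
  rw [h3, Nat.ordProj_mul_ordCompl_eq_self]

/-- The degrees in a block with defect group `D`. -/
theorem pow_dvd_degree (hM : IsPModular p M) {D : Subgroup G} {b : Set (IrrCharacter G)}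
    (hb : IsPBlock M b) (hbD : IsDefectGroup p M b D) {χ : IrrCharacter G} (hχ : χ ∈ b) :
    p ^ ((Nat.card G).factorization p - (Nat.card D).factorization p) ∣ charDegree χ.1 := by
  have h1 := card_defect hM hb hbD
  have h2 : (Nat.card D).factorization p = blockDefect p b := by
    rw [h1, Nat.Prime.factorization_pow hp.out, Finsupp.single_eq_same]
  rw [← minExp_eq_of_defect hb h2.symm]
  exact pow_minExp_dvd hp.out hχ

end Cfsg.Agent.H21
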