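import Cfsg.Agent.Lib.H21.BlockRankC

/-!
# Blocks with a normal defect group: congruences
-/

set_option autoImplicit false
set_option linter.unusedSectionVars false
set_option linter.style.haveILetI false
set_option linter.unusedSimpArgs false

namespace Cfsg.Agent.H21

open scoped ComplexConjugate
open Cfsg Module Cfsg.Agent.H22

universe u v

variable {G : Type u} [Group G] [Finite G]
variable {p : ℕ} [hp : Fact p.Prime] {M : Ideal AlgInt} [hMp : M.IsPrime]

/-- The `p'`-part of the group order. -/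
noncomputable abbrev gpr (p : ℕ) (G : Type u) [Group G] [Finite G] : ℕ := ordCompl[p] (Nat.card G)

/-- The exponent `a - d`. -/
noncomputable abbrev vexp (p : ℕ) (D : Subgroup G) : ℕ :=
  (Nat.card G).factorization p - (Nat.card D).factorization p

theorem gpr_not_dvd : ¬ p ∣ gpr p G := Nat.not_dvd_ordCompl hp.out Nat.card_pos.ne'

theorem gpr_ne_zero : (gpr p G : ℂ) ≠ 0 := by
  have : gpr p G ≠ 0 := by
    intro h
    exact gpr_not_dvd (p := p) (G := G) (h ▸ dvd_zero p)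
  exact_mod_cast this

theorem pp_ne_zero (n : ℕ) : ((p : ℂ)) ^ n ≠ 0 :=
  pow_ne_zero _ (by exact_mod_cast hp.out.ne_zero)

theorem card_inv_mul_sylow (S : Sylow p G) :
    (Nat.card G : ℂ)⁻¹ * (Nat.card S : ℂ) = (gpr p G : ℂ)⁻¹ := by
  have h1 := Nat.ordProj_mul_ordCompl_eq_self (Nat.card G) p
  have h2 := Sylow.card_eq_multiplicity S
  have h3 : (Nat.card G : ℂ) = (Nat.card S : ℂ) * (gpr p G : ℂ) := by
    rw [h2]
    exact_mod_cast h1.symm
  have h0 : (Nat.card S : ℂ) ≠ 0 := by exact_mod_cast Nat.card_pos.ne'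
  have h4 := gpr_ne_zero (p := p) (G := G)
  rw [h3]
  field_simp

theorem card_inv_mul_D {D : Subgroup G} (hD : IsPGroup p D) :
    (Nat.card G : ℂ)⁻¹ * (Nat.card D : ℂ) = ((gpr p G : ℂ) * (p : ℂ) ^ vexp p D)⁻¹ := by
  have h1 := Nat.ordProj_mul_ordCompl_eq_self (Nat.card G) p
  obtain ⟨k, hk⟩ := IsPGroup.iff_card.mp hD
  have h2 : (Nat.card D).factorization p = k := by
    rw [hk, Nat.Prime.factorization_pow hp.out, Finsupp.single_eq_same]
  have h3 : k ≤ (Nat.card G).factorization p := by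
    apply (Nat.Prime.pow_dvd_iff_le_factorization hp.out Nat.card_pos.ne').mp
    rw [← hk]
    exact Subgroup.card_subgroup_dvd_card D
  have h4 : (Nat.card G).factorization p = k + vexp p D := by
    unfold vexp
    omega
  have h5 : (Nat.card G : ℂ) = (Nat.card D : ℂ) * ((gpr p G : ℂ) * (p : ℂ) ^ vexp p D) := by
    rw [hk]
    have : (p ^ (Nat.card G).factorization p * gpr p G : ℕ) = Nat.card G := h1
    rw [← this, h4, pow_add]
    push_cast
    ring
  have h0 : (Nat.card D : ℂ) ≠ 0 := by exact_mod_cast Nat.card_pos.ne'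
  have h6 := gpr_ne_zero (p := p) (G := G)
  have h7 := pp_ne_zero (p := p) (vexp p D)
  rw [h5]
  field_simp

/-- `E_b(1) / p ^ v`. -/
noncomputable def tauB (p : ℕ) (D : Subgroup G) (b : Set (IrrCharacter G)) : ℂ :=
  blockCoeff b 1 / (p : ℂ) ^ vexp p D

/-- `χ(1) / p ^ v`. -/
noncomputable def cdeg (p : ℕ) (D : Subgroup G) (χ : IrrCharacter G) : ℂ :=
  χ.1 1 / (p : ℂ) ^ vexp p D

theorem gp_mul_tauB (hM : IsPModular p M) {b : Set (IrrCharacter G)} (hb : IsPBlock M b)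
    (D : Subgroup G) (S : Sylow p G) :
    (gpr p G : ℂ) * tauB p D b = ∑ χ : IrrCharacter G, eB b χ * (cdeg p D χ * muS S χ) := by
  have h1 := blockCoeff_one_of_sylow hM hb (T := (S : Subgroup G)) S.isPGroup'
  have h2 := card_inv_mul_sylow S
  have h3 : (Nat.card (S : Subgroup G) : ℂ) = (Nat.card S : ℂ) := rfl
  rw [h3, h2] at h1
  unfold tauB
  rw [h1]
  have h4 := gpr_ne_zero (p := p) (G := G)
  have h5 : ∀ χ : IrrCharacter G, eB b χ * (cdeg p D χ * muS S χ)
      = (eB b χ * χ.1 1 * muS S χ) / (p : ℂ) ^ vexp p D := by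
    intro χ
    unfold cdeg
    ring
  simp only [h5]
  rw [← Finset.sum_div]
  field_simp

theorem cdeg_nat (hM : IsPModular p M) {D : Subgroup G} {b : Set (IrrCharacter G)}
    (hb : IsPBlock M b) (hbD : IsDefectGroup p M b D) {χ : IrrCharacter G} (hχ : χ ∈ b) :
    ∃ c : ℕ, cdeg p D χ = c := by
  obtain ⟨c, hc⟩ := pow_dvd_degree hM hb hbD hχ
  refine ⟨c, ?_⟩
  unfold cdeg
  rw [one_eq_charDegree (isCharacter_of_irr χ.2), hc]
  have := pp_ne_zero (p := p) (vexp p D)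
  push_cast
  field_simp

theorem cdeg_mlr (hM : IsPModular p M) {D : Subgroup G} {b : Set (IrrCharacter G)}
    (hb : IsPBlock M b) (hbD : IsDefectGroup p M b D) {χ : IrrCharacter G} (hχ : χ ∈ b) :
    MemLocalRing M (cdeg p D χ) := by
  obtain ⟨c, hc⟩ := cdeg_nat hM hb hbD hχ
  rw [hc]
  exact mlr_natCast c

theorem cc_inv_eq_cdeg {D : Subgroup G} {x : G} {u : ℕ}
    (hu : (Subgroup.centralizer ({x} : Set G)).index = p ^ vexp p D * u) (χ : IrrCharacter G) :
    (u : ℂ) * χ.1 x⁻¹ = cc x⁻¹ χ * cdeg p D χ := by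
  have h1 := cc_inv_mul_one x χ
  rw [hu] at h1
  unfold cdeg
  have := pp_ne_zero (p := p) (vexp p D)
  push_cast at h1
  field_simp
  rw [h1]
  ring

/-- The count of pairs. -/
theorem pairs_formula {D : Subgroup G} (hD : IsPGroup p D) (S : Sylow p G) {x y : G} {u : ℕ}
    (hu : (Subgroup.centralizer ({x} : Set G)).index = p ^ vexp p D * u) :
    ((Nat.card {yz : G × G // IsConj yz.1 x ∧ IsConj yz.2 y ∧ yz.2 * yz.1⁻¹ ∈ (S : Subgroup G)} : ℕ) : ℂ)
        * (gpr p G : ℂ) / (p : ℂ) ^ vexp p D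
      = ∑ χ : IrrCharacter G, cc y χ * ((u : ℂ) * χ.1 x⁻¹) * muS S χ := by
  rw [card_pairs, sum_ofOm_sub]
  have h2 := card_inv_mul_sylow S
  have h3 : (Nat.card (S : Subgroup G) : ℂ) = (Nat.card S : ℂ) := rfl
  rw [h3, h2]
  have h4 := gpr_ne_zero (p := p) (G := G)
  have h7 := pp_ne_zero (p := p) (vexp p D)
  have h8 : ∀ χ : IrrCharacter G, (cc y * cc x⁻¹) χ * χ.1 1 * muS S χ
      = (p : ℂ) ^ vexp p D * (cc y χ * ((u : ℂ) * χ.1 x⁻¹) * muS S χ) := by
    intro χ
    have h1 := cc_inv_mul_one x χ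
    rw [hu] at h1
    push_cast at h1
    show cc y χ * cc x⁻¹ χ * χ.1 1 * muS S χ = _
    rw [mul_assoc (cc y χ), h1]
    ring
  simp only [h8]
  rw [← Finset.mul_sum]
  field_simp
  exact Finset.sum_congr rfl fun _ _ => by ring

theorem pairs_integral {D : Subgroup G} (hD : IsPGroup p D) (S : Sylow p G) {x y : G} {u : ℕ}
    (hu : (Subgroup.centralizer ({x} : Set G)).index = p ^ vexp p D * u) :
    p ^ vexp p D ∣ Nat.card {yz : G × G // IsConj yz.1 x ∧ IsConj yz.2 y ∧ yz.2 * yz.1⁻¹ ∈ (S : Subgroup G)} := by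
  have h1 := pairs_formula hD S (y := y) hu
  set W := Nat.card {yz : G × G // IsConj yz.1 x ∧ IsConj yz.2 y ∧ yz.2 * yz.1⁻¹ ∈ (S : Subgroup G)}
  have h2 : IsIntegral ℤ (∑ χ : IrrCharacter G, cc y χ * ((u : ℂ) * χ.1 x⁻¹) * muS S χ) := by
    refine IsIntegral.sum _ fun χ _ => ?_
    obtain ⟨m, hm⟩ := muS_nat (S : Subgroup G) χ
    have h3 : muS S χ = m := hm
    rw [h3]
    exact ((cc_isIntegral y χ).mul ((isIntegral_natCast u).mul (irr_isIntegral' χ _))).mul (isIntegral_natCast m)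
  rw [← h1] at h2
  have h3 : IsIntegral ℤ (((W * gpr p G : ℕ) : ℂ) / ((p ^ vexp p D : ℕ) : ℂ)) := by
    push_cast
    exact h2
  have h4 := H23.dvd_of_isIntegral_div (pow_pos hp.out.pos _) h3
  have h5 : Nat.Coprime (p ^ vexp p D) (gpr p G) :=
    Nat.Coprime.pow_left _ ((Nat.Prime.coprime_iff_not_dvd hp.out).mpr gpr_not_dvd)
  exact h5.dvd_of_dvd_mul_right h4

end Cfsg.Agent.H21
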