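import Cfsg.Agent.Lib.H21.BlockRankD

/-!
# Blocks with a normal defect group: the main congruences
-/

set_option autoImplicit false
set_option linter.unusedSectionVars false
set_option linter.style.haveILetI false
set_option linter.unusedSimpArgs false

namespace Cfsg.Agent.H21

open scoped ComplexConjugate
open Cfsg Module Cfsg.Agent.H22

universe u v

variable {G : Type u} [Group G] [Finite G]
variable {p : ℕ} [hp : Fact p.Prime] {M : Ideal AlgInt} [hMp : M.IsPrime]

theorem cc_sameBlock {χ ψ : IrrCharacter G} (h : SameBlock M χ.1 ψ.1) (g : G) :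
    MemLocalIdeal M (cc g χ - cc g ψ) := h g

theorem mli_mul_sub_mul {a b a' b' : ℂ} (ha : MemLocalRing M a) (hb' : MemLocalRing M b')
    (h1 : MemLocalIdeal M (a - a')) (h2 : MemLocalIdeal M (b - b')) :
    MemLocalIdeal M (a * b - a' * b') := by
  have : a * b - a' * b' = a * (b - b') + (a - a') * b' := by ring
  rw [this]
  exact mli_add (mli_mul_left h2 ha) (mli_mul_right h1 hb')

theorem gpr_inv_mlr (hM : IsPModular p M) : MemLocalRing M ((gpr p G : ℂ)⁻¹) := by
  refine (mlr_inv (mlr_natCast _) ?_).2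
  rw [mli_natCast_iff hM]
  exact gpr_not_dvd

section

variable (hM : IsPModular p M) {D : Subgroup G} [hDn : D.Normal] (hD : IsPGroup p D)
  (S : Sylow p G)

include hM hD

/-- The bracket in the main congruence. -/
theorem bracket_mli (rep : {B : Set (IrrCharacter G) //
      IsPBlock M B ∧ IsDefectGroup p M B D} → IrrCharacter G)
    (hrep : ∀ b, rep b ∈ b.1) {x y : G} (hx : GoodEl p D x) (hy : GoodEl p D y) {u : ℕ}
    (hu : (Subgroup.centralizer ({x} : Set G)).index = p ^ vexp p D * u) (χ : IrrCharacter G) :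
    MemLocalIdeal M (cc y χ * ((u : ℂ) * χ.1 x⁻¹)
      - ∑ b : {B : Set (IrrCharacter G) // IsPBlock M B ∧ IsDefectGroup p M B D},
        eB b.1 χ * cdeg p D χ * (cc x⁻¹ (rep b) * cc y (rep b))) := by
  classical
  by_cases hχ : IsDefectGroup p M (blockOf M χ.1) D
  · -- `χ` is in a block with defect group `D`
    let b₀ : {B : Set (IrrCharacter G) // IsPBlock M B ∧ IsDefectGroup p M B D} :=
      ⟨blockOf M χ.1, ⟨χ, rfl⟩, hχ⟩
    have hχb₀ : χ ∈ b₀.1 := self_mem_blockOf χ
    rw [Finset.sum_eq_single b₀]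
    · rw [eB_apply_mem hχb₀, one_mul, cc_inv_eq_cdeg hu χ]
      have h1 : cc y χ * (cc x⁻¹ χ * cdeg p D χ) - cdeg p D χ * (cc x⁻¹ (rep b₀) * cc y (rep b₀))
          = cdeg p D χ * (cc y χ * cc x⁻¹ χ - cc y (rep b₀) * cc x⁻¹ (rep b₀)) := by ring
      rw [h1]
      refine mli_mul_left ?_ (cdeg_mlr hM b₀.2.1 b₀.2.2 hχb₀)
      have hs : SameBlock M χ.1 (rep b₀).1 := hrep b₀
      exact mli_mul_sub_mul (cc_mlr _ _) (cc_mlr _ _) (cc_sameBlock hs _) (cc_sameBlock hs _)
    · intro b _ hne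
      have : χ ∉ b.1 := by
        intro hmem
        apply hne
        apply Subtype.ext
        exact block_eq_of_mem b.2.1 hmem
      rw [eB_apply_not_mem this, zero_mul, zero_mul]
    · intro h
      exact absurd (Finset.mem_univ _) h
  · have h0 : ∀ b : {B : Set (IrrCharacter G) // IsPBlock M B ∧ IsDefectGroup p M B D},
        eB b.1 χ = 0 := by
      intro b
      apply eB_apply_not_mem
      intro hmem
      apply hχ
      rw [← block_eq_of_mem b.2.1 hmem]
      exact b.2.2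
    simp only [h0, zero_mul, Finset.sum_const_zero, sub_zero]
    refine mli_mul_right (cc_mli_of_not_defect hM hD hy χ hχ) ?_
    exact mlr_mul (mlr_natCast u) (mlr_of_isIntegral (irr_isIntegral' χ _))

/-- The main congruence. -/
theorem main_congr (rep : {B : Set (IrrCharacter G) //
      IsPBlock M B ∧ IsDefectGroup p M B D} → IrrCharacter G)
    (hrep : ∀ b, rep b ∈ b.1) {x y : G} (hx : GoodEl p D x) (hy : GoodEl p D y) :
    MemLocalIdeal M (((Nat.card {yz : G × G // IsConj yz.1 x ∧ IsConj yz.2 y ∧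
          yz.2 * yz.1⁻¹ ∈ (S : Subgroup G)} / p ^ vexp p D : ℕ) : ℂ)
      - ∑ b : {B : Set (IrrCharacter G) // IsPBlock M B ∧ IsDefectGroup p M B D},
        tauB p D b.1 * (cc x⁻¹ (rep b) * cc y (rep b))) := by
  classical
  obtain ⟨u, hu, -⟩ := exists_index_good hx
  have hdvd := pairs_integral hD S (y := y) hu
  have h1 := pairs_formula hD S (y := y) hu
  set W := Nat.card {yz : G × G // IsConj yz.1 x ∧ IsConj yz.2 y ∧ yz.2 * yz.1⁻¹ ∈ (S : Subgroup G)}
  have hpp := pp_ne_zero (p := p) (vexp p D)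
  have hn : ((W / p ^ vexp p D : ℕ) : ℂ) = (W : ℂ) / (p : ℂ) ^ vexp p D := by
    rw [Nat.cast_div hdvd (by push_cast; exact hpp)]
    push_cast
    rfl
  have hgp := gpr_ne_zero (p := p) (G := G)
  have h2 : ((W / p ^ vexp p D : ℕ) : ℂ)
      = (gpr p G : ℂ)⁻¹ * ∑ χ : IrrCharacter G, cc y χ * ((u : ℂ) * χ.1 x⁻¹) * muS S χ := by
    rw [← h1, hn]
    field_simp
  have h3 : ∀ b : {B : Set (IrrCharacter G) // IsPBlock M B ∧ IsDefectGroup p M B D},
      tauB p D b.1 = (gpr p G : ℂ)⁻¹ * ∑ χ : IrrCharacter G, eB b.1 χ * (cdeg p D χ * muS S χ) := by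
    intro b
    rw [← gp_mul_tauB hM b.2.1 D S]
    field_simp
  have h4 : ∑ b : {B : Set (IrrCharacter G) // IsPBlock M B ∧ IsDefectGroup p M B D},
        tauB p D b.1 * (cc x⁻¹ (rep b) * cc y (rep b))
      = (gpr p G : ℂ)⁻¹ * ∑ χ : IrrCharacter G,
          (∑ b : {B : Set (IrrCharacter G) // IsPBlock M B ∧ IsDefectGroup p M B D},
            eB b.1 χ * cdeg p D χ * (cc x⁻¹ (rep b) * cc y (rep b))) * muS S χ := by
    simp only [h3, Finset.sum_mul, Finset.mul_sum]
    rw [Finset.sum_comm]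
    refine Finset.sum_congr rfl fun χ _ => Finset.sum_congr rfl fun b _ => ?_
    ring
  rw [h2, h4, ← mul_sub, ← Finset.sum_sub_distrib]
  refine mli_mul_left ?_ (gpr_inv_mlr hM)
  refine mli_sum _ _ fun χ _ => ?_
  rw [← sub_mul]
  exact mli_mul_right (bracket_mli hM hD rep hrep hx hy hu χ) (muS_mlr _ _)

end

section Classes

variable {D : Subgroup G} [hDn : D.Normal]
variable {ι : Type v} [Fintype ι] (K : ι → ConjClasses G) (hinj : Function.Injective K)
  (hK : ∀ g : G, (∃ i, K i = ConjClasses.mk g) ↔ GoodEl p D g)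

theorem mk_out (C : ConjClasses G) : ConjClasses.mk C.out = C := Quot.out_eq C

include hK in
theorem good_out (i : ι) : GoodEl p D (K i).out :=
  (hK _).mp ⟨i, (mk_out _).symm⟩

theorem class_congr {F : G → ℂ} (hF : IsClassFunction G F) {a b : G} (h : IsConj a b) : F a = F b := by
  obtain ⟨c, rfl⟩ := isConj_iff.mp h
  exact (hF a c).symm

include hinj hK in
/-- Reindexing by inverses. -/
theorem sum_inv_reindex (F : G → ℂ) (hF : IsClassFunction G F) :
    ∑ i, F (K i).out⁻¹ = ∑ i, F (K i).out := by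
  classical
  have hex : ∀ i, ∃ j, K j = ConjClasses.mk (K i).out⁻¹ := fun i =>
    (hK _).mpr (good_inv (good_out K hK i))
  choose σ hσ using hex
  have hconj : ∀ i, IsConj (K i).out⁻¹ (K (σ i)).out := by
    intro i
    rw [← ConjClasses.mk_eq_mk_iff_isConj, mk_out, hσ i]
  have hinv : Function.Involutive σ := by
    intro i
    apply hinj
    rw [hσ, ← mk_out (K i), ConjClasses.mk_eq_mk_iff_isConj]
    have h1 := isConj_inv_inv (hconj i)
    rw [inv_inv] at h1
    exact h1.symm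
  calc ∑ i, F (K i).out⁻¹ = ∑ i, F (K (σ i)).out :=
        Finset.sum_congr rfl fun i _ => class_congr hF (hconj i)
    _ = ∑ i, F (K i).out := Equiv.sum_comp (Function.Involutive.toPerm σ hinv) (fun i => F (K i).out)

variable (hM : IsPModular p M)

include hM hinj hK in
/-- The right inverse. -/
theorem sum_good_congr {b b' : Set (IrrCharacter G)} (hb : IsPBlock M b)
    (hbD : IsDefectGroup p M b D) (hb' : IsPBlock M b') (hbD' : IsDefectGroup p M b' D)
    {χ : IrrCharacter G} (hχ : χ ∈ b) :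
    MemLocalIdeal M (∑ i, blockCoeff b' (K i).out * cc (K i).out χ - eB b' χ) := by
  classical
  have h1 := om_eq_sum_classes (blockCoeff b') (blockCoeff_isClass b') χ
  have h2 : blockCoeff b' = ofOm (eB b') := funext (blockCoeff_eq_ofOm b')
  have h3 : om χ (blockCoeff b') = eB b' χ := by
    rw [h2, om_ofOm]
  rw [h3] at h1
  rw [h1]
  set f : ConjClasses G → ℂ := fun C => blockCoeff b' C.out * cc C.out χ with hf
  have h4 : ∑ i, blockCoeff b' (K i).out * cc (K i).out χ = ∑ C ∈ Finset.univ.image K, f C := by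
    rw [Finset.sum_image (fun a _ c _ h => hinj h)]
  rw [h4, ← Finset.sum_sdiff (Finset.subset_univ (Finset.univ.image K))]
  have h5 : ∑ C ∈ Finset.univ.image K, f C
      - (∑ C ∈ Finset.univ \ Finset.univ.image K, f C + ∑ C ∈ Finset.univ.image K, f C)
      = - ∑ C ∈ Finset.univ \ Finset.univ.image K, f C := by ring
  rw [h5]
  refine mli_neg (mli_sum _ _ fun C hC => ?_)
  refine coeff_cc_of_not_good hM hb hbD hb' hbD' hχ ?_
  intro hg
  obtain ⟨i, hi⟩ := (hK _).mpr hg
  rw [mk_out] at hi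
  simp only [Finset.mem_sdiff, Finset.mem_univ, true_and, Finset.mem_image, not_exists] at hC
  exact hC i hi

include hM in
theorem gp_mul_tauB_D {b : Set (IrrCharacter G)} (hb : IsPBlock M b) (hD : IsPGroup p D) :
    (gpr p G : ℂ) * tauB p D b
      = ∑ χ : IrrCharacter G, eB b χ * (vD D χ * (cdeg p D χ) ^ 2) := by
  have h1 := blockCoeff_of_D hM hb D hD (x := 1) (by simp [hp.out.ne_one])
    (by
      intro t _
      simp [mem_centralizer_singleton_iff])
  rw [card_inv_mul_D hD] at h1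
  unfold tauB
  rw [h1]
  have hgp := gpr_ne_zero (p := p) (G := G)
  have hpp := pp_ne_zero (p := p) (vexp p D)
  have h2 : ∀ χ : IrrCharacter G, eB b χ * (χ.1 1 * (vD D χ * conj (χ.1 1)))
      = (p : ℂ) ^ vexp p D * (p : ℂ) ^ vexp p D * (eB b χ * (vD D χ * (cdeg p D χ) ^ 2)) := by
    intro χ
    rw [irr_one_conj]
    unfold cdeg
    field_simp
  simp only [h2]
  rw [← Finset.mul_sum]
  field_simp

include hM in
theorem u_mul_coeff {b : Set (IrrCharacter G)} (hb : IsPBlock M b) (hD : IsPGroup p D)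
    {x : G} (hx : GoodEl p D x) {u : ℕ}
    (hu : (Subgroup.centralizer ({x} : Set G)).index = p ^ vexp p D * u) :
    (u : ℂ) * blockCoeff b x = (gpr p G : ℂ)⁻¹ *
      ∑ χ : IrrCharacter G, eB b χ * (vD D χ * (cdeg p D χ) ^ 2 * cc x⁻¹ χ) := by
  have h1 := blockCoeff_of_D hM hb D hD hx.1 hx.2.1
  rw [card_inv_mul_D hD] at h1
  rw [h1]
  have hgp := gpr_ne_zero (p := p) (G := G)
  have hpp := pp_ne_zero (p := p) (vexp p D)
  have h2 : ∀ χ : IrrCharacter G, (u : ℂ) * (eB b χ * (χ.1 1 * (vD D χ * conj (χ.1 x))))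
      = (p : ℂ) ^ vexp p D * (eB b χ * (vD D χ * (cdeg p D χ) ^ 2 * cc x⁻¹ χ)) := by
    intro χ
    rw [← irr_inv']
    have h3 := cc_inv_eq_cdeg hu χ
    calc (u : ℂ) * (eB b χ * (χ.1 1 * (vD D χ * χ.1 x⁻¹)))
        = eB b χ * χ.1 1 * vD D χ * ((u : ℂ) * χ.1 x⁻¹) := by ring
      _ = _ := by
        rw [h3]
        unfold cdeg
        field_simp
  have h4 : (u : ℂ) * (((gpr p G : ℂ) * (p : ℂ) ^ vexp p D)⁻¹ *
        ∑ χ : IrrCharacter G, eB b χ * (χ.1 1 * (vD D χ * conj (χ.1 x))))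
      = ((gpr p G : ℂ) * (p : ℂ) ^ vexp p D)⁻¹ *
        ∑ χ : IrrCharacter G, (u : ℂ) * (eB b χ * (χ.1 1 * (vD D χ * conj (χ.1 x)))) := by
    rw [← Finset.mul_sum]
    ring
  rw [h4]
  simp only [h2]
  rw [← Finset.mul_sum]
  field_simp

include hM in
/-- `τ` is a local integer. -/
theorem tauB_mlr {b : Set (IrrCharacter G)} (hb : IsPBlock M b) (hbD : IsDefectGroup p M b D)
    (hD : IsPGroup p D) : MemLocalRing M (tauB p D b) := by
  have h1 := gp_mul_tauB_D hM hb hD
  have hgp := gpr_ne_zero (p := p) (G := G)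
  have h2 : tauB p D b = (gpr p G : ℂ)⁻¹ *
      ∑ χ : IrrCharacter G, eB b χ * (vD D χ * (cdeg p D χ) ^ 2) := by
    rw [← h1]
    field_simp
  rw [h2]
  refine mlr_mul (gpr_inv_mlr hM) (mlr_sum _ _ fun χ _ => ?_)
  by_cases hχ : χ ∈ b
  · have hc := cdeg_mlr hM hb hbD hχ
    rw [eB_apply_mem hχ, one_mul, pow_two]
    exact mlr_mul (vD_mlr D χ) (mlr_mul hc hc)
  · rw [eB_apply_not_mem hχ, zero_mul]
    exact mlr_zero

include hM hinj hK in
/-- `τ` is a local unit. -/
theorem tauB_not_mli {b : Set (IrrCharacter G)} (hb : IsPBlock M b) (hbD : IsDefectGroup p M b D)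
    (hD : IsPGroup p D) : ¬ MemLocalIdeal M (tauB p D b) := by
  intro hτ
  obtain ⟨χ₀, hχ₀⟩ := block_nonempty hb
  have hall : ∀ i, MemLocalIdeal M (blockCoeff b (K i).out) := by
    intro i
    have hx := good_out K hK i
    set x := (K i).out with hxdef
    obtain ⟨u, hu, hunot⟩ := exists_index_good hx
    have e1 := u_mul_coeff hM hb hD hx hu
    have e2 := gp_mul_tauB_D hM hb hD
    have e3 : MemLocalIdeal M ((u : ℂ) * blockCoeff b x) := by
      have hgp := gpr_ne_zero (p := p) (G := G)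
      have e4 : (u : ℂ) * blockCoeff b x = tauB p D b * cc x⁻¹ χ₀ + (gpr p G : ℂ)⁻¹ *
          ∑ χ : IrrCharacter G, eB b χ * (vD D χ * (cdeg p D χ) ^ 2 * (cc x⁻¹ χ - cc x⁻¹ χ₀)) := by
        rw [e1]
        have e5 : tauB p D b = (gpr p G : ℂ)⁻¹ *
            ∑ χ : IrrCharacter G, eB b χ * (vD D χ * (cdeg p D χ) ^ 2) := by
          rw [← e2]
          field_simp
        rw [e5, mul_assoc, ← mul_add]
        congr 1
        rw [Finset.sum_mul, ← Finset.sum_add_distrib]
        refine Finset.sum_congr rfl fun χ _ => ?_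
        ring
      rw [e4]
      refine mli_add (mli_mul_right hτ (cc_mlr _ _)) (mli_mul_left ?_ (gpr_inv_mlr hM))
      refine mli_sum _ _ fun χ _ => ?_
      by_cases hχ : χ ∈ b
      · have hc := cdeg_mlr hM hb hbD hχ
        rw [eB_apply_mem hχ, one_mul, pow_two]
        refine mli_mul_left (cc_sameBlock (block_sameBlock hb hχ hχ₀) _) ?_
        exact mlr_mul (vD_mlr D χ) (mlr_mul hc hc)
      · rw [eB_apply_not_mem hχ, zero_mul]
        exact mli_zero
    rcases (mli_mul_iff (mlr_natCast u) (blockCoeff_mlr hb x)).mp e3 with h | h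
    · exact absurd ((mli_natCast_iff hM u).mp h) hunot
    · exact h
  have h1 := sum_good_congr K hinj hK hM hb hbD hb hbD hχ₀
  rw [eB_apply_mem hχ₀] at h1
  apply not_mli_one (M := M)
  have h2 : MemLocalIdeal M (∑ i, blockCoeff b (K i).out * cc (K i).out χ₀) :=
    mli_sum _ _ fun i _ => mli_mul_right (hall i) (cc_mlr _ _)
  have h3 := mli_sub h2 h1
  simpa using h3

end Classes

end Cfsg.Agent.H21
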