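import Cfsg.Agent.Lib.H21.BlockRankE

/-!
# Blocks with a normal defect group: the rank formula
-/

set_option autoImplicit false
set_option linter.unusedSectionVars false
set_option linter.style.haveILetI false
set_option linter.unusedSimpArgs false

namespace Cfsg.Agent.H21

open scoped ComplexConjugate
open Cfsg Module Cfsg.Agent.H22

universe u v

section Pk

variable (M : Ideal AlgInt) [hMp : M.IsPrime]

open Classical in
/-- Reduction of local integers to the residue field, extended by zero. -/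
noncomputable def pk (z : ℂ) : IsLocalRing.ResidueField (locR M) :=
  if h : z ∈ locR M then piK M ⟨z, h⟩ else 0

variable {M}

theorem pk_of_mlr {z : ℂ} (h : MemLocalRing M z) : pk M z = piK M ⟨z, (mem_locR M).2 h⟩ := by
  unfold pk
  rw [dif_pos ((mem_locR M).2 h)]

theorem pk_add {z w : ℂ} (hz : MemLocalRing M z) (hw : MemLocalRing M w) :
    pk M (z + w) = pk M z + pk M w := by
  rw [pk_of_mlr hz, pk_of_mlr hw, pk_of_mlr (mlr_add hz hw), ← map_add]
  rfl

theorem pk_mul {z w : ℂ} (hz : MemLocalRing M z) (hw : MemLocalRing M w) :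
    pk M (z * w) = pk M z * pk M w := by
  rw [pk_of_mlr hz, pk_of_mlr hw, pk_of_mlr (mlr_mul hz hw), ← map_mul]
  rfl

theorem pk_zero : pk M 0 = 0 := by
  rw [pk_of_mlr mlr_zero]
  exact map_zero (piK M)

theorem pk_one : pk M 1 = 1 := by
  rw [pk_of_mlr mlr_one]
  exact map_one (piK M)

theorem pk_natCast (n : ℕ) : pk M (n : ℂ) = (n : IsLocalRing.ResidueField (locR M)) := by
  rw [pk_of_mlr (mlr_natCast n)]
  have : (⟨(n : ℂ), (mem_locR M).2 (mlr_natCast n)⟩ : locR M) = (n : locR M) := by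
    apply Subtype.ext
    simp
  rw [this, map_natCast]

theorem pk_sum {ι : Type*} (s : Finset ι) (f : ι → ℂ) (h : ∀ i ∈ s, MemLocalRing M (f i)) :
    pk M (∑ i ∈ s, f i) = ∑ i ∈ s, pk M (f i) := by
  classical
  induction s using Finset.induction_on with
  | empty => simp [pk_zero]
  | insert a s ha ih =>
    rw [Finset.sum_insert ha, Finset.sum_insert ha,
      pk_add (h a (Finset.mem_insert_self _ _))
        (mlr_sum _ _ fun i hi => h i (Finset.mem_insert_of_mem hi)),
      ih fun i hi => h i (Finset.mem_insert_of_mem hi)]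

theorem pk_eq_of_mli {z w : ℂ} (hz : MemLocalRing M z) (hw : MemLocalRing M w)
    (h : MemLocalIdeal M (z - w)) : pk M z = pk M w := by
  rw [pk_of_mlr hz, pk_of_mlr hw, piK_eq_iff]
  exact h

theorem pk_ne_zero {z : ℂ} (hz : MemLocalRing M z) (h : ¬ MemLocalIdeal M z) : pk M z ≠ 0 := by
  rw [pk_of_mlr hz]
  intro h0
  exact h ((piK_eq_zero_iff _).mp h0)

end Pk

variable {G : Type u} [Group G] [Finite G]
variable {p : ℕ} [hp : Fact p.Prime] {M : Ideal AlgInt} [hMp : M.IsPrime]

theorem charP_residue (hM : IsPModular p M) : CharP (IsLocalRing.ResidueField (locR M)) p := by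
  have h0 : (p : IsLocalRing.ResidueField (locR M)) = 0 := by
    rw [← pk_natCast, ← pk_zero (M := M)]
    apply pk_eq_of_mli (mlr_natCast p) mlr_zero
    rw [sub_zero, mli_natCast_iff hM]
  exact ringChar.of_eq (CharP.ringChar_of_prime_eq_zero hp.out h0)

theorem blockCoeff_cc_isClass (b : Set (IrrCharacter G)) (χ : IrrCharacter G) :
    IsClassFunction G (fun g => blockCoeff b g * cc g χ) := by
  intro g k
  show blockCoeff b (k * g * k⁻¹) * cc (k * g * k⁻¹) χ = blockCoeff b g * cc g χ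
  rw [blockCoeff_isClass b g k, cc_conj_eq χ (isConj_iff.mpr ⟨k, rfl⟩ : IsConj g (k * g * k⁻¹)).symm]

/-- The rank formula. -/
theorem rank_formula (hM : IsPModular p M) {D : Subgroup G} [hDn : D.Normal] (hD : IsPGroup p D)
    (S : Sylow p G) {ι : Type v} [Fintype ι] (K : ι → ConjClasses G)
    (hinj : Function.Injective K) (hK : ∀ g : G, (∃ i, K i = ConjClasses.mk g) ↔ GoodEl p D g) :
    Nat.card {B : Set (IrrCharacter G) // IsPBlock M B ∧ IsDefectGroup p M B D}
      = (Matrix.of fun i j : ι => ((Nat.card {yz : G × G // IsConj yz.1 (K i).out ∧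
          IsConj yz.2 (K j).out ∧ yz.2 * yz.1⁻¹ ∈ (S : Subgroup G)} / p ^ vexp p D : ℕ) : ZMod p)).rank := by
  classical
  haveI : CharP (IsLocalRing.ResidueField (locR M)) p := charP_residue hM
  let f : ZMod p →+* IsLocalRing.ResidueField (locR M) := ZMod.castHom (dvd_refl p) _
  have hne : ∀ b : {B : Set (IrrCharacter G) // IsPBlock M B ∧ IsDefectGroup p M B D},
      ∃ χ, χ ∈ b.1 := fun b => block_nonempty b.2.1
  choose rep hrep using hne
  rw [← rank_map_field f]
  let x : ι → G := fun i => (K i).out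
  have hgood : ∀ i, GoodEl p D (x i) := good_out K hK
  have hdelta : ∀ b b' : {B : Set (IrrCharacter G) // IsPBlock M B ∧ IsDefectGroup p M B D},
      pk M (eB b'.1 (rep b)) = (1 : Matrix _ _ (IsLocalRing.ResidueField (locR M))) b b' := by
    intro b b'
    by_cases h : b = b'
    · subst h
      rw [eB_apply_mem (hrep b), Matrix.one_apply_eq, pk_one]
    · rw [Matrix.one_apply_ne h, eB_apply_not_mem, pk_zero]
      intro hmem
      apply h
      apply Subtype.ext
      exact block_eq_of_inter b.2.1 b'.2.1 (hrep b) hmem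
  refine (rank_of_factor _
    (Matrix.of fun b j => pk M (cc (x j) (rep b)))
    (Matrix.of fun i b => pk M (cc (x i)⁻¹ (rep b)))
    (fun b => pk M (tauB p D b.1))
    (fun b => pk_ne_zero (tauB_mlr hM b.2.1 b.2.2 hD) (tauB_not_mli K hinj hK hM b.2.1 b.2.2 hD))
    ?_
    (Matrix.of fun j b => pk M (blockCoeff b.1 (x j))) ?_
    (Matrix.of fun b i => pk M (blockCoeff b.1 (x i)⁻¹)) ?_).symm ▸ ?_
  · ext i j
    rw [Matrix.mul_apply]
    simp only [Matrix.map_apply, Matrix.of_apply, Matrix.mul_diagonal]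
    rw [map_natCast, ← pk_natCast]
    rw [pk_eq_of_mli (mlr_natCast _) (mlr_sum _ _ fun b _ =>
        mlr_mul (tauB_mlr hM b.2.1 b.2.2 hD) (mlr_mul (cc_mlr _ _) (cc_mlr _ _)))
      (main_congr hM hD S rep hrep (hgood i) (hgood j))]
    rw [pk_sum _ _ fun b _ =>
        mlr_mul (tauB_mlr hM b.2.1 b.2.2 hD) (mlr_mul (cc_mlr _ _) (cc_mlr _ _))]
    refine Finset.sum_congr rfl fun b _ => ?_
    rw [pk_mul (tauB_mlr hM b.2.1 b.2.2 hD) (mlr_mul (cc_mlr _ _) (cc_mlr _ _)),
      pk_mul (cc_mlr _ _) (cc_mlr _ _)]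
    ring
  · ext b b'
    simp only [Matrix.mul_apply, Matrix.of_apply]
    rw [← hdelta b b']
    rw [← pk_eq_of_mli (mlr_sum _ _ fun j _ => mlr_mul (blockCoeff_mlr b'.2.1 _) (cc_mlr _ _))
      (ZR_values (eB_mem_ZR b'.2.1) _)
      (sum_good_congr K hinj hK hM b.2.1 b.2.2 b'.2.1 b'.2.2 (hrep b))]
    rw [pk_sum _ _ fun j _ => mlr_mul (blockCoeff_mlr b'.2.1 _) (cc_mlr _ _)]
    refine Finset.sum_congr rfl fun j _ => ?_
    rw [pk_mul (blockCoeff_mlr b'.2.1 _) (cc_mlr _ _)]
    exact mul_comm _ _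
  · ext b b'
    simp only [Matrix.mul_apply, Matrix.of_apply]
    have h1 : (1 : Matrix _ _ (IsLocalRing.ResidueField (locR M))) b b' = pk M (eB b.1 (rep b')) := by
      rw [hdelta b' b]
      by_cases h : b = b'
      · subst h
        rfl
      · rw [Matrix.one_apply_ne h, Matrix.one_apply_ne (Ne.symm h)]
    rw [h1]
    rw [← pk_eq_of_mli (mlr_sum _ _ fun j _ => mlr_mul (blockCoeff_mlr b.2.1 _) (cc_mlr _ _))
      (ZR_values (eB_mem_ZR b.2.1) _)
      (sum_good_congr K hinj hK hM b'.2.1 b'.2.2 b.2.1 b.2.2 (hrep b'))]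
    rw [← sum_inv_reindex K hinj hK (fun g => blockCoeff b.1 g * cc g (rep b'))
      (blockCoeff_cc_isClass b.1 (rep b'))]
    rw [pk_sum _ _ fun j _ => mlr_mul (blockCoeff_mlr b.2.1 _) (cc_mlr _ _)]
    refine Finset.sum_congr rfl fun j _ => ?_
    rw [pk_mul (blockCoeff_mlr b.2.1 _) (cc_mlr _ _)]
  · rw [Nat.card_eq_fintype_card]

end Cfsg.Agent.H21
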