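import Cfsg.Agent.Lib.H21.BlockRankF
import Cfsg.Agent.Lib.H21.FirstMain

/-!
# The number of blocks with a Sylow defect group
-/

set_option autoImplicit false
set_option linter.unusedSectionVars false
set_option linter.style.haveILetI false
set_option linter.unusedSimpArgs false

namespace Cfsg.Agent.H21

open scoped ComplexConjugate
open Cfsg Module Cfsg.Agent.H22

universe u v

variable {G : Type u} [Group G] [Finite G]
variable {p : ℕ} [hp : Fact p.Prime] {M : Ideal AlgInt} [hMp : M.IsPrime]

/-- Blocks of `G` with defect group `D` correspond to blocks of `N_G(D)` with defect group `D`. -/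
theorem card_blocks_first_main (hM : IsPModular p M) {D : Subgroup G} (hD : IsPGroup p D) :
    Nat.card {B : Set (IrrCharacter G) // IsPBlock M B ∧ IsDefectGroup p M B D}
      = Nat.card {b : Set (IrrCharacter (Subgroup.normalizer (D : Set G))) // IsPBlock M b ∧
          IsDefectGroup p M b (D.subgroupOf (Subgroup.normalizer (D : Set G)))} := by
  classical
  have h2 := fun B : {B : Set (IrrCharacter G) // IsPBlock M B ∧ IsDefectGroup p M B D} =>
    first_main_two hM B.2.1 B.2.2
  choose Φ hΦ hΦu using h2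
  refine Nat.card_congr (Equiv.ofBijective (fun B => ⟨Φ B, (hΦ B).1, (hΦ B).2.1⟩) ⟨?_, ?_⟩)
  · intro B B' h
    have h1 : Φ B = Φ B' := congrArg Subtype.val h
    apply Subtype.ext
    have h3 := (hΦ B).2.2
    rw [h1] at h3
    exact induced_unique h3 (hΦ B').2.2
  · rintro ⟨b, hb, hdb⟩
    obtain ⟨B, hB, hBD, hind⟩ := first_main_one hM hD hb hdb
    refine ⟨⟨B, hB, hBD⟩, Subtype.ext ?_⟩
    exact (hΦu ⟨B, hB, hBD⟩ b ⟨hb, hdb, hind⟩).symm

/-- A normal Sylow subgroup. -/
theorem count_normal_sylow {N : Type u} [Group N] [Finite N] (hM : IsPModular p M) (D : Subgroup N)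
    [hDn : D.Normal] (hD : IsPGroup p D) (hcard : Nat.card D = p ^ (Nat.card N).factorization p) :
    Nat.card {b : Set (IrrCharacter N) // IsPBlock M b ∧ IsDefectGroup p M b D}
      = Nat.card {C : ConjClasses N // ∀ n : N, ConjClasses.mk n = C →
          ¬ p ∣ orderOf n ∧ D ≤ Subgroup.centralizer ({n} : Set N)} := by
  classical
  have hgoodiff : ∀ g : N, GoodEl p D g ↔ ¬ p ∣ orderOf g ∧ D ≤ Subgroup.centralizer ({g} : Set N) := by
    intro g
    refine ⟨fun h => ⟨h.1, h.2.1⟩, fun h => ⟨h.1, h.2, ?_⟩⟩
    have h1 : Nat.card D ∣ Nat.card (Subgroup.centralizer ({g} : Set N)) :=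
      Subgroup.card_dvd_of_le h.2
    have h2 : Nat.card (Subgroup.centralizer ({g} : Set N)) ∣ Nat.card N :=
      Subgroup.card_subgroup_dvd_card _
    have h3 : (Nat.card N).factorization p ≤ (Nat.card (Subgroup.centralizer ({g} : Set N))).factorization p := by
      apply (Nat.Prime.pow_dvd_iff_le_factorization hp.out Nat.card_pos.ne').mp
      rw [← hcard]
      exact h1
    have h4 : (Nat.card (Subgroup.centralizer ({g} : Set N))).factorization p ≤ (Nat.card N).factorization p :=
      (Nat.factorization_le_iff_dvd Nat.card_pos.ne' Nat.card_pos.ne').mpr h2 p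
    rw [hcard, le_antisymm h3 h4]
  let ι := {C : ConjClasses N // ∀ n : N, ConjClasses.mk n = C →
          ¬ p ∣ orderOf n ∧ D ≤ Subgroup.centralizer ({n} : Set N)}
  let K : ι → ConjClasses N := Subtype.val
  have hinj : Function.Injective K := Subtype.val_injective
  have hK : ∀ g : N, (∃ i, K i = ConjClasses.mk g) ↔ GoodEl p D g := by
    intro g
    constructor
    · rintro ⟨i, hi⟩
      exact (hgoodiff g).mpr (i.2 g hi.symm)
    · intro h
      refine ⟨⟨ConjClasses.mk g, fun n hn => ?_⟩, rfl⟩
      have hc : IsConj g n := (ConjClasses.mk_eq_mk_iff_isConj.mp hn).symm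
      exact (hgoodiff n).mp (good_conj h hc)
  let S : Sylow p N := Sylow.ofCard D hcard
  have hSD : (S : Subgroup N) = D := rfl
  rw [rank_formula hM hD S K hinj hK]
  have hv : vexp p D = 0 := by
    unfold vexp
    rw [hcard, Nat.Prime.factorization_pow hp.out, Finsupp.single_eq_same, Nat.sub_self]
  simp only [hv, pow_zero, Nat.div_one]
  -- `y` and `z` coincide
  have heq : ∀ (i j : ι) (y z : N), IsConj y (K i).out → IsConj z (K j).out →
      z * y⁻¹ ∈ (S : Subgroup N) → z = y := by
    intro i j y z hy hz hs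
    have hgy : GoodEl p D y := good_conj (good_out K hK i) hy.symm
    have hgz : GoodEl p D z := good_conj (good_out K hK j) hz.symm
    by_contra hne
    have hs1 : z * y⁻¹ ≠ 1 := fun h => hne (mul_inv_eq_one.mp h)
    have hcomm : Commute y (z * y⁻¹) :=
      mem_centralizer_singleton_iff.mp (hgy.2.1 hs)
    have h1 := singular_of_mul hD hgy.1 hcomm hs hs1
    have h2 : y * (z * y⁻¹) = z := by
      have := hcomm.eq
      rw [this]
      group
    rw [h2] at h1
    exact hgz.1 h1
  have hmat : (Matrix.of fun i j : ι => ((Nat.card {yz : N × N // IsConj yz.1 (K i).out ∧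
        IsConj yz.2 (K j).out ∧ yz.2 * yz.1⁻¹ ∈ (S : Subgroup N)} : ℕ) : ZMod p))
      = Matrix.diagonal (fun i : ι => (((Subgroup.centralizer ({(K i).out} : Set N)).index : ℕ) : ZMod p)) := by
    ext i j
    rw [Matrix.of_apply]
    by_cases hij : i = j
    · subst hij
      rw [Matrix.diagonal_apply_eq]
      congr 1
      rw [← card_isConj_eq_index]
      refine Nat.card_congr ⟨fun yz => ⟨yz.1.1, yz.2.1⟩,
        fun y => ⟨(y.1, y.1), y.2, y.2, by simp [S.one_mem']⟩, ?_, ?_⟩
      · rintro ⟨⟨y, z⟩, h⟩
        apply Subtype.ext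
        have := heq i i y z h.1 h.2.1 h.2.2
        simp [this]
      · intro y
        rfl
    · rw [Matrix.diagonal_apply_ne _ hij]
      have hempty : IsEmpty {yz : N × N // IsConj yz.1 (K i).out ∧
          IsConj yz.2 (K j).out ∧ yz.2 * yz.1⁻¹ ∈ (S : Subgroup N)} := by
        constructor
        rintro ⟨⟨y, z⟩, h⟩
        have h1 := heq i j y z h.1 h.2.1 h.2.2
        apply hij
        apply hinj
        simp only at h h1
        rw [h1] at h
        rw [← mk_out (K i), ← mk_out (K j), ConjClasses.mk_eq_mk_iff_isConj]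
        exact h.1.symm.trans h.2.1
      rw [Nat.card_of_isEmpty]
      simp
  rw [hmat, Matrix.rank_diagonal, Fintype.card_eq_nat_card]
  refine Nat.card_congr (Equiv.subtypeUnivEquiv fun i => ?_)
  obtain ⟨u, hu, hnot⟩ := exists_index_good (good_out K hK i)
  have hv' : (Nat.card N).factorization p - (Nat.card D).factorization p = 0 := hv
  rw [hv', pow_zero, one_mul] at hu
  rw [hu]
  intro h0
  exact hnot ((ZMod.natCast_eq_zero_iff _ _).mp h0)

end Cfsg.Agent.H21
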