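import Cfsg.Agent.Lib.H21.KernelPPrime
import Cfsg.Agent.Lib.H01.Basic
import Cfsg.Agent.Lib.H01.Fitting
import Cfsg.Agent.Lib.H09.KSeq2
import Cfsg.Agent.Lib.H23.RealDeg3

/-!
# Larger degrees with smaller kernels (Broline and Garrison)

For `χ` irreducible with kernel `K`, if `K` is not nilpotent, or `K` is the Fitting subgroup and
`G / K` is solvable and nontrivial, then there is an irreducible character of larger degree with
kernel properly inside `K`.
-/

set_option autoImplicit false
set_option linter.unusedSectionVars false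
set_option linter.style.haveILetI false
set_option linter.unusedSimpArgs false

namespace Cfsg.Agent.H21

open scoped ComplexConjugate
open Cfsg Module Cfsg.Agent.H22

universe u

section Larger

variable {G : Type u} [Group G] [Finite G]

/-- A character trivial on the normal subgroup `X` restricts irreducibly to a supplement of `X`. -/
theorem irr_restrict_of_supplement (X N : Subgroup G) [X.Normal]
    (hXN : ∀ g : G, ∃ x ∈ X, ∃ n ∈ N, g = x * n) {χ : G → ℂ} (hχ : IsIrrCharacter G χ)
    (hk : ∀ x ∈ X, χ x = χ 1) : IsIrrCharacter N (fun n : N => χ n) := by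
  obtain ⟨χ', hχ', hcomp⟩ := exists_descend X hχ hk
  let f : N →* G ⧸ X := (QuotientGroup.mk' X).comp N.subtype
  have hf : Function.Surjective f := by
    intro y
    obtain ⟨g, rfl⟩ := QuotientGroup.mk'_surjective X y
    obtain ⟨x, hx, n, hn, rfl⟩ := hXN g
    refine ⟨⟨n, hn⟩, ?_⟩
    show (QuotientGroup.mk' X) n = (QuotientGroup.mk' X) (x * n)
    have hx1 : QuotientGroup.mk' X x = 1 := (QuotientGroup.eq_one_iff x).2 hx
    rw [map_mul, hx1, one_mul]
  have h := isIrrCharacter_comp_of_surjective f hf hχ'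
  have h2 : (χ' ∘ f) = fun n : N => χ n := by
    funext n
    rw [← hcomp]
    rfl
  rwa [h2] at h

/-- A character with an irreducible constituent of at least the same degree is that constituent. -/
theorem eq_of_inner_ne_of_le {K : Type*} [Group K] [Finite K] {φ : K → ℂ} (hφ : IsCharacter K φ)
    (ν : IrrCharacter K) (h : classInner φ ν.1 ≠ 0) (hd : charDegree φ ≤ charDegree ν.1) :
    φ = ν.1 := by
  classical
  haveI : Fintype (IrrCharacter K) := Fintype.ofFinite _
  obtain ⟨m, hm, hm'⟩ := isCharacter_decomp hφ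
  have hmν : 1 ≤ m ν := by
    by_contra h0
    have h1 : m ν = 0 := by omega
    apply h
    rw [hm', h1]
    simp
  have hsum : (∑ μ : IrrCharacter K, m μ * charDegree μ.1) = charDegree φ := by
    have h1 : φ 1 = (charDegree φ : ℂ) := one_eq_charDegree hφ
    have h2 : φ 1 = ∑ μ : IrrCharacter K, (m μ : ℂ) * μ.1 1 := by
      conv_lhs => rw [hm]
      simp [Finset.sum_apply]
    have h3 : ∀ μ : IrrCharacter K, μ.1 1 = (charDegree μ.1 : ℂ) := fun μ =>
      one_eq_charDegree (isCharacter_of_irr μ.2)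
    simp only [h3] at h2
    rw [h1] at h2
    exact_mod_cast h2.symm
  have hpos : ∀ μ : IrrCharacter K, 0 < charDegree μ.1 := by
    intro μ
    have h1 := irr_one_ne_zero' μ
    rw [one_eq_charDegree (isCharacter_of_irr μ.2)] at h1
    have : charDegree μ.1 ≠ 0 := fun h0 => h1 (by rw [h0]; simp)
    omega
  have hsplit := Finset.add_sum_erase Finset.univ (fun μ : IrrCharacter K => m μ * charDegree μ.1)
    (Finset.mem_univ ν)
  rw [hsum] at hsplit
  have hposν := hpos ν
  have h1 : m ν = 1 := by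
    by_contra hne
    have : 2 ≤ m ν := by omega
    have : 2 * charDegree ν.1 ≤ m ν * charDegree ν.1 := Nat.mul_le_mul_right _ this
    omega
  have h2 : ∑ μ ∈ Finset.univ.erase ν, m μ * charDegree μ.1 = 0 := by
    rw [h1] at hsplit
    omega
  have h3 : ∀ μ, μ ≠ ν → m μ = 0 := by
    intro μ hμ
    have h4 := (Finset.sum_eq_zero_iff.1 h2) μ (Finset.mem_erase.2 ⟨hμ, Finset.mem_univ _⟩)
    have h5 := hpos μ
    exact (Nat.mul_eq_zero.1 h4).resolve_right h5.ne'
  rw [hm, Finset.sum_eq_single ν, h1, one_smul]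
  · intro μ _ hμ
    rw [h3 μ hμ, zero_smul]
  · intro h0
    exact absurd (Finset.mem_univ _) h0

/-- Inside the character induced from the restriction of `χ` to a supplement `N` of `X ≤ ker χ`
there is a constituent of larger degree, when `χ` does not vanish at some element of `N` outside the
core of `N`. -/
theorem exists_larger (X N : Subgroup G) [X.Normal] (hXN : ∀ g : G, ∃ x ∈ X, ∃ n ∈ N, g = x * n)
    (χ : IrrCharacter G) (hk : ∀ x ∈ X, χ.1 x = χ.1 1) {n₀ : G} (hn₀ : n₀ ∈ N) (hne : χ.1 n₀ ≠ 0)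
    (a : G) (ha : a⁻¹ * n₀ * a ∉ N) :
    ∃ ψ : IrrCharacter G, charDegree χ.1 < charDegree ψ.1 ∧
      classInner (fun n : N => ψ.1 n) (fun n : N => χ.1 n) ≠ 0 := by
  classical
  haveI : Fintype (IrrCharacter G) := Fintype.ofFinite _
  have hνirr := irr_restrict_of_supplement X N hXN χ.2 hk
  let ν : IrrCharacter N := ⟨fun n => χ.1 n, hνirr⟩
  by_contra hcon
  push Not at hcon
  have hexp := classFunction_expansion (indFun N ν.1) (indFun_isClass N ν.1)
  have hclassψ : ∀ ψ : IrrCharacter G, IsClassFunction G ψ.1 := fun ψ =>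
    isClassFunction_of_isCharacter (isCharacter_of_irr ψ.2)
  have hres : ∀ ψ : IrrCharacter G, classInner (indFun N ν.1) ψ.1 ≠ 0 →
      ∀ n : N, ψ.1 n = χ.1 n := by
    intro ψ hψ n
    have h1 : classInner (indFun N ν.1) ψ.1 = classInner ν.1 (fun h : N => ψ.1 h) :=
      frobenius_reciprocity N ν.1 ψ.1 (hclassψ ψ)
    have h2 : classInner (fun h : N => ψ.1 h) ν.1 ≠ 0 := by
      intro h0
      apply hψ
      rw [h1, ← classInner_comm_conj, h0]
      simp
    have hdeg : charDegree ψ.1 ≤ charDegree χ.1 := not_lt.1 fun h => h2 (hcon ψ h)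
    have hφ : IsCharacter N (fun h : N => ψ.1 h) := isCharacter_restrict N (isCharacter_of_irr ψ.2)
    have hdeg1 : charDegree (fun h : N => ψ.1 h) = charDegree ψ.1 := by
      have h3 := one_eq_charDegree hφ
      have h4 := one_eq_charDegree (isCharacter_of_irr ψ.2)
      have h5 : (charDegree (fun h : N => ψ.1 h) : ℂ) = charDegree ψ.1 := by
        rw [← h3, ← h4]
        rfl
      exact_mod_cast h5
    have hdeg2 : charDegree ν.1 = charDegree χ.1 := by
      have h3 := one_eq_charDegree (isCharacter_of_irr ν.2)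
      have h4 := one_eq_charDegree (isCharacter_of_irr χ.2)
      have h5 : (charDegree ν.1 : ℂ) = charDegree χ.1 := by
        rw [← h3, ← h4]
        rfl
      exact_mod_cast h5
    have := eq_of_inner_ne_of_le hφ ν h2 (by rw [hdeg1, hdeg2]; exact hdeg)
    exact congrFun this n
  have hval : ∀ n : N, indFun N ν.1 n =
      (∑ ψ : IrrCharacter G, classInner (indFun N ν.1) ψ.1) * χ.1 n := by
    intro n
    conv_lhs => rw [hexp]
    simp only [Finset.sum_apply, Pi.smul_apply, smul_eq_mul, Finset.sum_mul]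
    refine Finset.sum_congr rfl fun ψ _ => ?_
    by_cases h0 : classInner (indFun N ν.1) ψ.1 = 0
    · rw [h0]
      simp
    · rw [hres ψ h0 n]
  have h1 := hval 1
  have hind1 : indFun N ν.1 ((1 : N) : G) = (N.index : ℂ) * χ.1 1 := by
    have := indFun_one N ν.1
    simpa [ν] using this
  rw [hind1] at h1
  have hχ1 : χ.1 1 ≠ 0 := irr_one_ne_zero' χ
  have hc : (∑ ψ : IrrCharacter G, classInner (indFun N ν.1) ψ.1) = N.index := by
    have h3 : χ.1 ((1 : N) : G) = χ.1 1 := rfl
    rw [h3] at h1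
    exact (mul_right_cancel₀ hχ1 h1).symm
  have h2 := hval ⟨n₀, hn₀⟩
  rw [hc] at h2
  -- the formula for the induced character
  have hformula : indFun N ν.1 n₀ = (Nat.card N : ℂ)⁻¹ *
      (χ.1 n₀ * ((Finset.univ.filter fun x : G => x⁻¹ * n₀ * x ∈ N).card : ℂ)) := by
    unfold indFun
    congr 1
    rw [Finset.card_filter]
    push_cast
    rw [Finset.mul_sum]
    refine Finset.sum_congr rfl fun x _ => ?_
    by_cases hx : x⁻¹ * n₀ * x ∈ N
    · rw [if_pos hx, mul_one]
      have h3 := extendByZero_coe N ν.1 ⟨_, hx⟩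
      have h5 := hclassψ χ n₀ x⁻¹
      rw [inv_inv] at h5
      exact h3.trans h5
    · rw [if_neg hx, mul_zero]
      exact extendByZero_of_not_mem N ν.1 hx
  have h3 : indFun N ν.1 n₀ = (N.index : ℂ) * χ.1 n₀ := h2
  rw [hformula] at h3
  have hNne : (Nat.card N : ℂ) ≠ 0 := by
    exact_mod_cast Nat.card_pos.ne'
  have hcard : ((Finset.univ.filter fun x : G => x⁻¹ * n₀ * x ∈ N).card : ℂ) =
      (Nat.card G : ℂ) := by
    have h4 : (Nat.card G : ℂ) = (N.index : ℂ) * (Nat.card N : ℂ) := by
      have := Subgroup.card_mul_index N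
      rw [← this]
      push_cast
      ring
    rw [h4]
    field_simp at h3
    rw [h3]
    ring
  have hcard' : (Finset.univ.filter fun x : G => x⁻¹ * n₀ * x ∈ N).card = Fintype.card G := by
    have : ((Finset.univ.filter fun x : G => x⁻¹ * n₀ * x ∈ N).card : ℂ) = (Fintype.card G : ℂ) := by
      rw [hcard, Nat.card_eq_fintype_card]
    exact_mod_cast this
  have hall := (Finset.card_eq_iff_eq_univ _).1 hcard'
  have hamem : a ∈ (Finset.univ.filter fun x : G => x⁻¹ * n₀ * x ∈ N) := by
    rw [hall]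
    exact Finset.mem_univ a
  exact ha (Finset.mem_filter.1 hamem).2

end Larger

section Frattini

variable {G : Type u} [Group G] [Finite G]

/-- The image of a characteristic subgroup of a normal subgroup is normal. -/
theorem map_normal_of_characteristic' {H : Subgroup G} [H.Normal] (K : Subgroup H)
    [hK : K.Characteristic] : (K.map H.subtype).Normal := by
  constructor
  rintro _ ⟨k, hk, rfl⟩ g
  have h := (Subgroup.characteristic_iff_le_comap.1 hK) (MulAut.conjNormal g) hk
  exact ⟨_, h, by simp [MulAut.conjNormal_apply]⟩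

/-- The Frattini argument, as a supplement of `X` inside `G`. -/
theorem frattini_supplement (X S : Subgroup G) [X.Normal] [S.Normal] {q : ℕ} [Fact q.Prime]
    (Q : Sylow q S) (hS : ∀ s ∈ S, ∃ x ∈ X, ∃ t ∈ (Q : Subgroup S).map S.subtype, s = x * t) (g : G) :
    ∃ x ∈ X, ∃ n ∈ (Subgroup.normalizer (((Q : Subgroup S).map S.subtype : Subgroup G) : Set G)), g = x * n := by
  have h := Sylow.normalizer_sup_eq_top Q
  have hg : g ∈ (Subgroup.normalizer (((Q : Subgroup S).map S.subtype : Subgroup G) : Set G)) ⊔ S := by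
    rw [h]
    trivial
  have hg' : g ∈ ((Subgroup.normalizer (((Q : Subgroup S).map S.subtype : Subgroup G) : Set G) ⊔ S :
      Subgroup G) : Set G) := hg
  rw [Subgroup.mul_normal] at hg'
  obtain ⟨n, hn, s, hs, rfl⟩ := Set.mem_mul.1 hg'
  have hconj : n * s * n⁻¹ ∈ S := (inferInstance : S.Normal).conj_mem s hs n
  obtain ⟨x, hx, t, ht, hxt⟩ := hS _ hconj
  refine ⟨x, hx, t * n, mul_mem (Subgroup.le_normalizer ht) hn, ?_⟩
  calc n * s = (n * s * n⁻¹) * n := by group
    _ = x * (t * n) := by rw [hxt, mul_assoc]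

/-- The inductive step: a larger degree and a smaller kernel by the Frattini argument. -/
theorem frattini_step (X : Subgroup G) [hXn : X.Normal]
    (hmin : ∀ M : Subgroup G, M.Normal → M ≤ X → M = ⊥ ∨ M = X) (χ : IrrCharacter G)
    (K : Subgroup G) (hK : ∀ g : G, g ∈ K ↔ χ.1 g = χ.1 1) (hXK : X ≤ K) {q : ℕ} [Fact q.Prime]
    (S : Subgroup G) [hSn : S.Normal] (Q : Sylow q S)
    (hS : ∀ s ∈ S, ∃ x ∈ X, ∃ t ∈ (Q : Subgroup S).map S.subtype, s = x * t) {n₀ : G}
    (hn₀ : n₀ ∈ (Subgroup.normalizer (((Q : Subgroup S).map S.subtype : Subgroup G) : Set G))) (hne : χ.1 n₀ ≠ 0) (a : G)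
    (ha : a⁻¹ * n₀ * a ∉ (Subgroup.normalizer (((Q : Subgroup S).map S.subtype : Subgroup G) : Set G))) :
    ∃ ψ : IrrCharacter G, charDegree χ.1 < charDegree ψ.1 ∧
      ∃ L : Subgroup G, (∀ g : G, g ∈ L ↔ ψ.1 g = ψ.1 1) ∧ L < K := by
  classical
  have hk : ∀ x ∈ X, χ.1 x = χ.1 1 := fun x hx => (hK x).1 (hXK hx)
  have hXN := frattini_supplement X S Q hS
  obtain ⟨ψ, hdeg, hin⟩ := exists_larger X _ hXN χ hk hn₀ hne a ha
  have hψc := isCharacter_of_irr ψ.2
  have hLn : (charKer ψ.1 hψc).Normal := inferInstance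
  have hXL : ¬ X ≤ charKer ψ.1 hψc := by
    intro hle
    have hirr := irr_restrict_of_supplement X _ hXN ψ.2 (fun x hx => hle hx)
    have hirr2 := irr_restrict_of_supplement X _ hXN χ.2 hk
    have heq : (fun n : (Subgroup.normalizer (((Q : Subgroup S).map S.subtype : Subgroup G) : Set G)) => ψ.1 n) =
        (fun n : (Subgroup.normalizer (((Q : Subgroup S).map S.subtype : Subgroup G) : Set G)) => χ.1 n) := by
      by_contra hne'
      exact hin (H06.classInner_irr_ne hirr hirr2 hne')
    have h1 : ψ.1 1 = χ.1 1 := congrFun heq 1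
    rw [one_eq_charDegree hψc, one_eq_charDegree (isCharacter_of_irr χ.2)] at h1
    have h2 : charDegree ψ.1 = charDegree χ.1 := by exact_mod_cast h1
    omega
  have hLX : ∀ y, y ∈ charKer ψ.1 hψc → y ∈ X → y = 1 := by
    have := hmin (charKer ψ.1 hψc ⊓ X) inferInstance inf_le_right
    rcases this with h | h
    · intro y hy hy'
      have h3 : y ∈ charKer ψ.1 hψc ⊓ X := ⟨hy, hy'⟩
      rw [h] at h3
      exact h3
    · exact absurd (fun x hx => (h.symm ▸ hx : x ∈ charKer ψ.1 hψc ⊓ X).1) hXL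
  -- the kernel normalises the Sylow subgroup
  have hEp : IsPGroup q ((charKer ψ.1 hψc ⊓ S).subgroupOf S) := by
    rintro ⟨⟨e, heS⟩, he⟩
    have he' : e ∈ charKer ψ.1 hψc ⊓ S := Subgroup.mem_subgroupOf.1 he
    obtain ⟨x, hx, t, ⟨t', ht', rfl⟩, hxt⟩ := hS e heS
    obtain ⟨k, hk'⟩ := (Q.isPGroup' ⟨t', ht'⟩)
    refine ⟨k, ?_⟩
    have ht1 : (t' : G) ^ q ^ k = 1 := by
      have := congrArg (fun z : (Q : Subgroup S) => ((z : S) : G)) hk'
      simpa using this
    have hmem : e ^ q ^ k ∈ X := by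
      rw [← QuotientGroup.eq_one_iff]
      have h1 : ((e : G) : G ⧸ X) = ((t' : G) : G ⧸ X) := by
        rw [hxt]
        have hx1 : ((x : G) : G ⧸ X) = 1 := (QuotientGroup.eq_one_iff x).2 hx
        show ((x * t' : G) : G ⧸ X) = _
        rw [QuotientGroup.mk_mul, hx1, one_mul]
      rw [QuotientGroup.mk_pow, h1, ← QuotientGroup.mk_pow, ht1]
      rfl
    have h3 : e ^ q ^ k = 1 := hLX _ (pow_mem he'.1 _) hmem
    apply Subtype.ext
    apply Subtype.ext
    simpa using h3
  have hENorm : ((charKer ψ.1 hψc ⊓ S).subgroupOf S).Normal :=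
    Subgroup.Normal.subgroupOf inferInstance S
  have hEQ : (charKer ψ.1 hψc ⊓ S).subgroupOf S ≤ (Q : Subgroup S) :=
    (H01.le_pCore hENorm hEp).trans (H01.pCore_le_sylow q Q)
  have hstep : ∀ l ∈ charKer ψ.1 hψc, ∀ s ∈ (Q : Subgroup S).map S.subtype,
      l * s * l⁻¹ ∈ (Q : Subgroup S).map S.subtype := by
    rintro l hl _ ⟨s, hs, rfl⟩
    have hcS : l * (s : G) * l⁻¹ * (s : G)⁻¹ ∈ S :=
      mul_mem (hSn.conj_mem _ s.2 l) (inv_mem s.2)
    have hcL : l * (s : G) * l⁻¹ * (s : G)⁻¹ ∈ charKer ψ.1 hψc := by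
      have h1 : l * (s : G) * l⁻¹ * (s : G)⁻¹ = l * ((s : G) * l⁻¹ * (s : G)⁻¹) := by group
      rw [h1]
      exact mul_mem hl (hLn.conj_mem _ (inv_mem hl) _)
    have hmem : (⟨_, hcS⟩ : S) ∈ (Q : Subgroup S) :=
      hEQ (Subgroup.mem_subgroupOf.2 ⟨hcL, hcS⟩)
    refine ⟨(⟨_, hcS⟩ : S) * s, mul_mem hmem hs, ?_⟩
    simp
  have hLN : charKer ψ.1 hψc ≤ (Subgroup.normalizer (((Q : Subgroup S).map S.subtype : Subgroup G) : Set G)) := by
    intro l hl
    rw [Subgroup.mem_normalizer_iff]
    intro h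
    refine ⟨hstep l hl h, fun h' => ?_⟩
    have := hstep l⁻¹ (inv_mem hl) _ h'
    have h2 : l⁻¹ * (l * h * l⁻¹) * l⁻¹⁻¹ = h := by group
    rwa [h2] at this
  refine ⟨ψ, hdeg, charKer ψ.1 hψc, fun g => Iff.rfl, ?_⟩
  have hφ : IsCharacter (Subgroup.normalizer (((Q : Subgroup S).map S.subtype : Subgroup G) : Set G))
      (fun n : (Subgroup.normalizer (((Q : Subgroup S).map S.subtype : Subgroup G) : Set G)) => ψ.1 n) :=
    isCharacter_restrict _ hψc
  have hLK : charKer ψ.1 hψc ≤ K := by
    intro l hl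
    rw [hK]
    have := kernel_of_constituent hφ
      ⟨_, irr_restrict_of_supplement X _ hXN χ.2 hk⟩ hin (k := ⟨l, hLN hl⟩) hl
    exact this
  exact lt_of_le_of_ne hLK fun h => hXL (h ▸ hXK)

/-- A minimal normal `q`-subgroup is abelian. -/
theorem abelian_of_min_normal_pGroup (X : Subgroup G) [hXn : X.Normal] (hX1 : X ≠ ⊥)
    (hmin : ∀ M : Subgroup G, M.Normal → M ≤ X → M = ⊥ ∨ M = X) {q : ℕ} [Fact q.Prime]
    (hq : IsPGroup q X) : ∀ x ∈ X, ∀ y ∈ X, x * y = y * x := by
  haveI : Nontrivial X := (Subgroup.nontrivial_iff_ne_bot X).2 hX1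
  have hZ := hq.bot_lt_center
  have hZn : ((Subgroup.center X).map X.subtype).Normal := map_normal_of_characteristic' _
  have hZle : (Subgroup.center X).map X.subtype ≤ X := by
    rintro _ ⟨z, -, rfl⟩
    exact z.2
  rcases hmin _ hZn hZle with h | h
  · exfalso
    obtain ⟨z, hz, hz1⟩ := SetLike.exists_of_lt hZ
    have h2 : (z : G) ∈ (Subgroup.center X).map X.subtype := ⟨z, hz, rfl⟩
    rw [h] at h2
    apply hz1
    have h3 : (z : G) = 1 := h2
    have h4 : z = 1 := Subtype.ext h3
    rw [h4]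
    exact one_mem _
  · intro x hx y hy
    have hx' : x ∈ (Subgroup.center X).map X.subtype := h.symm ▸ hx
    obtain ⟨z, hz, rfl⟩ := hx'
    have := (Subgroup.mem_center_iff.1 hz) ⟨y, hy⟩
    have h2 := congrArg Subtype.val this
    exact h2.symm

/-- An abelian minimal normal subgroup is a `p`-group. -/
theorem exists_prime_of_abelian_min (X : Subgroup G) [hXn : X.Normal] (hX1 : X ≠ ⊥)
    (hmin : ∀ M : Subgroup G, M.Normal → M ≤ X → M = ⊥ ∨ M = X)
    (hab : ∀ x ∈ X, ∀ y ∈ X, x * y = y * x) :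
    ∃ p : ℕ, p.Prime ∧ IsPGroup p X := by
  classical
  haveI : Nontrivial X := (Subgroup.nontrivial_iff_ne_bot X).2 hX1
  obtain ⟨p, hp, hpd⟩ := Nat.exists_prime_and_dvd (Finite.one_lt_card (α := X)).ne'
  haveI : Fact p.Prime := ⟨hp⟩
  refine ⟨p, hp, ?_⟩
  let P : Sylow p X := (inferInstance : Nonempty (Sylow p X)).some
  have hPn : (P : Subgroup X).Normal := by
    constructor
    intro n hn g
    have : g * n * g⁻¹ = n := by
      apply Subtype.ext
      have h1 := hab g g.2 n n.2
      show (g : G) * n * (g : G)⁻¹ = n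
      rw [h1]
      group
    rwa [this]
  haveI hPc : (P : Subgroup X).Characteristic := Sylow.characteristic_of_normal P hPn
  have hZn : ((P : Subgroup X).map X.subtype).Normal := map_normal_of_characteristic' _
  have hZle : (P : Subgroup X).map X.subtype ≤ X := by
    rintro _ ⟨z, -, rfl⟩
    exact z.2
  rcases hmin _ hZn hZle with h | h
  · exfalso
    have hP1 : (P : Subgroup X) = ⊥ := by
      rw [eq_bot_iff]
      intro z hz
      have h2 : (z : G) ∈ (P : Subgroup X).map X.subtype := ⟨z, hz, rfl⟩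
      rw [h] at h2
      exact Subtype.ext h2
    have hc := Sylow.card_eq_multiplicity P
    rw [hP1] at hc
    simp only [Subgroup.card_bot] at hc
    have hfac : (Nat.card X).factorization p ≠ 0 := by
      have := (hp.dvd_iff_one_le_factorization (Nat.card_pos.ne')).1 hpd
      omega
    have h3 : p ^ (Nat.card X).factorization p = 1 := by
      rw [← hc]
    have h4 := Nat.one_lt_pow hfac hp.one_lt
    omega
  · intro x
    obtain ⟨k, hk⟩ := P.isPGroup' ⟨_, (by
      have hx' : (x : G) ∈ (P : Subgroup X).map X.subtype := h.symm ▸ x.2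
      obtain ⟨z, hz, hzx⟩ := hx'
      have : z = x := Subtype.ext hzx
      exact this ▸ hz : x ∈ (P : Subgroup X))⟩
    refine ⟨k, ?_⟩
    have := congrArg (fun z : (P : Subgroup X) => (z : X)) hk
    simpa using this

/-- A nonabelian minimal normal subgroup in the kernel of `χ`. -/
theorem case_nonabelian (X : Subgroup G) [hXn : X.Normal] (hX1 : X ≠ ⊥)
    (hmin : ∀ M : Subgroup G, M.Normal → M ≤ X → M = ⊥ ∨ M = X)
    (hnab : ¬ ∀ x ∈ X, ∀ y ∈ X, x * y = y * x) (χ : IrrCharacter G)
    (K : Subgroup G) (hK : ∀ g : G, g ∈ K ↔ χ.1 g = χ.1 1) (hXK : X ≤ K) :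
    ∃ ψ : IrrCharacter G, charDegree χ.1 < charDegree ψ.1 ∧
      ∃ L : Subgroup G, (∀ g : G, g ∈ L ↔ ψ.1 g = ψ.1 1) ∧ L < K := by
  classical
  haveI : Nontrivial X := (Subgroup.nontrivial_iff_ne_bot X).2 hX1
  obtain ⟨q, hq, hqd⟩ := Nat.exists_prime_and_dvd (Finite.one_lt_card (α := X)).ne'
  haveI : Fact q.Prime := ⟨hq⟩
  let Q : Sylow q X := (inferInstance : Nonempty (Sylow q X)).some
  have hQt : (Q : Subgroup X).map X.subtype ≤ X := by
    rintro _ ⟨z, -, rfl⟩
    exact z.2
  have hQ1 : (Q : Subgroup X) ≠ ⊥ := by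
    intro hP1
    have hc := Sylow.card_eq_multiplicity Q
    rw [hP1] at hc
    simp only [Subgroup.card_bot] at hc
    have hfac : (Nat.card X).factorization q ≠ 0 := by
      have := (hq.dvd_iff_one_le_factorization (Nat.card_pos.ne')).1 hqd
      omega
    have h3 : q ^ (Nat.card X).factorization q = 1 := by
      rw [← hc]
    have h4 := Nat.one_lt_pow hfac hq.one_lt
    omega
  have hQt1 : (Q : Subgroup X).map X.subtype ≠ ⊥ := by
    intro h
    apply hQ1
    rw [eq_bot_iff]
    intro z hz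
    have h2 : (z : G) ∈ (Q : Subgroup X).map X.subtype := ⟨z, hz, rfl⟩
    rw [h] at h2
    exact Subtype.ext h2
  have hex : ∃ n₀ ∈ (Q : Subgroup X).map X.subtype, ∃ a : G, a⁻¹ * n₀ * a ∉
      Subgroup.normalizer (((Q : Subgroup X).map X.subtype : Subgroup G) : Set G) := by
    by_contra hall
    push Not at hall
    have hW : Subgroup.normalClosure (((Q : Subgroup X).map X.subtype : Subgroup G) : Set G) ≤
        Subgroup.normalizer (((Q : Subgroup X).map X.subtype : Subgroup G) : Set G) := by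
      unfold Subgroup.normalClosure
      rw [Subgroup.closure_le]
      intro y hy
      rw [Group.mem_conjugatesOfSet_iff] at hy
      obtain ⟨n, hn, hnc⟩ := hy
      obtain ⟨c, hc⟩ := isConj_iff.1 hnc
      have := hall n hn c⁻¹
      rw [inv_inv] at this
      rw [← hc]
      exact this
    have hWX : Subgroup.normalClosure (((Q : Subgroup X).map X.subtype : Subgroup G) : Set G) ≤ X :=
      Subgroup.normalClosure_le_normal hQt
    have hW1 : Subgroup.normalClosure (((Q : Subgroup X).map X.subtype : Subgroup G) : Set G) ≠ ⊥ := by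
      intro h
      apply hQt1
      rw [eq_bot_iff, ← h]
      exact Subgroup.subset_normalClosure
    have hWeq := (hmin _ inferInstance hWX).resolve_left hW1
    have hXN : X ≤ Subgroup.normalizer (((Q : Subgroup X).map X.subtype : Subgroup G) : Set G) := by
      intro x hx
      apply hW
      rw [hWeq]
      exact hx
    have hQn : (Q : Subgroup X).Normal := by
      constructor
      intro n hn g
      have h1 := hXN g.2
      rw [Subgroup.mem_normalizer_iff] at h1
      have h2 := (h1 n).1 ⟨n, hn, rfl⟩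
      obtain ⟨z, hz, hzeq⟩ := h2
      have : z = g * n * g⁻¹ := Subtype.ext hzeq
      rwa [← this]
    haveI hQc : (Q : Subgroup X).Characteristic := Sylow.characteristic_of_normal Q hQn
    have hZn : ((Q : Subgroup X).map X.subtype).Normal := map_normal_of_characteristic' _
    have hQX := (hmin _ hZn hQt).resolve_left hQt1
    have hXp : IsPGroup q X := by
      intro x
      have hx' : (x : G) ∈ (Q : Subgroup X).map X.subtype := hQX.symm ▸ x.2
      obtain ⟨z, hz, hzx⟩ := hx'
      have hzx' : z = x := Subtype.ext hzx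
      obtain ⟨k, hk⟩ := Q.isPGroup' ⟨z, hz⟩
      refine ⟨k, ?_⟩
      have := congrArg (fun w : (Q : Subgroup X) => (w : X)) hk
      rw [← hzx']
      simpa using this
    exact hnab (abelian_of_min_normal_pGroup X hX1 hmin hXp)
  obtain ⟨n₀, hn₀, a, ha⟩ := hex
  have hne : χ.1 n₀ ≠ 0 := by
    rw [(hK n₀).1 (hXK (hQt hn₀))]
    exact irr_one_ne_zero' χ
  refine frattini_step X hmin χ K hK hXK X Q ?_ (Subgroup.le_normalizer hn₀) hne a ha
  intro s hs
  exact ⟨s, hs, 1, one_mem _, by simp⟩

/-- An abelian minimal normal subgroup in the kernel of `χ`, not centralised by `A`, with `A / X`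
nilpotent. -/
theorem case_abelian (X : Subgroup G) [hXn : X.Normal] (hX1 : X ≠ ⊥)
    (hmin : ∀ M : Subgroup G, M.Normal → M ≤ X → M = ⊥ ∨ M = X)
    (hab : ∀ x ∈ X, ∀ y ∈ X, x * y = y * x) (χ : IrrCharacter G)
    (K : Subgroup G) (hK : ∀ g : G, g ∈ K ↔ χ.1 g = χ.1 1) (hXK : X ≤ K)
    (A : Subgroup G) [hAn : A.Normal] (hAnil : Group.IsNilpotent (A.map (QuotientGroup.mk' X)))
    (hAX : ¬ A ≤ Subgroup.centralizer (X : Set G))
    (hH : ∀ C : Subgroup G, C.Normal → ¬ A ≤ C → ∃ g, g ∉ C ∧ χ.1 g ≠ 0) :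
    ∃ ψ : IrrCharacter G, charDegree χ.1 < charDegree ψ.1 ∧
      ∃ L : Subgroup G, (∀ g : G, g ∈ L ↔ ψ.1 g = ψ.1 1) ∧ L < K := by
  classical
  obtain ⟨p, hp, hXp⟩ := exists_prime_of_abelian_min X hX1 hmin hab
  haveI : Fact p.Prime := ⟨hp⟩
  have hTn : (Subgroup.centralizer (X : Set G)).Normal := inferInstance
  have hXT : X ≤ Subgroup.centralizer (X : Set G) := by
    intro x hx
    rw [Subgroup.mem_centralizer_iff]
    intro y hy
    exact hab y hy x hx
  have hφx : ∀ x ∈ X, QuotientGroup.mk' X x = 1 := fun x hx => (QuotientGroup.eq_one_iff x).2 hx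
  have hφT : ∀ g, QuotientGroup.mk' X g ∈ (Subgroup.centralizer (X : Set G)).map (QuotientGroup.mk' X) →
      g ∈ Subgroup.centralizer (X : Set G) := by
    rintro g ⟨c, hc, hcg⟩
    have h1 : c⁻¹ * g ∈ X := by
      have : (c : G ⧸ X) = (g : G ⧸ X) := hcg
      exact QuotientGroup.eq.1 this
    have h2 : g = c * (c⁻¹ * g) := by group
    rw [h2]
    exact mul_mem hc (hXT h1)
  -- a Sylow subgroup of the nilpotent image not centralising `X`
  have hexq : ∃ (q : ℕ) (_ : Fact q.Prime), ∀ R : Sylow q (A.map (QuotientGroup.mk' X)),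
      ¬ (R : Subgroup (A.map (QuotientGroup.mk' X))) ≤
        ((Subgroup.centralizer (X : Set G)).map (QuotientGroup.mk' X)).subgroupOf
          (A.map (QuotientGroup.mk' X)) := by
    by_contra hall
    push Not at hall
    have htop := H01.eq_top_of_forall_sylow_le
      (((Subgroup.centralizer (X : Set G)).map (QuotientGroup.mk' X)).subgroupOf
          (A.map (QuotientGroup.mk' X))) (fun q _ => hall q inferInstance)
    apply hAX
    intro a ha
    apply hφT
    have hmem : (⟨QuotientGroup.mk' X a, ⟨a, ha, rfl⟩⟩ : A.map (QuotientGroup.mk' X)) ∈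
        ((Subgroup.centralizer (X : Set G)).map (QuotientGroup.mk' X)).subgroupOf
          (A.map (QuotientGroup.mk' X)) := by
      rw [htop]
      trivial
    exact Subgroup.mem_subgroupOf.1 hmem
  obtain ⟨q, hqF, hqR⟩ := hexq
  haveI := hqF
  let R : Sylow q (A.map (QuotientGroup.mk' X)) := (inferInstance : Nonempty (Sylow _ _)).some
  have hRn : (R : Subgroup (A.map (QuotientGroup.mk' X))).Normal :=
    Sylow.normal_of_normalizerCondition Group.normalizerCondition_of_isNilpotent R
  haveI hRc : (R : Subgroup (A.map (QuotientGroup.mk' X))).Characteristic :=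
    Sylow.characteristic_of_normal R hRn
  haveI hAbar : (A.map (QuotientGroup.mk' X)).Normal :=
    Subgroup.Normal.map hAn _ (QuotientGroup.mk'_surjective X)
  have hRtn : ((R : Subgroup (A.map (QuotientGroup.mk' X))).map
      (A.map (QuotientGroup.mk' X)).subtype).Normal := map_normal_of_characteristic' _
  let S : Subgroup G := ((R : Subgroup (A.map (QuotientGroup.mk' X))).map
      (A.map (QuotientGroup.mk' X)).subtype).comap (QuotientGroup.mk' X)
  haveI hSn : S.Normal := Subgroup.Normal.comap hRtn _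
  have hXS : X ≤ S := by
    intro x hx
    show QuotientGroup.mk' X x ∈ (R : Subgroup (A.map (QuotientGroup.mk' X))).map
      (A.map (QuotientGroup.mk' X)).subtype
    rw [hφx x hx]
    exact one_mem _
  have hSmod : ∀ s ∈ S, ∃ k : ℕ, s ^ q ^ k ∈ X := by
    intro s hs
    have hs' : QuotientGroup.mk' X s ∈ (R : Subgroup (A.map (QuotientGroup.mk' X))).map
      (A.map (QuotientGroup.mk' X)).subtype := hs
    obtain ⟨r, hr, hrs⟩ := hs'
    obtain ⟨k, hk⟩ := R.isPGroup' ⟨r, hr⟩
    refine ⟨k, ?_⟩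
    rw [← QuotientGroup.eq_one_iff]
    have h1 : ((s : G) : G ⧸ X) = (r : G ⧸ X) := hrs.symm
    rw [QuotientGroup.mk_pow, h1]
    have h2 := congrArg (fun w : (R : Subgroup (A.map (QuotientGroup.mk' X))) =>
      ((w : A.map (QuotientGroup.mk' X)) : G ⧸ X)) hk
    simpa using h2
  -- `S` does not centralise `X`
  have hSnc : ¬ S ≤ Subgroup.centralizer (X : Set G) := by
    intro hle
    apply hqR R
    intro r hr
    obtain ⟨a, ha, har⟩ := r.2
    have haS : a ∈ S := ⟨r, hr, har.symm⟩
    rw [Subgroup.mem_subgroupOf]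
    exact ⟨a, hle haS, har⟩
  -- `q ≠ p`
  have hqp : q ≠ p := by
    rintro rfl
    have hSp : IsPGroup q S := by
      rintro ⟨s, hs⟩
      obtain ⟨k, hk⟩ := hSmod s hs
      obtain ⟨j, hj⟩ := hXp ⟨_, hk⟩
      refine ⟨k + j, ?_⟩
      apply Subtype.ext
      have h2 := congrArg Subtype.val hj
      simp only [Subgroup.coe_pow, Subgroup.coe_one] at h2 ⊢
      rw [pow_add, pow_mul]
      exact h2
    apply hSnc
    haveI : (X.subgroupOf S).Normal := Subgroup.Normal.subgroupOf hXn S
    have hX' : X.subgroupOf S ≠ ⊥ := by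
      intro h
      apply hX1
      rw [eq_bot_iff]
      intro x hx
      have : (⟨x, hXS hx⟩ : S) ∈ X.subgroupOf S := Subgroup.mem_subgroupOf.2 hx
      rw [h] at this
      have h3 : (⟨x, hXS hx⟩ : S) = 1 := this
      exact congrArg Subtype.val h3
    have hne := H09.normal_inf_center_ne_bot hSp (X.subgroupOf S) hX'
    -- `X ⊓ C(S)` is normal in `G`
    have hW := hmin (X ⊓ Subgroup.centralizer (S : Set G)) inferInstance inf_le_left
    rcases hW with hW | hW
    · exfalso
      apply hne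
      rw [eq_bot_iff]
      rintro ⟨z, hzS⟩ ⟨hz1, hz2⟩
      have hz1' : z ∈ X := Subgroup.mem_subgroupOf.1 hz1
      have hz3 : z ∈ X ⊓ Subgroup.centralizer (S : Set G) := by
        refine Subgroup.mem_inf.2 ⟨hz1', ?_⟩
        rw [Subgroup.mem_centralizer_iff]
        intro s hs
        have := (Subgroup.mem_center_iff.1 hz2) ⟨s, hs⟩
        exact congrArg Subtype.val this
      rw [hW] at hz3
      have h3 : z = 1 := hz3
      exact Subtype.ext h3
    · intro s hs
      rw [Subgroup.mem_centralizer_iff]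
      intro x hx
      have hx' : x ∈ X ⊓ Subgroup.centralizer (S : Set G) := hW.symm ▸ hx
      have := (Subgroup.mem_centralizer_iff.1 hx'.2) s hs
      exact this.symm
  let Q : Sylow q S := (inferInstance : Nonempty (Sylow q S)).some
  have hQSq : ∀ t ∈ (Q : Subgroup S).map S.subtype, ∃ k : ℕ, t ^ q ^ k = 1 := by
    rintro _ ⟨t, ht, rfl⟩
    obtain ⟨k, hk⟩ := Q.isPGroup' ⟨t, ht⟩
    refine ⟨k, ?_⟩
    have := congrArg (fun w : (Q : Subgroup S) => ((w : S) : G)) hk
    simpa using this
  have hQS : (Q : Subgroup S).map S.subtype ≤ S := by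
    rintro _ ⟨z, -, rfl⟩
    exact z.2
  -- `S = X Q`
  have hS : ∀ s ∈ S, ∃ x ∈ X, ∃ t ∈ (Q : Subgroup S).map S.subtype, s = x * t := by
    haveI hX'n : (X.subgroupOf S).Normal := Subgroup.Normal.subgroupOf hXn S
    let W : Subgroup S := X.subgroupOf S ⊔ (Q : Subgroup S)
    have hquot : IsPGroup q (S ⧸ X.subgroupOf S) := by
      intro y
      obtain ⟨s, rfl⟩ := QuotientGroup.mk'_surjective _ y
      obtain ⟨k, hk⟩ := hSmod s s.2
      refine ⟨k, ?_⟩
      rw [← map_pow, QuotientGroup.mk'_apply, QuotientGroup.eq_one_iff]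
      exact Subgroup.mem_subgroupOf.2 (by simpa using hk)
    obtain ⟨m, hm⟩ := IsPGroup.iff_card.1 hquot
    have h1 : W.index ∣ q ^ m := by
      rw [← hm, ← Subgroup.index_eq_card]
      exact Subgroup.index_dvd_of_le le_sup_left
    have h2 : ¬ q ∣ W.index := fun h =>
      Q.not_dvd_index (h.trans (Subgroup.index_dvd_of_le le_sup_right))
    obtain ⟨j, -, hj⟩ := (Nat.dvd_prime_pow (Fact.out : q.Prime)).1 h1
    have hj0 : j = 0 := by
      by_contra hne
      apply h2
      rw [hj]
      exact dvd_pow_self q hne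
    have hWtop : W = ⊤ := by
      rw [← Subgroup.index_eq_one, hj, hj0, pow_zero]
    intro s hs
    have hsW : (⟨s, hs⟩ : S) ∈ ((W : Subgroup S) : Set S) := by
      rw [hWtop]
      trivial
    have hsW' := hsW
    simp only [W] at hsW'
    rw [Subgroup.normal_mul] at hsW'
    obtain ⟨x, hx, t, ht, hxt⟩ := Set.mem_mul.1 hsW'
    refine ⟨x, Subgroup.mem_subgroupOf.1 hx, t, ⟨t, ht, rfl⟩, ?_⟩
    have := congrArg Subtype.val hxt
    exact this.symm
  -- `Q ⊓ X = 1`
  have hQX : ∀ y, y ∈ (Q : Subgroup S).map S.subtype → y ∈ X → y = 1 := by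
    intro y hy hyX
    obtain ⟨k, hk⟩ := hQSq y hy
    obtain ⟨j, hj⟩ := hXp ⟨y, hyX⟩
    have hj' : y ^ p ^ j = 1 := by
      have h2 := congrArg Subtype.val hj
      simpa using h2
    have hco : Nat.Coprime (q ^ k) (p ^ j) :=
      Nat.Coprime.pow _ _ ((Nat.coprime_primes (Fact.out) hp).2 hqp)
    exact (orderOf_eq_one_iff.1 (Nat.eq_one_of_dvd_coprimes hco (orderOf_dvd_of_pow_eq_one hk)
      (orderOf_dvd_of_pow_eq_one hj')))
  -- `N ⊓ X = 1`
  have hNX : ∀ y, y ∈ Subgroup.normalizer (((Q : Subgroup S).map S.subtype : Subgroup G) : Set G) →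
      y ∈ X → y = 1 := by
    intro y hy hyX
    have hW := hmin (X ⊓ Subgroup.centralizer (S : Set G)) inferInstance inf_le_left
    rcases hW with hW | hW
    · have hmem : y ∈ X ⊓ Subgroup.centralizer (S : Set G) := by
        refine Subgroup.mem_inf.2 ⟨hyX, ?_⟩
        rw [Subgroup.mem_centralizer_iff]
        intro s hs
        obtain ⟨x, hx, t, ht, rfl⟩ := hS s hs
        have hcomm : t * y = y * t := by
          have h1 : y * t * y⁻¹ ∈ (Q : Subgroup S).map S.subtype :=
            ((Subgroup.mem_normalizer_iff.1 hy) t).1 ht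
          have h2 : y * t * y⁻¹ * t⁻¹ ∈ (Q : Subgroup S).map S.subtype := mul_mem h1 (inv_mem ht)
          have h3 : y * t * y⁻¹ * t⁻¹ ∈ X := by
            have h4 : y * t * y⁻¹ * t⁻¹ = y * (t * y⁻¹ * t⁻¹) := by group
            rw [h4]
            exact mul_mem hyX (hXn.conj_mem _ (inv_mem hyX) t)
          have h5 := hQX _ h2 h3
          have h6 : y * t * y⁻¹ = t := by
            have := mul_inv_eq_one.1 h5
            exact this
          have h7 := mul_inv_eq_iff_eq_mul.1 h6
          exact h7.symm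
        have hc2 : x * y = y * x := hab x hx y hyX
        calc x * t * y = x * (t * y) := mul_assoc _ _ _
          _ = x * (y * t) := by rw [hcomm]
          _ = (x * y) * t := (mul_assoc _ _ _).symm
          _ = y * x * t := by rw [hc2]
          _ = y * (x * t) := mul_assoc _ _ _
      rw [hW] at hmem
      exact hmem
    · exfalso
      apply hSnc
      intro s hs
      rw [Subgroup.mem_centralizer_iff]
      intro x hx
      have hx' : x ∈ X ⊓ Subgroup.centralizer (S : Set G) := hW.symm ▸ hx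
      have := (Subgroup.mem_centralizer_iff.1 hx'.2) s hs
      exact this.symm
  -- the element
  obtain ⟨g₀, hg₀, hχg₀⟩ := hH _ hTn hAX
  obtain ⟨x, hx, n, hn, rfl⟩ := frattini_supplement X S Q hS g₀
  have hχn : χ.1 n ≠ 0 := by
    rwa [character_mul_of_mem_ker (isCharacter_of_irr χ.2) ((hK x).1 (hXK hx))] at hχg₀
  have hnT : n ∉ Subgroup.centralizer (X : Set G) := fun hn' => hg₀ (mul_mem (hXT hx) hn')
  have hexa : ∃ a : G, a⁻¹ * n * a ∉
      Subgroup.normalizer (((Q : Subgroup S).map S.subtype : Subgroup G) : Set G) := by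
    by_contra hall
    push Not at hall
    apply hnT
    rw [Subgroup.mem_centralizer_iff]
    intro y hy
    have h1 : y⁻¹⁻¹ * n * y⁻¹ ∈
        Subgroup.normalizer (((Q : Subgroup S).map S.subtype : Subgroup G) : Set G) := hall y⁻¹
    rw [inv_inv] at h1
    have h2 : n * y * n⁻¹ * y⁻¹ ∈ X := by
      exact mul_mem (hXn.conj_mem _ hy n) (inv_mem hy)
    have h3 : (y * n * y⁻¹) * n⁻¹ ∈
        Subgroup.normalizer (((Q : Subgroup S).map S.subtype : Subgroup G) : Set G) :=
      mul_mem h1 (inv_mem hn)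
    have h4 : (y * n * y⁻¹) * n⁻¹ ∈ X := by
      have h5 : (y * n * y⁻¹) * n⁻¹ = y * (n * y⁻¹ * n⁻¹) := by group
      rw [h5]
      exact mul_mem hy (hXn.conj_mem _ (inv_mem hy) n)
    have h6 := hNX _ h3 h4
    have h7 := mul_inv_eq_one.1 h6
    have h8 := mul_inv_eq_iff_eq_mul.1 h7
    exact h8
  obtain ⟨a, ha⟩ := hexa
  exact frattini_step X hmin χ K hK hXK S Q hS hn hχn a ha

end Frattini

section Main

open scoped commutatorElement

/-- A central-by-nilpotent group is nilpotent, in the form needed here. -/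
theorem nilpotent_of_central_quotient {G : Type u} [Group G] (A X : Subgroup G) [X.Normal]
    (hAX : A ≤ Subgroup.centralizer (X : Set G))
    (hnil : Group.IsNilpotent (A.map (QuotientGroup.mk' X))) : Group.IsNilpotent A := by
  let f : A →* A.map (QuotientGroup.mk' X) := ((QuotientGroup.mk' X).comp A.subtype).codRestrict _
    (fun a => ⟨a, a.2, rfl⟩)
  refine Subgroup.isNilpotent_of_ker_le_center f ?_
  intro x hx
  have h3 : f x = 1 := hx
  have hxX : (x : G) ∈ X := by
    have h4 := congrArg Subtype.val h3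
    exact (QuotientGroup.eq_one_iff _).1 h4
  rw [Subgroup.mem_center_iff]
  intro y
  apply Subtype.ext
  exact ((Subgroup.mem_centralizer_iff.1 (hAX y.2)) x hxX).symm

/-- The main induction for larger degrees and smaller kernels. -/
theorem larger_main : ∀ (n : ℕ) (G : Type u) [Group G] [Finite G], Nat.card G = n →
    ∀ (χ : IrrCharacter G) (K A : Subgroup G) [K.Normal] [A.Normal],
      (∀ g : G, g ∈ K ↔ χ.1 g = χ.1 1) → K ≤ A → ⁅A, A⁆ ≤ K → ¬ Group.IsNilpotent A →
      (∀ C : Subgroup G, C.Normal → ¬ A ≤ C → ∃ g, g ∉ C ∧ χ.1 g ≠ 0) →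
      ∃ ψ : IrrCharacter G, charDegree χ.1 < charDegree ψ.1 ∧
        ∃ L : Subgroup G, (∀ g : G, g ∈ L ↔ ψ.1 g = ψ.1 1) ∧ L < K := by
  intro n
  induction n using Nat.strong_induction_on with
  | _ n ih =>
  intro G _ _ hn χ K A hKn hAn hK hKA hAK hA hH
  classical
  have hK1 : K ≠ ⊥ := by
    intro h
    apply hA
    rw [h] at hAK
    have hcomm : ∀ a b : A, a * b = b * a := by
      intro a b
      have h1 : ⁅(a : G), (b : G)⁆ ∈ ⁅A, A⁆ := Subgroup.commutator_mem_commutator a.2 b.2
      have h2 := hAK h1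
      have h3 : ⁅(a : G), (b : G)⁆ = 1 := h2
      apply Subtype.ext
      exact commutatorElement_eq_one_iff_mul_comm.1 h3
    letI : CommGroup A := { (inferInstance : Group A) with mul_comm := hcomm }
    exact CommGroup.isNilpotent
  obtain ⟨X, hXK, hXn, hX1, hmin⟩ := H01.exists_minimal_normal_le hKn hK1
  haveI := hXn
  have hcard : Nat.card (G ⧸ X) < n := by
    have h1 := Subgroup.card_eq_card_quotient_mul_card_subgroup X
    haveI : Nontrivial X := (Subgroup.nontrivial_iff_ne_bot X).2 hX1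
    have h2 : 1 < Nat.card X := Finite.one_lt_card
    have h3 : 0 < Nat.card (G ⧸ X) := Nat.card_pos
    rw [← hn, h1]
    nlinarith
  have hχk : ∀ x ∈ X, χ.1 x = χ.1 1 := fun x hx => (hK x).1 (hXK hx)
  by_cases hnil : Group.IsNilpotent (A.map (QuotientGroup.mk' X))
  · by_cases hab : ∀ x ∈ X, ∀ y ∈ X, x * y = y * x
    · refine case_abelian X hX1 hmin hab χ K hK hXK A hnil ?_ hH
      intro hle
      exact hA (nilpotent_of_central_quotient A X hle hnil)
    · exact case_nonabelian X hX1 hmin hab χ K hK hXK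
  · obtain ⟨χ', hχ', hcomp⟩ := exists_descend X χ.2 hχk
    have hval : ∀ g : G, χ' (QuotientGroup.mk' X g) = χ.1 g := fun g => congrFun hcomp g
    have hmemK : ∀ g : G, QuotientGroup.mk' X g ∈ K.map (QuotientGroup.mk' X) ↔ g ∈ K := by
      intro g
      constructor
      · rintro ⟨k, hk, hkg⟩
        have h1 : k⁻¹ * g ∈ X := QuotientGroup.eq.1 hkg
        have h2 : g = k * (k⁻¹ * g) := by group
        rw [h2]
        exact mul_mem hk (hXK h1)
      · intro hg
        exact ⟨g, hg, rfl⟩
    haveI hKbar : (K.map (QuotientGroup.mk' X)).Normal :=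
      Subgroup.Normal.map hKn _ (QuotientGroup.mk'_surjective X)
    haveI hAbar : (A.map (QuotientGroup.mk' X)).Normal :=
      Subgroup.Normal.map hAn _ (QuotientGroup.mk'_surjective X)
    have hone : QuotientGroup.mk' X (1 : G) = (1 : G ⧸ X) := rfl
    obtain ⟨ψ', hdeg', L', hL', hlt'⟩ := ih _ hcard (G ⧸ X) rfl ⟨χ', hχ'⟩
      (K.map (QuotientGroup.mk' X)) (A.map (QuotientGroup.mk' X))
      (by
        intro y
        obtain ⟨g, rfl⟩ := QuotientGroup.mk'_surjective X y
        rw [hmemK, hK g]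
        show _ ↔ χ' (QuotientGroup.mk' X g) = χ' 1
        rw [hval g, ← hone, hval 1])
      (Subgroup.map_mono hKA)
      (by
        rw [← Subgroup.map_commutator]
        exact Subgroup.map_mono hAK)
      hnil
      (by
        intro C hC hAC
        have hC' : (C.comap (QuotientGroup.mk' X)).Normal := Subgroup.Normal.comap hC _
        have hAC' : ¬ A ≤ C.comap (QuotientGroup.mk' X) := by
          intro h
          apply hAC
          rw [Subgroup.map_le_iff_le_comap]
          exact h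
        obtain ⟨g, hg, hne⟩ := hH _ hC' hAC'
        exact ⟨QuotientGroup.mk' X g, hg, by
          show χ' _ ≠ 0
          rw [hval g]
          exact hne⟩)
    -- inflate
    have hψirr := isIrr_inflate X ψ'.2
    let ψ : IrrCharacter G := ⟨ψ'.1 ∘ QuotientGroup.mk' X, hψirr⟩
    have hdegχ : charDegree χ' = charDegree χ.1 := by
      have h3 := one_eq_charDegree (isCharacter_of_irr hχ')
      have h4 := one_eq_charDegree (isCharacter_of_irr χ.2)
      have h5 : (charDegree χ' : ℂ) = charDegree χ.1 := by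
        rw [← h3, ← h4, ← hval 1]
        rfl
      exact_mod_cast h5
    have hdegψ : charDegree ψ'.1 = charDegree ψ.1 := by
      have h3 := one_eq_charDegree (isCharacter_of_irr ψ'.2)
      have h4 := one_eq_charDegree (isCharacter_of_irr ψ.2)
      have h5 : (charDegree ψ'.1 : ℂ) = charDegree ψ.1 := by
        rw [← h3, ← h4]
        rfl
      exact_mod_cast h5
    refine ⟨ψ, by
      have h6 : charDegree χ' < charDegree ψ'.1 := hdeg'
      omega, L'.comap (QuotientGroup.mk' X), ?_, ?_⟩
    · intro g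
      rw [Subgroup.mem_comap, hL']
      rfl
    · refine lt_of_le_of_ne ?_ ?_
      · intro g hg
        have h1 : QuotientGroup.mk' X g ∈ K.map (QuotientGroup.mk' X) := hlt'.le hg
        exact (hmemK g).1 h1
      · intro h
        apply hlt'.ne
        apply le_antisymm hlt'.le
        rw [Subgroup.map_le_iff_le_comap, ← h]

/-- The first case: a non-nilpotent kernel. -/
theorem larger_of_not_nilpotent {G : Type u} [Group G] [Finite G] (χ : IrrCharacter G)
    (K : Subgroup G) [K.Normal] (hK : ∀ g : G, g ∈ K ↔ χ.1 g = χ.1 1)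
    (hnil : ¬ Group.IsNilpotent K) :
    ∃ ψ : IrrCharacter G, charDegree χ.1 < charDegree ψ.1 ∧
      ∃ L : Subgroup G, (∀ g : G, g ∈ L ↔ ψ.1 g = ψ.1 1) ∧ L < K := by
  refine larger_main _ G rfl χ K K hK le_rfl (Subgroup.commutator_le_right K K) hnil ?_
  intro C _ hKC
  obtain ⟨g, hg, hgC⟩ := SetLike.not_le_iff_exists.1 hKC
  refine ⟨g, hgC, ?_⟩
  rw [(hK g).1 hg]
  exact irr_one_ne_zero' χ

/-- The second case: a non-nilpotent chief factor above the kernel. -/
theorem larger_of_chief {G : Type u} [Group G] [Finite G] (χ : IrrCharacter G)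
    (K Y : Subgroup G) [K.Normal] [Y.Normal] (hK : ∀ g : G, g ∈ K ↔ χ.1 g = χ.1 1)
    (hKY : K ≤ Y) (hKY' : K ≠ Y) (hYab : ⁅Y, Y⁆ ≤ K)
    (hchief : ∀ C : Subgroup G, C.Normal → K ≤ C → C ≤ Y → C = K ∨ C = Y)
    (hnil : ¬ Group.IsNilpotent Y) :
    ∃ ψ : IrrCharacter G, charDegree χ.1 < charDegree ψ.1 ∧
      ∃ L : Subgroup G, (∀ g : G, g ∈ L ↔ ψ.1 g = ψ.1 1) ∧ L < K := by
  classical
  refine larger_main _ G rfl χ K Y hK hKY hYab hnil ?_
  intro C hC hYC
  by_contra hall
  push Not at hall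
  by_cases hKC : K ≤ C
  · have hinf := hchief (Y ⊓ C) inferInstance (le_inf hKY hKC) inf_le_left
    have hinf' : Y ⊓ C = K := by
      refine hinf.resolve_right ?_
      intro h
      exact hYC (inf_eq_left.1 h)
    have hzero : ∀ y ∈ Y, y ∉ K → χ.1 y = 0 := by
      intro y hy hyK
      apply hall
      intro hyC
      apply hyK
      rw [← hinf']
      exact ⟨hy, hyC⟩
    have hsum : ∑ y : Y, χ.1 y ≠ 0 := by
      have h1 : ∑ y : Y, χ.1 y = ∑ y : Y, (if (y : G) ∈ K then χ.1 1 else 0) := by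
        refine Finset.sum_congr rfl fun y _ => ?_
        by_cases hy : (y : G) ∈ K
        · rw [if_pos hy, (hK y).1 hy]
        · rw [if_neg hy, hzero y y.2 hy]
      rw [h1, Finset.sum_ite, Finset.sum_const_zero, add_zero, Finset.sum_const, nsmul_eq_mul]
      apply mul_ne_zero _ (irr_one_ne_zero' χ)
      have hcard : (Finset.univ.filter fun y : Y => (y : G) ∈ K).card ≠ 0 := by
        rw [Finset.card_ne_zero]
        exact ⟨1, by simp⟩
      exact_mod_cast hcard
    apply hKY'
    apply le_antisymm hKY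
    intro y hy
    rw [hK]
    exact ker_of_sum_ne_zero Y χ hsum hy
  · obtain ⟨g, hg, hgC⟩ := SetLike.not_le_iff_exists.1 hKC
    have := hall g hgC
    rw [(hK g).1 hg] at this
    exact irr_one_ne_zero' χ this

/-- The case of the Fitting subgroup, with a solvable nontrivial quotient. -/
theorem larger_of_fitting {G : Type u} [Group G] [Finite G] (χ : IrrCharacter G)
    (K : Subgroup G) [hKn : K.Normal] (hK : ∀ g : G, g ∈ K ↔ χ.1 g = χ.1 1)
    (hF : ∀ A : Subgroup G, A.Normal → Group.IsNilpotent A → A ≤ K)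
    (hs : Group.IsSolvable (G ⧸ K)) (hne : K ≠ ⊤) :
    ∃ ψ : IrrCharacter G, charDegree χ.1 < charDegree ψ.1 ∧
      ∃ L : Subgroup G, (∀ g : G, g ∈ L ↔ ψ.1 g = ψ.1 1) ∧ L < K := by
  classical
  have htop : (⊤ : Subgroup (G ⧸ K)) ≠ ⊥ := by
    intro h
    apply hne
    rw [eq_top_iff]
    intro g _
    have h1 : ((g : G) : G ⧸ K) ∈ (⊤ : Subgroup (G ⧸ K)) := trivial
    rw [h] at h1
    exact (QuotientGroup.eq_one_iff g).1 h1
  have hs' : Group.IsSolvable (⊤ : Subgroup (G ⧸ K)) :=
    Group.isSolvable_of_surjective (f := (Subgroup.topEquiv (G := G ⧸ K)).symm.toMonoidHom)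
      (Subgroup.topEquiv (G := G ⧸ K)).symm.surjective
  obtain ⟨Nb, hNbn, hNb1, -, hmin, -, -, -, hab⟩ := H23.exists_min_normal (⊤ : Subgroup (G ⧸ K)) htop hs'
  haveI : (Nb.comap (QuotientGroup.mk' K)).Normal := Subgroup.Normal.comap hNbn _
  have hKY : K ≤ Nb.comap (QuotientGroup.mk' K) := by
    intro k hk
    show QuotientGroup.mk' K k ∈ Nb
    have h1 : QuotientGroup.mk' K k = 1 := (QuotientGroup.eq_one_iff k).2 hk
    rw [h1]
    exact one_mem _
  have hKY' : K ≠ Nb.comap (QuotientGroup.mk' K) := by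
    intro h
    apply hNb1
    rw [eq_bot_iff]
    intro y hy
    obtain ⟨g, rfl⟩ := QuotientGroup.mk'_surjective K y
    have h1 : g ∈ Nb.comap (QuotientGroup.mk' K) := hy
    rw [← h] at h1
    exact (QuotientGroup.eq_one_iff g).2 h1
  refine larger_of_chief χ K (Nb.comap (QuotientGroup.mk' K)) hK hKY hKY' ?_ ?_ ?_
  · rw [Subgroup.commutator_le]
    intro a ha b hb
    have h1 := hab _ ha _ hb
    have h2 : QuotientGroup.mk' K (a * b * a⁻¹ * b⁻¹) = 1 := by
      simp only [map_mul, map_inv]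
      rw [h1]
      group
    exact (QuotientGroup.eq_one_iff _).1 h2
  · intro C hC hKC hCY
    have hC' : (C.map (QuotientGroup.mk' K)).Normal :=
      Subgroup.Normal.map hC _ (QuotientGroup.mk'_surjective K)
    have hCmem : ∀ g : G, QuotientGroup.mk' K g ∈ C.map (QuotientGroup.mk' K) → g ∈ C := by
      rintro g ⟨c, hc, hcg⟩
      have h1 : c⁻¹ * g ∈ K := QuotientGroup.eq.1 hcg
      have h2 : g = c * (c⁻¹ * g) := by group
      rw [h2]
      exact mul_mem hc (hKC h1)
    rcases hmin _ hC' (by rw [Subgroup.map_le_iff_le_comap]; exact hCY) with h | h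
    · left
      apply le_antisymm _ hKC
      intro c hc
      have h1 : QuotientGroup.mk' K c ∈ C.map (QuotientGroup.mk' K) := ⟨c, hc, rfl⟩
      rw [h] at h1
      exact (QuotientGroup.eq_one_iff c).1 h1
    · right
      apply le_antisymm hCY
      intro g hg
      apply hCmem
      rw [h]
      exact hg
  · intro hnil
    exact hKY' (le_antisymm hKY (hF _ inferInstance hnil))

end Main

end Cfsg.Agent.H21
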