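import Cfsg.Agent.Lib.H21.BlockRankB

/-!
# Sylow subgroups in which every nonidentity element has the centralizer of the whole group:
# group theory
-/

set_option autoImplicit false
set_option linter.unusedSectionVars false
set_option linter.style.haveILetI false
set_option linter.unusedSimpArgs false

namespace Cfsg.Agent.H21

open scoped ComplexConjugate
open Cfsg Module Cfsg.Agent.H22

universe u v

variable {G : Type u} [Group G] [Finite G]
variable {p : ℕ} [hp : Fact p.Prime]

/-- The centralizer of `P`. -/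
abbrev CCs (P : Sylow p G) : Subgroup G := Subgroup.centralizer ((P : Subgroup G) : Set G)

/-- The normalizer of `P`. -/
abbrev NNs (P : Sylow p G) : Subgroup G := Subgroup.normalizer ((P : Subgroup G) : Set G)

theorem pelt_of_sylow (P : Sylow p G) {s : G} (hs : s ∈ (P : Subgroup G)) :
    ∃ k, orderOf s = p ^ k := by
  obtain ⟨k, hk⟩ := P.isPGroup' ⟨s, hs⟩
  have h1 : s ^ (p ^ k) = 1 := by
    have := congrArg Subtype.val hk
    simpa using this
  obtain ⟨j, -, hj⟩ := (Nat.dvd_prime_pow hp.out).mp (orderOf_dvd_of_pow_eq_one h1)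
  exact ⟨j, hj⟩

section

variable (P : Sylow p G)
  (hstar : ∀ x ∈ (P : Subgroup G), x ≠ 1 → Subgroup.centralizer ({x} : Set G) = CCs P)

include hstar in
theorem P_le_CCs (hne : (P : Subgroup G) ≠ ⊥) : (P : Subgroup G) ≤ CCs P := by
  classical
  haveI : Nontrivial (P : Subgroup G) := (Subgroup.nontrivial_iff_ne_bot _).mpr hne
  have hz := IsPGroup.center_nontrivial P.isPGroup'
  obtain ⟨z, hz1⟩ := exists_ne (1 : Subgroup.center (P : Subgroup G))
  have hz2 : ((z : (P : Subgroup G)) : G) ≠ 1 := by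
    intro h
    apply hz1
    apply Subtype.ext
    apply Subtype.ext
    exact h
  intro w hw
  rw [← hstar _ (z : (P : Subgroup G)).2 hz2]
  rw [mem_centralizer_singleton_iff]
  have := (Subgroup.mem_center_iff.mp z.2) ⟨w, hw⟩
  have h3 := congrArg Subtype.val this
  exact h3.symm

theorem CCs_le_NNs : CCs P ≤ NNs P := by
  exact Subgroup.centralizer_le_normalizer _

/-- A `p`-element of the centralizer lies in `P`. -/
theorem mem_P_of_pelt {c : G} (hc : c ∈ CCs P) (hk : ∃ k, orderOf c = p ^ k) :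
    c ∈ (P : Subgroup G) := by
  obtain ⟨k, hk⟩ := hk
  have hQ : IsPGroup p (Subgroup.zpowers c) := by
    rw [IsPGroup.iff_card]
    exact ⟨k, by rw [Nat.card_zpowers, hk]⟩
  have h1 := hQ.inf_normalizer_sylow P
  have h2 : c ∈ Subgroup.zpowers c ⊓ Subgroup.normalizer (P : Set G) :=
    ⟨Subgroup.mem_zpowers c, CCs_le_NNs P hc⟩
  rw [h1] at h2
  exact h2.2

include hstar in
/-- Trivial intersection. -/
theorem mem_NNs_of_conj {h v : G} (hv : v ∈ (P : Subgroup G)) (hv1 : v ≠ 1)
    (hhv : h * v * h⁻¹ ∈ (P : Subgroup G)) : h ∈ NNs P := by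
  have hne : (P : Subgroup G) ≠ ⊥ := by
    intro hb
    rw [hb, Subgroup.mem_bot] at hv
    exact hv1 hv
  have hPC := P_le_CCs P hstar hne
  have hv1' : h * v * h⁻¹ ≠ 1 := by
    intro h1
    apply hv1
    have : v = h⁻¹ * (h * v * h⁻¹) * h := by group
    rw [this, h1]
    group
  have hall : ∀ s ∈ (P : Subgroup G), h * s * h⁻¹ ∈ (P : Subgroup G) := by
    intro s hs
    apply mem_P_of_pelt P
    · rw [← hstar _ hhv hv1', mem_centralizer_singleton_iff]
      have h1 : s * v = v * s := by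
        have := (Subgroup.mem_centralizer_iff.mp (hPC hs)) v hv
        exact this.symm
      calc h * v * h⁻¹ * (h * s * h⁻¹) = h * (v * s) * h⁻¹ := by group
        _ = h * (s * v) * h⁻¹ := by rw [h1]
        _ = h * s * h⁻¹ * (h * v * h⁻¹) := by group
    · obtain ⟨k, hk⟩ := pelt_of_sylow P hs
      exact ⟨k, by rw [orderOf_conj', hk]⟩
  have hcard := map_conj_eq_of_card hall rfl
  rw [Subgroup.mem_normalizer_iff]
  intro s
  refine ⟨hall s, fun hs => ?_⟩
  have hs' : h * s * h⁻¹ ∈ ((P : Subgroup G).map (MulAut.conj h).toMonoidHom) := by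
    rw [hcard]
    exact hs
  obtain ⟨s', hs'1, hs'2⟩ := hs'
  have : s' = s := by
    have h3 : h * s' * h⁻¹ = h * s * h⁻¹ := hs'2
    have h4 : h * s' = h * s := mul_right_cancel h3
    exact mul_left_cancel h4
  rwa [← this]

theorem pPart_power {y : G} (hy : p ∣ orderOf y) :
    ∃ a : G, a ≠ 1 ∧ (∃ k, orderOf a = p ^ k) ∧ (∃ m : ℕ, a = y ^ m) ∧ Commute y a := by
  obtain ⟨a, b, rfl, hc, ⟨k, hk⟩, hb⟩ := exists_pPart_decomp p y
  refine ⟨a, ?_, ⟨k, hk⟩, ?_, ?_⟩
  · rintro rfl
    rw [one_mul] at hy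
    exact (Nat.Prime.coprime_iff_not_dvd hp.out).mp hb.symm hy
  · have hcop : (orderOf b).Coprime (orderOf a) := by
      rw [hk]
      exact Nat.Coprime.pow_right _ hb
    obtain ⟨r, hr⟩ := exists_pow_eq_self_of_coprime hcop
    refine ⟨orderOf b * r, ?_⟩
    rw [pow_mul, hc.mul_pow, pow_orderOf_eq_one, mul_one, hr]
  · exact (Commute.refl a).mul_left hc.symm |>.symm.symm

/-- Every `p`-element is conjugate into `P`. -/
theorem exists_conj_into_sylow {a : G} (ha : ∃ k, orderOf a = p ^ k) :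
    ∃ g₀ : G, g₀⁻¹ * a * g₀ ∈ (P : Subgroup G) := by
  obtain ⟨k, hk⟩ := ha
  have hQ : IsPGroup p (Subgroup.zpowers a) := by
    rw [IsPGroup.iff_card]
    exact ⟨k, by rw [Nat.card_zpowers, hk]⟩
  obtain ⟨Q, hQle⟩ := hQ.exists_le_sylow
  obtain ⟨g, hg⟩ := MulAction.exists_smul_eq G P Q
  refine ⟨g, ?_⟩
  have h1 : a ∈ (Q : Subgroup G) := hQle (Subgroup.mem_zpowers a)
  rw [← hg, Sylow.coe_subgroup_smul, Subgroup.mem_pointwise_smul_iff_inv_smul_mem] at h1
  simpa [MulAut.smul_def, MulAut.conj_inv_apply] using h1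

include hstar in
theorem card_conj_into {y : G} (hy : p ∣ orderOf y) :
    Nat.card {g : G // g⁻¹ * y * g ∈ CCs P} = Nat.card (NNs P) := by
  classical
  obtain ⟨a, ha1, hak, ⟨m, ham⟩, hcomm⟩ := pPart_power hy
  obtain ⟨g₀, hg₀⟩ := exists_conj_into_sylow P hak
  set v := g₀⁻¹ * a * g₀ with hv
  have hv1 : v ≠ 1 := by
    intro h
    apply ha1
    have : a = g₀ * v * g₀⁻¹ := by rw [hv]; group
    rw [this, h]
    group
  have hiff : ∀ g : G, g⁻¹ * y * g ∈ CCs P ↔ g⁻¹ * g₀ ∈ NNs P := by
    intro g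
    have hconj : (g⁻¹ * g₀) * v * (g⁻¹ * g₀)⁻¹ = g⁻¹ * a * g := by
      rw [hv]
      group
    constructor
    · intro h
      apply mem_NNs_of_conj P hstar hg₀ hv1
      rw [hconj]
      apply mem_P_of_pelt P
      · have h2 : g⁻¹ * a * g = (g⁻¹ * y * g) ^ m := by
          have h9 := conj_pow (a := g⁻¹) (b := y) (i := m)
          rw [inv_inv] at h9
          rw [h9, ham]
        rw [h2]
        exact Subgroup.pow_mem _ h m
      · obtain ⟨k, hk⟩ := hak
        refine ⟨k, ?_⟩
        have := orderOf_conj' a g⁻¹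
        rw [inv_inv] at this
        rw [this, hk]
    · intro h
      have h1 : g⁻¹ * a * g ∈ (P : Subgroup G) := by
        rw [← hconj]
        exact ((Subgroup.mem_normalizer_iff.mp h) v).mp hg₀
      have h2 : g⁻¹ * a * g ≠ 1 := by
        intro h3
        apply ha1
        have : a = g * (g⁻¹ * a * g) * g⁻¹ := by group
        rw [this, h3]
        group
      rw [← hstar _ h1 h2, mem_centralizer_singleton_iff]
      have h3 : y * a = a * y := hcomm
      calc g⁻¹ * a * g * (g⁻¹ * y * g) = g⁻¹ * (a * y) * g := by group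
        _ = g⁻¹ * (y * a) * g := by rw [h3]
        _ = g⁻¹ * y * g * (g⁻¹ * a * g) := by group
  refine Nat.card_congr ⟨fun g => ⟨g.1⁻¹ * g₀, (hiff g.1).mp g.2⟩,
    fun n => ⟨g₀ * (n : G)⁻¹, (hiff _).mpr ?_⟩, ?_, ?_⟩
  · have : (g₀ * (n : G)⁻¹)⁻¹ * g₀ = (n : G) := by group
    rw [this]
    exact n.2
  · intro g
    apply Subtype.ext
    simp
  · intro n
    apply Subtype.ext
    simp

include hstar in
/-- Sums over the singular elements reduce to the centralizer. -/
theorem sum_singular {F : G → ℝ} (hF : ∀ g k : G, F (k * g * k⁻¹) = F g) :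
    (Nat.card (NNs P) : ℝ) * ∑ y ∈ Finset.univ.filter (fun y : G => p ∣ orderOf y), F y
      = (Nat.card G : ℝ) * ∑ c ∈ Finset.univ.filter (fun c : CCs P => p ∣ orderOf (c : G)), F c := by
  classical
  set Gs := Finset.univ.filter (fun y : G => p ∣ orderOf y) with hGs
  set Cs := Finset.univ.filter (fun c : CCs P => p ∣ orderOf (c : G)) with hCs
  have h1 : ∀ g : G, ∑ c ∈ Cs, F (g * (c : G) * g⁻¹)
      = ∑ y ∈ Gs, (if g⁻¹ * y * g ∈ CCs P then F y else 0) := by
    intro g
    rw [← Finset.sum_filter]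
    refine Finset.sum_bij (fun c _ => g * (c : G) * g⁻¹) ?_ ?_ ?_ ?_
    · intro c hc
      simp only [hCs, Finset.mem_filter, Finset.mem_univ, true_and] at hc
      simp only [hGs, Finset.mem_filter, Finset.mem_univ, true_and]
      refine ⟨by rwa [orderOf_conj'], ?_⟩
      have : g⁻¹ * (g * (c : G) * g⁻¹) * g = (c : G) := by group
      rw [this]
      exact c.2
    · intro c _ c' _ h
      apply Subtype.ext
      have h3 : g * (c : G) = g * (c' : G) := mul_right_cancel h
      exact mul_left_cancel h3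
    · intro y hy
      simp only [hGs, Finset.mem_filter, Finset.mem_univ, true_and] at hy
      refine ⟨⟨g⁻¹ * y * g, hy.2⟩, ?_, ?_⟩
      · simp only [hCs, Finset.mem_filter, Finset.mem_univ, true_and]
        have := orderOf_conj' y g⁻¹
        rw [inv_inv] at this
        rw [this]
        exact hy.1
      · group
    · intro _ _
      rfl
  have h2 : ∑ g : G, ∑ c ∈ Cs, F (g * (c : G) * g⁻¹) = (Nat.card G : ℝ) * ∑ c ∈ Cs, F c := by
    have : ∀ g : G, ∑ c ∈ Cs, F (g * (c : G) * g⁻¹) = ∑ c ∈ Cs, F c := fun g =>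
      Finset.sum_congr rfl fun c _ => hF _ _
    simp only [this, Finset.sum_const, Finset.card_univ, nsmul_eq_mul]
    rw [Nat.card_eq_fintype_card]
  rw [← h2]
  simp only [h1]
  rw [Finset.sum_comm, Finset.mul_sum]
  refine Finset.sum_congr rfl fun y hy => ?_
  simp only [hGs, Finset.mem_filter, Finset.mem_univ, true_and] at hy
  rw [← card_conj_into P hstar hy]
  rw [← Finset.sum_filter, Finset.sum_const, nsmul_eq_mul]
  congr 2
  rw [Nat.card_eq_fintype_card, Fintype.card_subtype]

end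

end Cfsg.Agent.H21
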