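import Cfsg.Agent.Lib.H21.CCSylowA

/-!
# Sylow subgroups in which every nonidentity element has the centralizer of the whole group:
# decomposition of the centralizer, linear characters of `P`
-/

set_option autoImplicit false
set_option linter.unusedSectionVars false
set_option linter.style.haveILetI false
set_option linter.unusedSimpArgs false

namespace Cfsg.Agent.H21

open scoped ComplexConjugate
open Cfsg Module Cfsg.Agent.H22

universe u v

variable {G : Type u} [Group G] [Finite G]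
variable {p : ℕ} [hp : Fact p.Prime]

section Decomp

variable (P : Sylow p G)
  (hstar : ∀ x ∈ (P : Subgroup G), x ≠ 1 → Subgroup.centralizer ({x} : Set G) = CCs P)
  (hne : (P : Subgroup G) ≠ ⊥)

/-- The `p`-regular elements of the centralizer. -/
noncomputable def Crs : Finset (CCs P) := by
  classical
  exact Finset.univ.filter (fun c : CCs P => ¬ p ∣ orderOf (c : G))

theorem mem_Crs {c : CCs P} : c ∈ Crs P ↔ ¬ p ∣ orderOf (c : G) := by
  classical
  simp [Crs]

include hstar hne in
theorem sum_CCs_decomp (H : G → ℝ) :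
    ∑ c : CCs P, H c = ∑ l ∈ Crs P, ∑ u : (P : Subgroup G), H ((u : G) * (l : G)) := by
  classical
  have hPC := P_le_CCs P hstar hne
  rw [← Finset.sum_product' (f := fun (l : CCs P) (u : (P : Subgroup G)) => H ((u : G) * (l : G)))]
  symm
  refine Finset.sum_bij
    (fun x _ => (⟨(x.2 : G) * (x.1 : G), (CCs P).mul_mem (hPC x.2.2) x.1.2⟩ : CCs P)) ?_ ?_ ?_ ?_
  · intro _ _
    exact Finset.mem_univ _
  · rintro ⟨l, u⟩ hx ⟨l', u'⟩ hx' h
    have h1 : (u : G) * (l : G) = (u' : G) * (l' : G) := congrArg Subtype.val h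
    simp only [Finset.mem_product, Finset.mem_univ, and_true, mem_Crs] at hx hx'
    set w : G := (u' : G)⁻¹ * (u : G) with hw
    have hwP : w ∈ (P : Subgroup G) := (P : Subgroup G).mul_mem ((P : Subgroup G).inv_mem u'.2) u.2
    have h2 : w * (l : G) = (l' : G) := by
      rw [hw, mul_assoc, h1]
      group
    have hcomm : Commute (l : G) w := by
      have := (Subgroup.mem_centralizer_iff.mp l.2) w hwP
      exact this.symm
    have hw1 : w = 1 := by
      by_contra hw1
      have h3 := singular_of_mul P.isPGroup' hx hcomm hwP hw1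
      rw [hcomm.eq, h2] at h3
      exact hx' h3
    have h4 : (u : G) = (u' : G) := by
      have : (u' : G)⁻¹ * (u : G) = 1 := hw1
      exact (inv_mul_eq_one.mp this).symm
    have h5 : (l : G) = (l' : G) := by
      rw [hw1, one_mul] at h2
      exact h2
    exact Prod.ext (Subtype.ext h5) (Subtype.ext h4)
  · intro c _
    obtain ⟨a, b, hab, hcm, hak, hb⟩ := exists_pPart_decomp p (c : G)
    have hcop : (orderOf b).Coprime (orderOf a) := by
      obtain ⟨k, hk⟩ := hak
      rw [hk]
      exact Nat.Coprime.pow_right _ hb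
    obtain ⟨r, hr⟩ := exists_pow_eq_self_of_coprime hcop
    have ha_pow : a = (c : G) ^ (orderOf b * r) := by
      rw [hab, pow_mul, hcm.mul_pow, pow_orderOf_eq_one, mul_one, hr]
    have haC : a ∈ CCs P := by
      rw [ha_pow]
      exact (CCs P).pow_mem c.2 _
    have haP : a ∈ (P : Subgroup G) := mem_P_of_pelt P haC hak
    have hbC : b ∈ CCs P := by
      have : b = a⁻¹ * (c : G) := by
        rw [hab]
        group
      rw [this]
      exact (CCs P).mul_mem ((CCs P).inv_mem haC) c.2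
    refine ⟨(⟨b, hbC⟩, ⟨a, haP⟩), ?_, ?_⟩
    · simp only [Finset.mem_product, Finset.mem_univ, and_true, mem_Crs]
      exact (Nat.Prime.coprime_iff_not_dvd hp.out).mp hb.symm
    · apply Subtype.ext
      exact hab.symm
  · intro _ _
    rfl

include hstar hne in
theorem card_CCs_eq : Nat.card (CCs P) = (Crs P).card * Nat.card (P : Subgroup G) := by
  classical
  have h := sum_CCs_decomp P hstar hne (fun _ => 1)
  simp only [Finset.sum_const, Finset.card_univ, nsmul_eq_mul, mul_one] at h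
  rw [Nat.card_eq_fintype_card, Nat.card_eq_fintype_card]
  exact_mod_cast h

include hstar in
/-- The main inequality: the identity is not singular. -/
theorem star_ineq {f : G → ℂ} (hf : IsClassFunction G f) (h1 : f 1 ≠ 0) :
    (Nat.card G : ℝ) * (∑ c : CCs P, ‖f c‖ ^ 2 - ∑ l ∈ Crs P, ‖f l‖ ^ 2)
      < (Nat.card (NNs P) : ℝ) * ∑ g : G, ‖f g‖ ^ 2 := by
  classical
  have h2 := sum_singular P hstar (F := fun g => ‖f g‖ ^ 2) (by
    intro g k
    have := hf g k
    show ‖f (k * g * k⁻¹)‖ ^ 2 = ‖f g‖ ^ 2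
    rw [this])
  have h3 : ∑ c : CCs P, ‖f c‖ ^ 2 - ∑ l ∈ Crs P, ‖f l‖ ^ 2
      = ∑ c ∈ Finset.univ.filter (fun c : CCs P => p ∣ orderOf (c : G)), ‖f c‖ ^ 2 := by
    have h4 : Crs P = Finset.univ.filter (fun c : CCs P => ¬ p ∣ orderOf (c : G)) := by
      unfold Crs
      congr
    rw [h4, ← Finset.sum_filter_add_sum_filter_not Finset.univ (fun c : CCs P => p ∣ orderOf (c : G))]
    ring
  rw [h3, ← h2]
  apply mul_lt_mul_of_pos_left
  · apply Finset.sum_lt_sum_of_subset (Finset.filter_subset _ _) (Finset.mem_univ (1 : G))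
    · simp [hp.out.ne_one]
    · have : ‖f 1‖ ≠ 0 := norm_ne_zero_iff.mpr h1
      positivity
    · intro _ _ _
      positivity
  · exact_mod_cast Nat.card_pos

end Decomp

section Lin

variable {A : Type*} [Group A] [Finite A]

/-- A linear character as a function. -/
def IsLinFn (l : A → ℂ) : Prop :=
  l 1 = 1 ∧ (∀ u v, l (u * v) = l u * l v) ∧ ∀ u, ‖l u‖ = 1

theorem lin_mul_conj_self {l : A → ℂ} (hl : IsLinFn l) (u : A) : l u * conj (l u) = 1 := by
  rw [Complex.mul_conj, Complex.normSq_eq_norm_sq, hl.2.2 u]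
  simp

theorem lin_conj_mul_self {l : A → ℂ} (hl : IsLinFn l) (u : A) : conj (l u) * l u = 1 := by
  rw [mul_comm]
  exact lin_mul_conj_self hl u

theorem isLinFn_mul_conj {l m : A → ℂ} (hl : IsLinFn l) (hm : IsLinFn m) :
    IsLinFn (fun u => l u * conj (m u)) := by
  refine ⟨?_, ?_, ?_⟩
  · simp [hl.1, hm.1]
  · intro u v
    simp only [hl.2.1, hm.2.1, map_mul]
    ring
  · intro u
    simp [hl.2.2, hm.2.2]

/-- Orthogonality of linear characters. -/
theorem sum_lin_eq_zero {l : A → ℂ} (hl : IsLinFn l) (hl1 : l ≠ fun _ => 1) :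
    ∑ u : A, l u = 0 := by
  classical
  have : ∃ v, l v ≠ 1 := by
    by_contra h
    push Not at h
    exact hl1 (funext h)
  obtain ⟨v, hv⟩ := this
  have h1 : ∑ u : A, l u = l v * ∑ u : A, l u := by
    rw [Finset.mul_sum]
    rw [← Equiv.sum_comp (Equiv.mulLeft v) (fun u => l u)]
    exact Finset.sum_congr rfl fun u _ => hl.2.1 v u
  have h2 : (1 - l v) * ∑ u : A, l u = 0 := by
    rw [sub_mul, one_mul, ← h1, sub_self]
  rcases mul_eq_zero.mp h2 with h3 | h3
  · exact absurd (sub_eq_zero.mp h3).symm hv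
  · exact h3

theorem sum_lin_orth {l m : A → ℂ} (hl : IsLinFn l) (hm : IsLinFn m) (hne : l ≠ m) :
    ∑ u : A, l u * conj (m u) = 0 := by
  apply sum_lin_eq_zero (isLinFn_mul_conj hl hm)
  intro h
  apply hne
  funext u
  have h1 : l u * conj (m u) = 1 := congrFun h u
  have h2 := lin_conj_mul_self hm u
  calc l u = l u * (conj (m u) * m u) := by rw [h2, mul_one]
    _ = (l u * conj (m u)) * m u := by ring
    _ = m u := by rw [h1, one_mul]

theorem sum_lin_self {l : A → ℂ} (hl : IsLinFn l) :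
    ∑ u : A, l u * conj (l u) = (Nat.card A : ℂ) := by
  simp only [lin_mul_conj_self hl, Finset.sum_const, Finset.card_univ, nsmul_eq_mul, mul_one]
  rw [Nat.card_eq_fintype_card]

/-- Parseval and Cauchy: a function with small Fourier support is flat. -/
theorem parseval_cauchy (T : Finset (A → ℂ)) (hT : ∀ l ∈ T, IsLinFn l) (w : (A → ℂ) → ℂ) :
    ‖∑ l ∈ T, w l‖ ^ 2 * (Nat.card A : ℝ)
      ≤ (T.card : ℝ) * ∑ u : A, ‖∑ l ∈ T, w l * l u‖ ^ 2 := by
  classical
  have h1 : ∑ u : A, ‖∑ l ∈ T, w l * l u‖ ^ 2 = (Nat.card A : ℝ) * ∑ l ∈ T, ‖w l‖ ^ 2 := by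
    have h2 : ((∑ u : A, ‖∑ l ∈ T, w l * l u‖ ^ 2 : ℝ) : ℂ)
        = (((Nat.card A : ℝ) * ∑ l ∈ T, ‖w l‖ ^ 2 : ℝ) : ℂ) := by
      push_cast
      have h3 : ∀ u : A, ((‖∑ l ∈ T, w l * l u‖ : ℝ) : ℂ) ^ 2
          = ∑ l ∈ T, ∑ m ∈ T, w l * conj (w m) * (l u * conj (m u)) := by
        intro u
        rw [← Complex.ofReal_pow, ← Complex.normSq_eq_norm_sq, ← Complex.mul_conj, map_sum,
          Finset.sum_mul_sum]
        refine Finset.sum_congr rfl fun l _ => Finset.sum_congr rfl fun m _ => ?_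
        rw [map_mul]
        ring
      simp only [h3]
      rw [Finset.sum_comm]
      simp only [Finset.mul_sum]
      refine Finset.sum_congr rfl fun l hl => ?_
      rw [Finset.sum_comm]
      have h4 : ∀ m ∈ T, ∑ u : A, w l * conj (w m) * (l u * conj (m u))
          = if m = l then (Nat.card A : ℂ) * ((‖w l‖ : ℂ) ^ 2) else 0 := by
        intro m hm
        rw [← Finset.mul_sum]
        by_cases hml : m = l
        · subst hml
          rw [if_pos rfl, sum_lin_self (hT m hm), ← Complex.ofReal_pow,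
            ← Complex.normSq_eq_norm_sq, ← Complex.mul_conj]
          ring
        · rw [if_neg hml, sum_lin_orth (hT l hl) (hT m hm) (Ne.symm hml), mul_zero]
      rw [Finset.sum_congr rfl h4, Finset.sum_ite_eq' T l]
      simp [hl]
    exact_mod_cast h2
  rw [h1]
  have h5 : ‖∑ l ∈ T, w l‖ ^ 2 ≤ (T.card : ℝ) * ∑ l ∈ T, ‖w l‖ ^ 2 := by
    calc ‖∑ l ∈ T, w l‖ ^ 2 ≤ (∑ l ∈ T, ‖w l‖) ^ 2 := by
          gcongr
          exact norm_sum_le _ _
      _ ≤ _ := sq_sum_le_card_mul_sum_sq
  have hpos : (0 : ℝ) ≤ (Nat.card A : ℝ) := by positivity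
  nlinarith [mul_le_mul_of_nonneg_right h5 hpos]

end Lin

end Cfsg.Agent.H21
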