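import Cfsg.Agent.Lib.H21.CCSylowB

/-!
# Sylow subgroups in which every nonidentity element has the centralizer of the whole group:
# restriction to the centralizer
-/

set_option autoImplicit false
set_option linter.unusedSectionVars false
set_option linter.style.haveILetI false
set_option linter.unusedSimpArgs false

namespace Cfsg.Agent.H21

open scoped ComplexConjugate
open Cfsg Module Cfsg.Agent.H22

universe u v

variable {G : Type u} [Group G] [Finite G]
variable {p : ℕ} [hp : Fact p.Prime]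

section Chars

variable (P : Sylow p G) (hPC : (P : Subgroup G) ≤ CCs P)

/-- An element of `P` inside the centralizer. -/
def inCC (u : (P : Subgroup G)) : CCs P := ⟨u, hPC u.2⟩

theorem inCC_center (u : (P : Subgroup G)) : inCC P hPC u ∈ Subgroup.center (CCs P) := by
  rw [Subgroup.mem_center_iff]
  intro c
  apply Subtype.ext
  exact ((Subgroup.mem_centralizer_iff.mp c.2) u u.2).symm

/-- The linear character of `P` below an irreducible character of the centralizer. -/
noncomputable def lamC (γ : IrrCharacter (CCs P)) (u : (P : Subgroup G)) : ℂ :=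
  γ.1 (inCC P hPC u) / γ.1 1

theorem lamC_mul_val (γ : IrrCharacter (CCs P)) (u : (P : Subgroup G)) (c : CCs P) :
    γ.1 (inCC P hPC u * c) = lamC P hPC γ u * γ.1 c := by
  have h := irr_central_mul γ.2 (inCC_center P hPC u) c
  have h1 := one_eq_charDegree (isCharacter_of_irr γ.2)
  have h0 := irr_one_ne_zero' γ
  rw [← h1] at h
  unfold lamC
  field_simp
  exact h

theorem lamC_val (γ : IrrCharacter (CCs P)) (u : (P : Subgroup G)) :
    γ.1 (inCC P hPC u) = lamC P hPC γ u * γ.1 1 := by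
  have h := lamC_mul_val P hPC γ u 1
  rwa [mul_one] at h

theorem isLinFn_lamC (γ : IrrCharacter (CCs P)) : IsLinFn (lamC P hPC γ) := by
  have h0 := irr_one_ne_zero' γ
  refine ⟨?_, ?_, ?_⟩
  · unfold lamC
    have : inCC P hPC 1 = 1 := rfl
    rw [this]
    exact div_self h0
  · intro u v
    have h1 : inCC P hPC (u * v) = inCC P hPC u * inCC P hPC v := rfl
    have h2 := lamC_mul_val P hPC γ u (inCC P hPC v)
    have h3 := lamC_val P hPC γ v
    rw [h3] at h2
    unfold lamC at h2 ⊢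
    rw [h1, h2]
    field_simp
  · intro u
    unfold lamC
    rw [norm_div, irr_norm_central γ.2 (inCC_center P hPC u),
      one_eq_charDegree (isCharacter_of_irr γ.2), Complex.norm_natCast]
    have : (charDegree γ.1 : ℝ) ≠ 0 := by exact_mod_cast (irr_charDegree_pos γ.2).ne'
    exact div_self this

/-- Multiplicity in the restriction to the centralizer. -/
noncomputable def mC (ψ : IrrCharacter G) (γ : IrrCharacter (CCs P)) : ℕ :=
  Classical.choose (classInner_isNat (isCharacter_restrict (CCs P) (isCharacter_of_irr ψ.2)) γ)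

theorem mC_spec (ψ : IrrCharacter G) (γ : IrrCharacter (CCs P)) :
    classInner (fun c : CCs P => ψ.1 c) γ.1 = mC P ψ γ :=
  Classical.choose_spec (classInner_isNat (isCharacter_restrict (CCs P) (isCharacter_of_irr ψ.2)) γ)

theorem restr_expand (ψ : IrrCharacter G) (c : CCs P) :
    ψ.1 c = ∑ γ : IrrCharacter (CCs P), (mC P ψ γ : ℂ) * γ.1 c := by
  have h := classFunction_expansion (fun c : CCs P => ψ.1 c)
    (isClassFunction_of_isCharacter (isCharacter_restrict (CCs P) (isCharacter_of_irr ψ.2)))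
  have h2 := congrFun h c
  simp only [Finset.sum_apply, Pi.smul_apply, smul_eq_mul, mC_spec] at h2
  exact h2

theorem sum_norm_CC (ψ : IrrCharacter G) :
    ∑ c : CCs P, ‖ψ.1 c‖ ^ 2
      = (Nat.card (CCs P) : ℝ) * ∑ γ : IrrCharacter (CCs P), ((mC P ψ γ : ℝ)) ^ 2 := by
  have hC : (Nat.card (CCs P) : ℂ) ≠ 0 := by exact_mod_cast Nat.card_pos.ne'
  have h1 : ((∑ c : CCs P, ‖ψ.1 c‖ ^ 2 : ℝ) : ℂ)
      = (((Nat.card (CCs P) : ℝ) * ∑ γ : IrrCharacter (CCs P), ((mC P ψ γ : ℝ)) ^ 2 : ℝ) : ℂ) := by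
    push_cast
    have h2 : ∀ c : CCs P, ((‖ψ.1 c‖ : ℝ) : ℂ) ^ 2
        = ∑ γ : IrrCharacter (CCs P), (mC P ψ γ : ℂ) * (ψ.1 c * conj (γ.1 c)) := by
      intro c
      rw [← Complex.ofReal_pow, ← Complex.normSq_eq_norm_sq, ← Complex.mul_conj]
      have h5 : conj (ψ.1 c) = conj (∑ γ : IrrCharacter (CCs P), (mC P ψ γ : ℂ) * γ.1 c) := by
        rw [← restr_expand P ψ c]
      rw [h5, map_sum, Finset.mul_sum]
      refine Finset.sum_congr rfl fun γ _ => ?_
      rw [map_mul, Complex.conj_natCast]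
      ring
    simp only [h2]
    rw [Finset.sum_comm, Finset.mul_sum]
    refine Finset.sum_congr rfl fun γ _ => ?_
    have h3 := mC_spec P ψ γ
    unfold classInner at h3
    rw [← Finset.mul_sum]
    have h4 : ∑ c : CCs P, ψ.1 c * conj (γ.1 c) = (Nat.card (CCs P) : ℂ) * (mC P ψ γ : ℂ) := by
      rw [← h3, Nat.card_eq_fintype_card]
      have : (Fintype.card (CCs P) : ℂ) ≠ 0 := by
        rw [← Nat.card_eq_fintype_card]
        exact hC
      field_simp
    rw [h4]
    ring
  exact_mod_cast h1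

theorem degree_expand (ψ : IrrCharacter G) :
    charDegree ψ.1 = ∑ γ : IrrCharacter (CCs P), mC P ψ γ * charDegree γ.1 := by
  have h := restr_expand P ψ 1
  have h2 : ((charDegree ψ.1 : ℕ) : ℂ)
      = ((∑ γ : IrrCharacter (CCs P), mC P ψ γ * charDegree γ.1 : ℕ) : ℂ) := by
    push_cast
    rw [← one_eq_charDegree (isCharacter_of_irr ψ.2)]
    have h3 : ψ.1 ((1 : CCs P) : G) = ψ.1 1 := rfl
    rw [← h3, h]
    refine Finset.sum_congr rfl fun γ _ => ?_
    rw [one_eq_charDegree (isCharacter_of_irr γ.2)]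
  exact_mod_cast h2

open Classical in
/-- The linear characters of `P` occurring in `ψ`. -/
noncomputable def TT (ψ : IrrCharacter G) : Finset (↥(P : Subgroup G) → ℂ) :=
  (Finset.univ.filter (fun γ : IrrCharacter (CCs P) => mC P ψ γ ≠ 0)).image (lamC P hPC)

theorem isLinFn_of_mem_TT {ψ : IrrCharacter G} {l : ↥(P : Subgroup G) → ℂ} (hl : l ∈ TT P hPC ψ) :
    IsLinFn l := by
  classical
  unfold TT at hl
  obtain ⟨γ, -, rfl⟩ := Finset.mem_image.mp hl
  exact isLinFn_lamC P hPC γ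

theorem card_TT_le_sum (ψ : IrrCharacter G) :
    ((TT P hPC ψ).card : ℝ) ≤ ∑ γ : IrrCharacter (CCs P), ((mC P ψ γ : ℝ)) ^ 2 := by
  classical
  have h1 : (TT P hPC ψ).card ≤ (Finset.univ.filter (fun γ : IrrCharacter (CCs P) => mC P ψ γ ≠ 0)).card :=
    Finset.card_image_le
  have h2 : ((Finset.univ.filter (fun γ : IrrCharacter (CCs P) => mC P ψ γ ≠ 0)).card : ℝ)
      ≤ ∑ γ : IrrCharacter (CCs P), ((mC P ψ γ : ℝ)) ^ 2 := by
    rw [Finset.card_filter]
    push_cast
    refine Finset.sum_le_sum fun γ _ => ?_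
    by_cases h : mC P ψ γ = 0
    · simp [h]
    · rw [if_pos h]
      have : (1 : ℝ) ≤ (mC P ψ γ : ℝ) := by exact_mod_cast Nat.one_le_iff_ne_zero.mpr h
      nlinarith
  exact le_trans (by exact_mod_cast h1) h2

theorem card_TT_le_degree (ψ : IrrCharacter G) : (TT P hPC ψ).card ≤ charDegree ψ.1 := by
  classical
  have h1 : (TT P hPC ψ).card ≤ (Finset.univ.filter (fun γ : IrrCharacter (CCs P) => mC P ψ γ ≠ 0)).card :=
    Finset.card_image_le
  refine h1.trans ?_
  rw [degree_expand P ψ, Finset.card_filter]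
  refine Finset.sum_le_sum fun γ _ => ?_
  by_cases h : mC P ψ γ = 0
  · simp [h]
  · rw [if_pos h]
    exact Nat.mul_pos (Nat.pos_of_ne_zero h) (irr_charDegree_pos γ.2)

/-- The values of `ψ` on a coset of `P`. -/
theorem value_on_coset (ψ : IrrCharacter G) (u : (P : Subgroup G)) (c : CCs P) :
    ψ.1 ((u : G) * (c : G)) = ∑ γ : IrrCharacter (CCs P),
      (mC P ψ γ : ℂ) * (lamC P hPC γ u * γ.1 c) := by
  have h := restr_expand P ψ (inCC P hPC u * c)
  have h2 : ((inCC P hPC u * c : CCs P) : G) = (u : G) * (c : G) := rfl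
  rw [h2] at h
  rw [h]
  refine Finset.sum_congr rfl fun γ _ => ?_
  rw [lamC_mul_val]

theorem diamond (ψ : IrrCharacter G) (c : CCs P) :
    ‖ψ.1 c‖ ^ 2 * (Nat.card (P : Subgroup G) : ℝ)
      ≤ ((TT P hPC ψ).card : ℝ) * ∑ u : (P : Subgroup G), ‖ψ.1 ((u : G) * (c : G))‖ ^ 2 := by
  classical
  set S := Finset.univ.filter (fun γ : IrrCharacter (CCs P) => mC P ψ γ ≠ 0) with hS
  set T := TT P hPC ψ with hT
  have hTdef : T = S.image (lamC P hPC) := rfl
  let w : (↥(P : Subgroup G) → ℂ) → ℂ := fun l =>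
    ∑ γ ∈ S.filter (fun γ => lamC P hPC γ = l), (mC P ψ γ : ℂ) * γ.1 c
  have hval : ∀ u : (P : Subgroup G), ψ.1 ((u : G) * (c : G)) = ∑ l ∈ T, w l * l u := by
    intro u
    rw [value_on_coset P hPC ψ u c]
    have h1 : ∑ γ : IrrCharacter (CCs P), (mC P ψ γ : ℂ) * (lamC P hPC γ u * γ.1 c)
        = ∑ γ ∈ S, (mC P ψ γ : ℂ) * (lamC P hPC γ u * γ.1 c) := by
      rw [hS, Finset.sum_filter]
      refine Finset.sum_congr rfl fun γ _ => ?_
      by_cases h : mC P ψ γ = 0
      · simp [h]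
      · rw [if_pos h]
    rw [h1, ← Finset.sum_fiberwise_of_maps_to (g := lamC P hPC) (t := T)
      (fun γ hγ => by rw [hTdef]; exact Finset.mem_image_of_mem _ hγ)]
    refine Finset.sum_congr rfl fun l _ => ?_
    simp only [w]
    rw [Finset.sum_mul]
    refine Finset.sum_congr rfl fun γ hγ => ?_
    rw [(Finset.mem_filter.mp hγ).2]
    ring
  have h1 := parseval_cauchy T (fun l hl => isLinFn_of_mem_TT P hPC hl) w
  have h2 : ∑ l ∈ T, w l = ψ.1 c := by
    have := hval 1
    simp only [OneMemClass.coe_one, one_mul] at this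
    rw [this]
    refine Finset.sum_congr rfl fun l hl => ?_
    rw [(isLinFn_of_mem_TT P hPC hl).1, mul_one]
  rw [h2] at h1
  simpa only [hval] using h1

/-- The multiplicity of a linear character of `P` in `ψ`. -/
noncomputable def wN (ψ : IrrCharacter G) (l : ↥(P : Subgroup G) → ℂ) : ℕ := by
  classical
  exact ∑ γ ∈ Finset.univ.filter (fun γ : IrrCharacter (CCs P) => lamC P hPC γ = l),
    mC P ψ γ * charDegree γ.1

theorem sum_conj_lin (ψ : IrrCharacter G) {l : ↥(P : Subgroup G) → ℂ} (hl : IsLinFn l) :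
    ∑ u : (P : Subgroup G), ψ.1 u * conj (l u)
      = (Nat.card (P : Subgroup G) : ℂ) * (wN P hPC ψ l : ℂ) := by
  classical
  have h1 : ∀ u : (P : Subgroup G), ψ.1 u = ∑ γ : IrrCharacter (CCs P),
      (mC P ψ γ : ℂ) * (charDegree γ.1 : ℂ) * lamC P hPC γ u := by
    intro u
    have h2 := restr_expand P ψ (inCC P hPC u)
    have h3 : ((inCC P hPC u : CCs P) : G) = u := rfl
    rw [h3] at h2
    rw [h2]
    refine Finset.sum_congr rfl fun γ _ => ?_
    rw [lamC_val, one_eq_charDegree (isCharacter_of_irr γ.2)]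
    ring
  simp only [h1, Finset.sum_mul]
  rw [Finset.sum_comm]
  unfold wN
  push_cast
  rw [Finset.sum_filter, Finset.mul_sum]
  refine Finset.sum_congr rfl fun γ _ => ?_
  by_cases h : lamC P hPC γ = l
  · rw [if_pos h]
    have h4 := sum_lin_self hl
    have h5 : ∑ u : (P : Subgroup G), (mC P ψ γ : ℂ) * (charDegree γ.1 : ℂ) * lamC P hPC γ u * conj (l u)
        = (mC P ψ γ : ℂ) * (charDegree γ.1 : ℂ) * ∑ u : (P : Subgroup G), l u * conj (l u) := by
      rw [Finset.mul_sum, h]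
      exact Finset.sum_congr rfl fun _ _ => by ring
    rw [h5, h4]
    ring
  · rw [if_neg h, mul_zero]
    have h4 := sum_lin_orth (isLinFn_lamC P hPC γ) hl h
    have h5 : ∑ u : (P : Subgroup G), (mC P ψ γ : ℂ) * (charDegree γ.1 : ℂ) * lamC P hPC γ u * conj (l u)
        = (mC P ψ γ : ℂ) * (charDegree γ.1 : ℂ) * ∑ u : (P : Subgroup G), lamC P hPC γ u * conj (l u) := by
      rw [Finset.mul_sum]
      exact Finset.sum_congr rfl fun _ _ => by ring
    rw [h5, h4, mul_zero]

theorem wN_ne_zero_iff (ψ : IrrCharacter G) (l : ↥(P : Subgroup G) → ℂ) :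
    wN P hPC ψ l ≠ 0 ↔ l ∈ TT P hPC ψ := by
  classical
  unfold wN TT
  constructor
  · intro h
    obtain ⟨γ, hγ, hne⟩ := Finset.exists_ne_zero_of_sum_ne_zero h
    have h1 : mC P ψ γ ≠ 0 := fun h0 => hne (by rw [h0, zero_mul])
    refine Finset.mem_image.mpr ⟨γ, ?_, (Finset.mem_filter.mp hγ).2⟩
    simp [h1]
  · intro h
    obtain ⟨γ, hγ, rfl⟩ := Finset.mem_image.mp h
    have h1 : mC P ψ γ ≠ 0 := by simpa using hγ
    intro h0
    rw [Finset.sum_eq_zero_iff] at h0
    have h2 := h0 γ (by simp)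
    rcases Nat.mul_eq_zero.mp h2 with h3 | h3
    · exact h1 h3
    · exact (irr_charDegree_pos γ.2).ne' h3

theorem mem_TT_iff (ψ : IrrCharacter G) {l : ↥(P : Subgroup G) → ℂ} (hl : IsLinFn l) :
    l ∈ TT P hPC ψ ↔ ∑ u : (P : Subgroup G), ψ.1 u * conj (l u) ≠ 0 := by
  rw [sum_conj_lin P hPC ψ hl, ← wN_ne_zero_iff]
  have h0 : (Nat.card (P : Subgroup G) : ℂ) ≠ 0 := by exact_mod_cast Nat.card_pos.ne'
  constructor
  · intro h
    exact mul_ne_zero h0 (by exact_mod_cast h)
  · intro h h1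
    apply h
    rw [h1]
    simp

end Chars

end Cfsg.Agent.H21
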