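import Cfsg.Agent.Lib.H21.CCSylowC
import Cfsg.Agent.Lib.H21.CentralProd

/-!
# Sylow subgroups in which every nonidentity element has the centralizer of the whole group:
# the key inequality and the action of the normalizer
-/

set_option autoImplicit false
set_option linter.unusedSectionVars false
set_option linter.style.haveILetI false
set_option linter.unusedSimpArgs false

namespace Cfsg.Agent.H21

open scoped ComplexConjugate
open Cfsg Module Cfsg.Agent.H22

universe u v

variable {G : Type u} [Group G] [Finite G]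
variable {p : ℕ} [hp : Fact p.Prime]

section

variable (P : Sylow p G)
  (hstar : ∀ x ∈ (P : Subgroup G), x ≠ 1 → Subgroup.centralizer ({x} : Set G) = CCs P)
  (hne : (P : Subgroup G) ≠ ⊥) (hPC : (P : Subgroup G) ≤ CCs P)

/-- The sum of the squares of the multiplicities in the restriction to the centralizer. -/
noncomputable def DD (ψ : IrrCharacter G) : ℕ := ∑ γ : IrrCharacter (CCs P), mC P ψ γ ^ 2

theorem sum_norm_CC' (ψ : IrrCharacter G) :
    ∑ c : CCs P, ‖ψ.1 c‖ ^ 2 = (Nat.card (CCs P) : ℝ) * (DD P ψ : ℝ) := by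
  rw [sum_norm_CC]
  unfold DD
  push_cast
  rfl

theorem card_TT_le_DD (ψ : IrrCharacter G) : (TT P hPC ψ).card ≤ DD P ψ := by
  have := card_TT_le_sum P hPC ψ
  unfold DD
  exact_mod_cast this

include hstar hne in
theorem crs_bound (ψ : IrrCharacter G) :
    (Nat.card (P : Subgroup G) : ℝ) * ∑ l ∈ Crs P, ‖ψ.1 l‖ ^ 2
      ≤ ((TT P hPC ψ).card : ℝ) * ((Nat.card (CCs P) : ℝ) * (DD P ψ : ℝ)) := by
  rw [← sum_norm_CC' P ψ, sum_CCs_decomp P hstar hne (fun g => ‖ψ.1 g‖ ^ 2), Finset.mul_sum,
    Finset.mul_sum]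
  refine Finset.sum_le_sum fun l _ => ?_
  have := diamond P hPC ψ l
  linarith [this]

include hstar hne in
theorem key_ineq (ψ : IrrCharacter G) (e : ℕ) (he : Nat.card (NNs P) = e * Nat.card (CCs P)) :
    (DD P ψ : ℝ) * ((Nat.card (P : Subgroup G) : ℝ) - (TT P hPC ψ).card)
      < e * Nat.card (P : Subgroup G) := by
  have h1 := star_ineq P hstar (isClassFunction_of_isCharacter (isCharacter_of_irr ψ.2))
    (irr_one_ne_zero' ψ)
  rw [sum_norm_CC', sum_norm_sq ψ, he] at h1
  have h2 := crs_bound P hstar hne hPC ψ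
  have hG : (0 : ℝ) < Nat.card G := by exact_mod_cast Nat.card_pos
  have hC : (0 : ℝ) < Nat.card (CCs P) := by exact_mod_cast Nat.card_pos
  have hq : (0 : ℝ) < Nat.card (P : Subgroup G) := by exact_mod_cast Nat.card_pos
  set S := ∑ l ∈ Crs P, ‖ψ.1 l‖ ^ 2
  set D := (DD P ψ : ℝ)
  set A := ((TT P hPC ψ).card : ℝ)
  set q := (Nat.card (P : Subgroup G) : ℝ)
  set c := (Nat.card (CCs P) : ℝ)
  set g := (Nat.card G : ℝ)
  push_cast at h1
  have h3 : c * D - S < e * c := by
    have : g * (c * D - S) < g * (e * c) := by linarith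
    exact lt_of_mul_lt_mul_left this hG.le
  have h4 : c * (D * (q - A)) < c * (e * q) := by
    have : q * (c * D - S) < q * (e * c) := mul_lt_mul_of_pos_left h3 hq
    nlinarith
  exact lt_of_mul_lt_mul_left h4 hC.le

/-- Conjugation by an element of the normalizer on `P`. -/
def cjP (h : NNs P) (u : (P : Subgroup G)) : (P : Subgroup G) :=
  ⟨(h : G) * u * (h : G)⁻¹, (Subgroup.mem_normalizer_iff.mp h.2 u).mp u.2⟩

@[simp] theorem cjP_coe (h : NNs P) (u : (P : Subgroup G)) :
    ((cjP P h u : (P : Subgroup G)) : G) = (h : G) * u * (h : G)⁻¹ := rfl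

theorem cjP_mul (h : NNs P) (u v : (P : Subgroup G)) :
    cjP P h (u * v) = cjP P h u * cjP P h v := by
  apply Subtype.ext
  simp only [cjP_coe, Subgroup.coe_mul]
  group

theorem cjP_one (h : NNs P) : cjP P h 1 = 1 := by
  apply Subtype.ext
  simp [cjP_coe]

theorem cjP_comp (h k : NNs P) (u : (P : Subgroup G)) :
    cjP P h (cjP P k u) = cjP P (h * k) u := by
  apply Subtype.ext
  simp only [cjP_coe, Subgroup.coe_mul]
  group

theorem cjP_one_left (u : (P : Subgroup G)) : cjP P 1 u = u := by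
  apply Subtype.ext
  simp [cjP_coe]

theorem cjP_bij (h : NNs P) : Function.Bijective (cjP P h) := by
  refine ⟨fun u v huv => ?_, fun v => ⟨cjP P h⁻¹ v, ?_⟩⟩
  · have := congrArg (cjP P h⁻¹) huv
    simpa [cjP_comp, cjP_one_left] using this
  · simp [cjP_comp, cjP_one_left]

include hstar hPC in
/-- The action on the nontrivial linear characters of `P` is free modulo the centralizer. -/
theorem mem_CCs_of_fix (h : NNs P) {l : ↥(P : Subgroup G) → ℂ} (hl : IsLinFn l)
    (hl1 : l ≠ fun _ => 1) (hfix : ∀ u, l (cjP P h u) = l u) : (h : G) ∈ CCs P := by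
  by_contra hnot
  apply hl1
  have hab : ∀ u v : (P : Subgroup G), u * v = v * u := by
    intro u v
    apply Subtype.ext
    have := (Subgroup.mem_centralizer_iff.mp (hPC v.2)) u u.2
    exact this
  let φ : ↥(P : Subgroup G) → ↥(P : Subgroup G) := fun u => cjP P h u * u⁻¹
  have hinj : Function.Injective φ := by
    intro u v huv
    by_contra hne'
    have hw : ((u * v⁻¹ : (P : Subgroup G)) : G) ≠ 1 := by
      intro h1
      apply hne'
      have : u * v⁻¹ = 1 := Subtype.ext h1
      exact mul_inv_eq_one.mp this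
    apply hnot
    rw [← hstar _ (u * v⁻¹).2 hw, mem_centralizer_singleton_iff]
    have h2 : cjP P h (u * v⁻¹) = u * v⁻¹ := by
      have h3 : cjP P h u * u⁻¹ = cjP P h v * v⁻¹ := huv
      have h4 : cjP P h v⁻¹ = (cjP P h v)⁻¹ := by
        apply eq_inv_of_mul_eq_one_left
        rw [← cjP_mul, inv_mul_cancel, cjP_one]
      rw [cjP_mul, h4]
      have h5 : cjP P h u = cjP P h v * v⁻¹ * u := by
        rw [← h3]
        group
      rw [h5]
      calc cjP P h v * v⁻¹ * u * (cjP P h v)⁻¹
          = (cjP P h v * (cjP P h v)⁻¹) * (v⁻¹ * u) := by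
            rw [mul_assoc (cjP P h v) v⁻¹ u, mul_assoc (cjP P h v) (v⁻¹ * u), hab (v⁻¹ * u) (cjP P h v)⁻¹,
              mul_assoc]
        _ = u * v⁻¹ := by
            rw [mul_inv_cancel, one_mul, hab]
    have h6 := congrArg Subtype.val h2
    simp only [cjP_coe] at h6
    calc (u * v⁻¹ : (P : Subgroup G)).1 * (h : G)
        = ((h : G) * (u * v⁻¹ : (P : Subgroup G)).1 * (h : G)⁻¹) * (h : G) := by rw [h6]
      _ = (h : G) * (u * v⁻¹ : (P : Subgroup G)).1 := by group
  have hsurj : Function.Surjective φ := Finite.injective_iff_surjective.mp hinj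
  funext v
  obtain ⟨u, rfl⟩ := hsurj v
  have h1 : l (cjP P h u * u⁻¹) * l u = l (cjP P h u) := by
    rw [← hl.2.1, inv_mul_cancel_right]
  have h2 := hfix u
  rw [h2] at h1
  have h3 : l u ≠ 0 := by
    intro h0
    have := hl.2.2 u
    rw [h0, norm_zero] at this
    exact zero_ne_one this
  show l (cjP P h u * u⁻¹) = 1
  exact mul_right_cancel₀ h3 (by rw [h1, one_mul])

/-- The conjugate of a linear character of `P`. -/
def twL (h : NNs P) (l : ↥(P : Subgroup G) → ℂ) : ↥(P : Subgroup G) → ℂ := fun u => l (cjP P h u)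

theorem isLinFn_twL (h : NNs P) {l : ↥(P : Subgroup G) → ℂ} (hl : IsLinFn l) :
    IsLinFn (twL P h l) := by
  refine ⟨?_, ?_, ?_⟩
  · show l (cjP P h 1) = 1
    rw [cjP_one, hl.1]
  · intro u v
    show l (cjP P h (u * v)) = l (cjP P h u) * l (cjP P h v)
    rw [cjP_mul, hl.2.1]
  · intro u
    exact hl.2.2 _

theorem twL_mem_TT (h : NNs P) (ψ : IrrCharacter G) {l : ↥(P : Subgroup G) → ℂ}
    (hl : IsLinFn l) (hm : l ∈ TT P hPC ψ) : twL P h l ∈ TT P hPC ψ := by
  rw [mem_TT_iff P hPC ψ (isLinFn_twL P h hl)]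
  rw [mem_TT_iff P hPC ψ hl] at hm
  have : ∑ u : (P : Subgroup G), ψ.1 u * conj (twL P h l u)
      = ∑ u : (P : Subgroup G), ψ.1 u * conj (l u) := by
    refine Fintype.sum_bijective (cjP P h) (cjP_bij P h) _ _ fun u => ?_
    have h2 : ψ.1 (cjP P h u) = ψ.1 u := by
      rw [cjP_coe]
      exact isClassFunction_of_isCharacter (isCharacter_of_irr ψ.2) _ _
    rw [h2]
    rfl
  rwa [this]

include hstar in
/-- The orbit of a nontrivial linear character occurring in `ψ` has `e` elements. -/
theorem orbit_bound (ψ : IrrCharacter G) {ν : ↥(P : Subgroup G) → ℂ} (hν : ν ∈ TT P hPC ψ)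
    (hν1 : ν ≠ fun _ => 1) (e : ℕ) (he : Nat.card (NNs P) = e * Nat.card (CCs P)) :
    e ≤ ((TT P hPC ψ).erase (fun _ => 1)).card := by
  classical
  have hlin := isLinFn_of_mem_TT P hPC hν
  let F : NNs P → (↥(P : Subgroup G) → ℂ) := fun h => twL P h ν
  have himg : (Finset.univ.image F) ⊆ (TT P hPC ψ).erase (fun _ => 1) := by
    intro a ha
    obtain ⟨h, -, rfl⟩ := Finset.mem_image.mp ha
    refine Finset.mem_erase.mpr ⟨?_, twL_mem_TT P hPC h ψ hlin hν⟩
    intro h1
    apply hν1
    funext v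
    obtain ⟨u, rfl⟩ := (cjP_bij P h).2 v
    exact congrFun h1 u
  have hfib : ∀ a ∈ Finset.univ.image F,
      (Finset.univ.filter (fun h => F h = a)).card ≤ Nat.card (CCs P) := by
    intro a ha
    obtain ⟨h₀, -, rfl⟩ := Finset.mem_image.mp ha
    rw [Nat.card_eq_fintype_card, ← Finset.card_univ]
    refine Finset.card_le_card_of_injOn (fun h =>
      if hm : ((h * h₀⁻¹ : NNs P) : G) ∈ CCs P then ⟨_, hm⟩ else 1) ?_ ?_
    · intro _ _
      exact Finset.mem_univ _
    · intro h hh k hk hhk
      have hmem : ∀ h, h ∈ Finset.univ.filter (fun h => F h = F h₀) →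
          ((h * h₀⁻¹ : NNs P) : G) ∈ CCs P := by
        intro h hh
        have hh2 : twL P h ν = twL P h₀ ν := (Finset.mem_filter.mp hh).2
        apply mem_CCs_of_fix P hstar hPC _ hlin hν1
        intro v
        have h3 := congrFun hh2 (cjP P h₀⁻¹ v)
        simp only [twL, cjP_comp] at h3
        rw [h3]
        simp [cjP_one_left]
      simp only [dif_pos (hmem h hh), dif_pos (hmem k hk)] at hhk
      have h4 : ((h * h₀⁻¹ : NNs P) : G) = ((k * h₀⁻¹ : NNs P) : G) := Subtype.mk.inj hhk
      have h5 : h * h₀⁻¹ = k * h₀⁻¹ := Subtype.ext h4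
      exact mul_right_cancel h5
  have h1 := Finset.card_le_mul_card_image (f := F) Finset.univ (Nat.card (CCs P)) hfib
  rw [Finset.card_univ, ← Nat.card_eq_fintype_card, he, mul_comm] at h1
  have h2 := Nat.le_of_mul_le_mul_left h1 Nat.card_pos
  exact h2.trans (Finset.card_le_card himg)

/-- The conjugation action on the nonidentity elements of `P`. -/
@[reducible] def actX : MulAction (NNs P) {v : (P : Subgroup G) // v ≠ 1} where
  smul h v := ⟨cjP P h v.1, fun h1 => v.2 (by
    apply (cjP_bij P h).1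
    rw [h1, cjP_one])⟩
  one_smul v := Subtype.ext (cjP_one_left P v.1)
  mul_smul h k v := Subtype.ext (cjP_comp P h k v.1).symm

/-- A general divisibility for actions with constant stabilizer. -/
theorem index_dvd_of_stabilizer {H X : Type*} [Group H] [Finite H] [Finite X] [MulAction H X]
    (K : Subgroup H) (hK : ∀ x : X, MulAction.stabilizer H x = K) : K.index ∣ Nat.card X := by
  classical
  haveI := Fintype.ofFinite (MulAction.orbitRel.Quotient H X)
  rw [Nat.card_congr (MulAction.selfEquivSigmaOrbits H X), Nat.card_sigma]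
  refine Finset.dvd_sum fun ω _ => ?_
  rw [← hK ω.out, MulAction.index_stabilizer, Nat.card_coe_set_eq]

include hstar in
theorem e_dvd (e : ℕ) (he : e = ((CCs P).subgroupOf (NNs P)).index) :
    e ∣ Nat.card (P : Subgroup G) - 1 := by
  classical
  letI := actX P
  have h1 : Nat.card {v : (P : Subgroup G) // v ≠ 1} = Nat.card (P : Subgroup G) - 1 := by
    rw [Nat.card_eq_fintype_card, Nat.card_eq_fintype_card, Fintype.card_subtype_compl]
    simp
  rw [← h1, he]
  refine index_dvd_of_stabilizer _ fun x => ?_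
  ext h
  rw [MulAction.mem_stabilizer_iff, Subgroup.mem_subgroupOf]
  have hx : ((x.1 : (P : Subgroup G)) : G) ≠ 1 := fun h0 => x.2 (Subtype.ext h0)
  rw [← hstar _ x.1.2 hx, mem_centralizer_singleton_iff]
  constructor
  · intro h2
    have h3 : cjP P h x.1 = x.1 := congrArg Subtype.val h2
    have h4 := congrArg Subtype.val h3
    simp only [cjP_coe] at h4
    calc (x.1 : G) * (h : G) = ((h : G) * (x.1 : G) * (h : G)⁻¹) * (h : G) := by rw [h4]
      _ = (h : G) * (x.1 : G) := by group
  · intro h2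
    apply Subtype.ext
    apply Subtype.ext
    show (h : G) * (x.1 : G) * (h : G)⁻¹ = (x.1 : G)
    rw [← h2]
    group

theorem card_NN_eq (e : ℕ) (he : e = ((CCs P).subgroupOf (NNs P)).index) :
    Nat.card (NNs P) = e * Nat.card (CCs P) := by
  have h1 := Subgroup.card_mul_index ((CCs P).subgroupOf (NNs P))
  have h2 : Nat.card ((CCs P).subgroupOf (NNs P)) = Nat.card (CCs P) :=
    Nat.card_congr (Subgroup.subgroupOfEquivOfLe (CCs_le_NNs P)).toEquiv
  rw [h2] at h1
  rw [← h1, he, mul_comm]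

end

end Cfsg.Agent.H21
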