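import Cfsg.Agent.Lib.H21.CCSylowD

/-!
# Sylow subgroups in which every nonidentity element has the centralizer of the whole group:
# arithmetic and support lemmas
-/

set_option autoImplicit false
set_option linter.unusedSectionVars false
set_option linter.style.haveILetI false
set_option linter.unusedSimpArgs false

namespace Cfsg.Agent.H21

open scoped ComplexConjugate
open Cfsg Module Cfsg.Agent.H22

universe u v

section arith

theorem cc_arith1 {e x q : ℕ} (he : 0 < e) (hd : e ∣ q - 1) (hx : x ^ 2 + 1 < q) (hex : e ≤ x) :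
    e ^ 2 + e + 1 ≤ q := by
  obtain ⟨t, ht⟩ := hd
  have hq : q = e * t + 1 := by omega
  subst hq
  have h1 : e ^ 2 < e * t := by nlinarith
  have h2 : e < t := by
    by_contra h
    push Not at h
    nlinarith
  nlinarith

theorem cc_arith2 {e x q A D : ℕ} (hAx : A ≤ x) (hx : x ^ 2 + 1 < q)
    (hex : e ≤ x) (hq : e ^ 2 + e + 1 ≤ q) (hA : A ≤ D)
    (hkey : (D : ℝ) * ((q : ℝ) - A) < e * q) : D ≤ e := by
  by_contra hD
  push Not at hD
  have hD' : (e : ℝ) + 1 ≤ D := by exact_mod_cast hD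
  have hx' : ((x : ℝ)) ^ 2 + 1 < q := by exact_mod_cast hx
  have hAx' : (A : ℝ) ≤ x := by exact_mod_cast hAx
  have hex' : (e : ℝ) ≤ x := by exact_mod_cast hex
  have hq' : (e : ℝ) ^ 2 + e + 1 ≤ q := by exact_mod_cast hq
  have hx0 : (0 : ℝ) ≤ x := by positivity
  have he0 : (0 : ℝ) ≤ e := by positivity
  have hA0 : (0 : ℝ) ≤ A := by positivity
  have hqA : (0 : ℝ) < (q : ℝ) - A := by nlinarith
  have h1 : ((e : ℝ) + 1) * ((q : ℝ) - A) < e * q :=
    lt_of_le_of_lt (mul_le_mul_of_nonneg_right hD' hqA.le) hkey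
  have h2 : (q : ℝ) < ((e : ℝ) + 1) * x := by nlinarith
  by_cases hc : e + 1 ≤ x
  · have hc' : (e : ℝ) + 1 ≤ x := by exact_mod_cast hc
    nlinarith
  · have hc2 : x = e := by omega
    rw [hc2] at h2
    nlinarith

theorem cc_arith3 {e q A D : ℕ} (hA2 : e + 2 ≤ A) (hA3 : A + e ≤ e ^ 2 + 1) (hq : e ^ 2 + e + 1 ≤ q)
    (hAq : A < q) (hAD : A ≤ D)
    (hkey : (D : ℝ) * ((q : ℝ) - A) < e * q) : False := by
  have he3 : 3 ≤ e := by
    by_contra h
    push Not at h
    interval_cases e <;> omega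
  have hA2' : (e : ℝ) + 2 ≤ A := by exact_mod_cast hA2
  have hA3' : (A : ℝ) + e ≤ e ^ 2 + 1 := by exact_mod_cast hA3
  have hq' : (e : ℝ) ^ 2 + e + 1 ≤ q := by exact_mod_cast hq
  have hAq' : (A : ℝ) < q := by exact_mod_cast hAq
  have hAD' : (A : ℝ) ≤ D := by exact_mod_cast hAD
  have he3' : (3 : ℝ) ≤ e := by exact_mod_cast he3
  have h1 : (A : ℝ) * ((q : ℝ) - A) < e * q :=
    lt_of_le_of_lt (mul_le_mul_of_nonneg_right hAD' (by linarith)) hkey
  -- k = A - e
  obtain ⟨k, hk⟩ : ∃ k : ℝ, (A : ℝ) = e + k := ⟨A - e, by ring⟩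
  rw [hk] at h1 hA2' hA3'
  have hk2 : (2 : ℝ) ≤ k := by linarith
  have hk3 : k ≤ (e - 1) ^ 2 := by nlinarith
  have h2 : k * ((e : ℝ) ^ 2 + e + 1) ≤ k * q := mul_le_mul_of_nonneg_left hq' (by linarith)
  have h3 : k * q < (e + k) ^ 2 := by nlinarith
  have h4 := mul_nonneg (sub_nonneg.mpr hk2) (sub_nonneg.mpr hk3)
  nlinarith

theorem cc_arith4 {e q D : ℕ} (he : 0 < e) (hd : e ∣ q - 1) (hq : e ^ 2 + e + 1 ≤ q)
    (hAD : e + 1 ≤ D)
    (hkey : (D : ℝ) * ((q : ℝ) - (e + 1 : ℕ)) < e * q) : q = e ^ 2 + e + 1 ∧ D = e + 1 := by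
  have he' : (1 : ℝ) ≤ e := by exact_mod_cast he
  have hq' : (e : ℝ) ^ 2 + e + 1 ≤ q := by exact_mod_cast hq
  have hAD' : (e : ℝ) + 1 ≤ D := by exact_mod_cast hAD
  push_cast at hkey
  have hqA : (0 : ℝ) < (q : ℝ) - (e + 1) := by nlinarith
  have h1 : ((e : ℝ) + 1) * ((q : ℝ) - (e + 1)) < e * q :=
    lt_of_le_of_lt (mul_le_mul_of_nonneg_right hAD' hqA.le) hkey
  have h2 : (q : ℝ) < (e + 1) ^ 2 := by nlinarith
  have h3 : q < (e + 1) ^ 2 := by exact_mod_cast h2
  obtain ⟨t, ht⟩ := hd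
  have hq2 : q = e * t + 1 := by omega
  have ht1 : e < t := by
    by_contra h
    push Not at h
    have : e * t ≤ e * e := Nat.mul_le_mul_left _ h
    nlinarith
  have ht2 : t < e + 2 := by
    by_contra h
    push Not at h
    have : e * (e + 2) ≤ e * t := Nat.mul_le_mul_left _ h
    nlinarith
  have ht3 : t = e + 1 := by omega
  have hqe : q = e ^ 2 + e + 1 := by rw [hq2, ht3]; ring
  refine ⟨hqe, ?_⟩
  have hqe' : (q : ℝ) = (e : ℝ) ^ 2 + e + 1 := by exact_mod_cast hqe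
  rw [hqe'] at hkey
  have h4 : (D : ℝ) * (e : ℝ) ^ 2 < e * ((e : ℝ) ^ 2 + e + 1) := by nlinarith
  have h5 : (D : ℝ) * e < (e : ℝ) ^ 2 + e + 1 := by
    have : (e : ℝ) * ((D : ℝ) * e) < e * ((e : ℝ) ^ 2 + e + 1) := by nlinarith
    exact lt_of_mul_lt_mul_left this (by linarith)
  have h6 : D * e < e ^ 2 + e + 1 := by exact_mod_cast h5
  by_contra hne
  have h7 : e + 2 ≤ D := by omega
  have : (e + 2) * e ≤ D * e := Nat.mul_le_mul_right _ h7
  nlinarith

end arith

section Lin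

variable {A : Type*} [Group A] [Finite A]

theorem isLinFn_mul' {l m : A → ℂ} (hl : IsLinFn l) (hm : IsLinFn m) :
    IsLinFn (fun u => l u * m u) := by
  refine ⟨?_, ?_, ?_⟩
  · simp [hl.1, hm.1]
  · intro u v
    simp only [hl.2.1, hm.2.1]
    ring
  · intro u
    simp [hl.2.2, hm.2.2]

end Lin

variable {G : Type u} [Group G] [Finite G]
variable {p : ℕ} [hp : Fact p.Prime]

section

variable (P : Sylow p G)
  (hstar : ∀ x ∈ (P : Subgroup G), x ≠ 1 → Subgroup.centralizer ({x} : Set G) = CCs P)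
  (hne : (P : Subgroup G) ≠ ⊥) (hPC : (P : Subgroup G) ≤ CCs P)

/-- Expansion of `ψ` on `P`. -/
theorem val_P_expand (ψ : IrrCharacter G) (u : (P : Subgroup G)) :
    ψ.1 u = ∑ l ∈ TT P hPC ψ, (wN P hPC ψ l : ℂ) * l u := by
  classical
  set S := Finset.univ.filter (fun γ : IrrCharacter (CCs P) => mC P ψ γ ≠ 0) with hS
  have hTdef : TT P hPC ψ = S.image (lamC P hPC) := rfl
  have h1 : ψ.1 u = ∑ γ ∈ S, (mC P ψ γ : ℂ) * (charDegree γ.1 : ℂ) * lamC P hPC γ u := by
    have h2 := restr_expand P ψ (inCC P hPC u)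
    have h3 : ((inCC P hPC u : CCs P) : G) = u := rfl
    rw [h3] at h2
    rw [h2, hS, Finset.sum_filter]
    refine Finset.sum_congr rfl fun γ _ => ?_
    by_cases h : mC P ψ γ = 0
    · simp [h]
    · rw [if_pos h, lamC_val, one_eq_charDegree (isCharacter_of_irr γ.2)]
      ring
  rw [h1, ← Finset.sum_fiberwise_of_maps_to (g := lamC P hPC) (t := TT P hPC ψ)
    (fun γ hγ => by rw [hTdef]; exact Finset.mem_image_of_mem _ hγ)]
  refine Finset.sum_congr rfl fun l _ => ?_
  have h2 : (wN P hPC ψ l : ℂ) = ∑ γ ∈ S.filter (fun γ => lamC P hPC γ = l),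
      (mC P ψ γ : ℂ) * (charDegree γ.1 : ℂ) := by
    unfold wN
    push_cast
    symm
    apply Finset.sum_subset
    · intro γ hγ
      simp only [Finset.mem_filter, Finset.mem_univ, true_and] at hγ ⊢
      exact hγ.2
    · intro γ hγ hγ2
      simp only [Finset.mem_filter, Finset.mem_univ, true_and, hS] at hγ hγ2
      have h3 : mC P ψ γ = 0 := by
        by_contra h
        exact hγ2 ⟨h, hγ⟩
      simp [h3]
  rw [h2, Finset.sum_mul]
  refine Finset.sum_congr rfl fun γ hγ => ?_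
  rw [(Finset.mem_filter.mp hγ).2]

/-- The set of products. -/
noncomputable def prodSet (T : Finset (↥(P : Subgroup G) → ℂ)) : Finset (↥(P : Subgroup G) → ℂ) := by
  classical
  exact (T ×ˢ T).image (fun x => fun u => x.1 u * conj (x.2 u))

theorem card_prodSet_le (T : Finset (↥(P : Subgroup G) → ℂ)) (hT : ∀ l ∈ T, IsLinFn l) :
    (prodSet P T).card + T.card ≤ T.card ^ 2 + 1 := by
  classical
  have h1 : prodSet P T ⊆ insert (fun _ => 1) (T.offDiag.image
      (fun x => fun u => x.1 u * conj (x.2 u))) := by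
    intro a ha
    unfold prodSet at ha
    obtain ⟨x, hx, rfl⟩ := Finset.mem_image.mp ha
    by_cases hxx : x.1 = x.2
    · have : (fun u => x.1 u * conj (x.2 u)) = fun _ => 1 := by
        funext u
        rw [← hxx]
        exact lin_mul_conj_self (hT x.1 (Finset.mem_product.mp hx).1) u
      rw [this]
      exact Finset.mem_insert_self _ _
    · apply Finset.mem_insert_of_mem
      exact Finset.mem_image_of_mem _ (by
        rw [Finset.mem_offDiag]
        exact ⟨(Finset.mem_product.mp hx).1, (Finset.mem_product.mp hx).2, hxx⟩)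
  have h2 := Finset.card_le_card h1
  have h3 := Finset.card_insert_le (fun _ => (1 : ℂ)) (T.offDiag.image
      (fun x : (↥(P : Subgroup G) → ℂ) × (↥(P : Subgroup G) → ℂ) => fun u => x.1 u * conj (x.2 u)))
  have h4 : (T.offDiag.image
      (fun x : (↥(P : Subgroup G) → ℂ) × (↥(P : Subgroup G) → ℂ) => fun u => x.1 u * conj (x.2 u))).card
      ≤ T.offDiag.card := Finset.card_image_le
  rw [Finset.offDiag_card] at h4
  have h5 : T.card ≤ T.card * T.card := Nat.le_mul_self _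
  have h6 : T.card ^ 2 = T.card * T.card := by ring
  omega


theorem one_mem_TT (ψ : IrrCharacter G) (h : mC P ψ (oneIrr (CCs P)) ≠ 0) :
    (fun _ => 1) ∈ TT P hPC ψ := by
  classical
  unfold TT
  refine Finset.mem_image.mpr ⟨oneIrr (CCs P), by simpa using h, ?_⟩
  funext u
  simp [lamC, oneIrr]

theorem sum_CC_char (ξ : IrrCharacter G) :
    ∑ c : CCs P, ξ.1 c = (Nat.card (CCs P) : ℂ) * (mC P ξ (oneIrr (CCs P)) : ℂ) := by
  have h3 := mC_spec P ξ (oneIrr (CCs P))
  have hC : (Nat.card (CCs P) : ℂ) ≠ 0 := by exact_mod_cast Nat.card_pos.ne'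
  have h4 : classInner (fun c : CCs P => ξ.1 c) (oneIrr (CCs P)).1
      = (Nat.card (CCs P) : ℂ)⁻¹ * ∑ c : CCs P, ξ.1 c := by
    unfold classInner
    simp [oneIrr]
  rw [← h3, h4]
  field_simp

theorem mC_one_one : mC P (oneIrr G) (oneIrr (CCs P)) = 1 := by
  have h3 := mC_spec P (oneIrr G) (oneIrr (CCs P))
  have h4 := classInner_irr (oneIrr (CCs P)) (oneIrr (CCs P))
  rw [if_pos rfl] at h4
  have h5 : classInner (fun c : CCs P => (oneIrr G).1 c) (oneIrr (CCs P)).1
      = classInner (oneIrr (CCs P)).1 (oneIrr (CCs P)).1 := rfl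
  rw [h5, h4] at h3
  exact_mod_cast h3.symm

theorem exists_nontrivial_TT (hK : ∀ K : Subgroup G, K.Normal → (P : Subgroup G) ≤ K → K = ⊤)
    (ψ : IrrCharacter G) (hψ : ψ.1 ≠ fun _ => 1) : ∃ ν ∈ TT P hPC ψ, ν ≠ fun _ => 1 := by
  by_contra h
  push Not at h
  have hu : ∀ u : (P : Subgroup G), ψ.1 u = ψ.1 1 := by
    intro u
    have h1 := val_P_expand P hPC ψ u
    have h2 := val_P_expand P hPC ψ 1
    have h3 : ((1 : (P : Subgroup G)) : G) = 1 := rfl
    rw [h3] at h2
    rw [h1, h2]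
    refine Finset.sum_congr rfl fun l hl => ?_
    rw [h l hl]
  have hch := isCharacter_of_irr ψ.2
  have hle : (P : Subgroup G) ≤ charKer ψ.1 hch := fun u hu' => hu ⟨u, hu'⟩
  have htop := hK _ (charKer_normal ψ.1 hch) hle
  have hall : ∀ g, ψ.1 g = ψ.1 1 := by
    intro g
    have : g ∈ charKer ψ.1 hch := by rw [htop]; trivial
    exact this
  have hsum := sum_norm_sq ψ
  simp only [hall] at hsum
  rw [Finset.sum_const, Finset.card_univ, nsmul_eq_mul, ← Nat.card_eq_fintype_card] at hsum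
  have hG : (Nat.card G : ℝ) ≠ 0 := by exact_mod_cast Nat.card_pos.ne'
  have h1 : ‖ψ.1 1‖ ^ 2 = 1 := by
    apply mul_left_cancel₀ hG
    rw [hsum, mul_one]
  rw [one_eq_charDegree hch, Complex.norm_natCast] at h1
  have h2 : (charDegree ψ.1 : ℝ) = 1 := by
    have h0 : (0 : ℝ) ≤ charDegree ψ.1 := by positivity
    nlinarith
  apply hψ
  funext g
  rw [hall g, one_eq_charDegree hch]
  have h3 : charDegree ψ.1 = 1 := by exact_mod_cast h2
  rw [h3]
  simp

/-- The constituents of `χ * conj χ` have their linear characters in the difference set. -/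
theorem TT_subset_prodSet (χ : IrrCharacter G) (a : IrrCharacter G → ℕ)
    (hz : ∀ g, χ.1 g * conj (χ.1 g) = ∑ ξ : IrrCharacter G, (a ξ : ℂ) * ξ.1 g)
    (ψ : IrrCharacter G) (ha : a ψ ≠ 0) : TT P hPC ψ ⊆ prodSet P (TT P hPC χ) := by
  classical
  intro ν hν
  by_contra hnot
  have hlin := isLinFn_of_mem_TT P hPC hν
  set T := TT P hPC χ with hT
  set w := wN P hPC χ with hw
  have h1 : ∑ u : (P : Subgroup G), χ.1 u * conj (χ.1 u) * conj (ν u) = 0 := by
    have h2 : ∀ u : (P : Subgroup G), χ.1 u * conj (χ.1 u) * conj (ν u)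
        = ∑ l ∈ T, ∑ m ∈ T, (w l : ℂ) * (w m : ℂ) * (l u * conj ((fun v => m v * ν v) u)) := by
      intro u
      have h3 := val_P_expand P hPC χ u
      rw [h3, map_sum, Finset.sum_mul_sum, Finset.sum_mul]
      refine Finset.sum_congr rfl fun l _ => ?_
      rw [Finset.sum_mul]
      refine Finset.sum_congr rfl fun m _ => ?_
      simp only [map_mul, Complex.conj_natCast]
      ring
    simp only [h2]
    rw [Finset.sum_comm]
    refine Finset.sum_eq_zero fun l hl => ?_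
    rw [Finset.sum_comm]
    refine Finset.sum_eq_zero fun m hm => ?_
    rw [← Finset.mul_sum, sum_lin_orth (isLinFn_of_mem_TT P hPC hl)
      (isLinFn_mul' (isLinFn_of_mem_TT P hPC hm) hlin), mul_zero]
    intro hlm
    apply hnot
    unfold prodSet
    refine Finset.mem_image.mpr ⟨(l, m), Finset.mem_product.mpr ⟨hl, hm⟩, ?_⟩
    funext u
    show l u * conj (m u) = ν u
    rw [hlm]
    have := lin_mul_conj_self (isLinFn_of_mem_TT P hPC hm) u
    calc m u * ν u * conj (m u) = (m u * conj (m u)) * ν u := by ring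
      _ = ν u := by rw [this, one_mul]
  have h2 : ∑ u : (P : Subgroup G), χ.1 u * conj (χ.1 u) * conj (ν u)
      = (Nat.card (P : Subgroup G) : ℂ) * ((∑ ξ : IrrCharacter G, a ξ * wN P hPC ξ ν : ℕ) : ℂ) := by
    simp only [hz, Finset.sum_mul]
    rw [Finset.sum_comm]
    push_cast
    rw [Finset.mul_sum]
    refine Finset.sum_congr rfl fun ξ _ => ?_
    have h3 := sum_conj_lin P hPC ξ hlin
    have h4 : ∑ u : (P : Subgroup G), (a ξ : ℂ) * ξ.1 u * conj (ν u)
        = (a ξ : ℂ) * ∑ u : (P : Subgroup G), ξ.1 u * conj (ν u) := by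
      rw [Finset.mul_sum]
      exact Finset.sum_congr rfl fun _ _ => by ring
    rw [h4, h3]
    ring
  rw [h1] at h2
  have hq : (Nat.card (P : Subgroup G) : ℂ) ≠ 0 := by exact_mod_cast Nat.card_pos.ne'
  have h3 : ((∑ ξ : IrrCharacter G, a ξ * wN P hPC ξ ν : ℕ) : ℂ) = 0 := by
    rcases mul_eq_zero.mp h2.symm with h4 | h4
    · exact absurd h4 hq
    · exact h4
  have h4 : ∑ ξ : IrrCharacter G, a ξ * wN P hPC ξ ν = 0 := by exact_mod_cast h3
  rw [Finset.sum_eq_zero_iff] at h4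
  have h5 := h4 ψ (Finset.mem_univ _)
  rcases Nat.mul_eq_zero.mp h5 with h6 | h6
  · exact ha h6
  · exact (wN_ne_zero_iff P hPC ψ ν).mpr hν h6

end

end Cfsg.Agent.H21
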