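import Cfsg.Agent.Lib.H21.CCSylowE
import Cfsg.Agent.Lib.H21.RealBlock

/-!
# Sylow subgroups in which every nonidentity element has the centralizer of the whole group:
# the degree bound
-/

set_option autoImplicit false
set_option linter.unusedSectionVars false
set_option linter.style.haveILetI false
set_option linter.unusedSimpArgs false

namespace Cfsg.Agent.H21

open scoped ComplexConjugate
open Cfsg Module Cfsg.Agent.H22

universe u v

theorem norm_sq_real_mul_add_one (r : ℝ) (z : ℂ) :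
    ‖(r : ℂ) * z + 1‖ ^ 2 = r ^ 2 * ‖z‖ ^ 2 + 2 * r * z.re + 1 := by
  rw [Complex.sq_norm, Complex.sq_norm, Complex.normSq_apply, Complex.normSq_apply]
  simp
  ring

variable {G : Type u} [Group G] [Finite G]
variable {p : ℕ} [hp : Fact p.Prime]

section

variable (P : Sylow p G)
  (hstar : ∀ x ∈ (P : Subgroup G), x ≠ 1 → Subgroup.centralizer ({x} : Set G) = CCs P)
  (hne : (P : Subgroup G) ≠ ⊥) (hPC : (P : Subgroup G) ≤ CCs P)

include hstar hne in
/-- The final step: the function `e ψ + 1` violates the main inequality. -/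
theorem final_contra (ψ : IrrCharacter G) (hψ : ψ ≠ oneIrr G) (e : ℕ)
    (he : Nat.card (NNs P) = e * Nat.card (CCs P))
    (hA : (TT P hPC ψ).card = e + 1) (hD : DD P ψ = e + 1)
    (hn : mC P ψ (oneIrr (CCs P)) ≠ 0)
    (hq : Nat.card (P : Subgroup G) = e ^ 2 + e + 1) : False := by
  classical
  have he0 : 0 < e := by
    rcases Nat.eq_zero_or_pos e with h | h
    · rw [h, zero_mul] at he
      exact absurd he Nat.card_pos.ne'
    · exact h
  set ee : ℝ := (e : ℝ) with hee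
  have hee1 : (1 : ℝ) ≤ ee := by rw [hee]; exact_mod_cast he0
  let f : G → ℂ := fun g => ((ee : ℝ) : ℂ) * ψ.1 g + 1
  have hψc := isCharacter_of_irr ψ.2
  have hf : IsClassFunction G f := by
    intro g k
    show ((ee : ℝ) : ℂ) * ψ.1 (k * g * k⁻¹) + 1 = ((ee : ℝ) : ℂ) * ψ.1 g + 1
    rw [isClassFunction_of_isCharacter hψc g k]
  have hf1 : f 1 ≠ 0 := by
    show ((ee : ℝ) : ℂ) * ψ.1 1 + 1 ≠ 0
    rw [one_eq_charDegree hψc, hee]
    have : (((e : ℝ) : ℂ) * (charDegree ψ.1 : ℂ) + 1) = ((e * charDegree ψ.1 + 1 : ℕ) : ℂ) := by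
      push_cast
      rfl
    rw [this]
    exact Nat.cast_ne_zero.mpr (Nat.succ_ne_zero _)
  have hstar2 := star_ineq P hstar hf hf1
  have hnorm : ∀ g, ‖f g‖ ^ 2 = ee ^ 2 * ‖ψ.1 g‖ ^ 2 + 2 * ee * (ψ.1 g).re + 1 :=
    fun g => norm_sq_real_mul_add_one ee (ψ.1 g)
  -- the sum over `G`
  have hG : ∑ g : G, ‖f g‖ ^ 2 = (Nat.card G : ℝ) * (ee ^ 2 + 1) := by
    simp only [hnorm, Finset.sum_add_distrib, ← Finset.mul_sum, sum_norm_sq ψ, Finset.sum_const,
      Finset.card_univ, nsmul_eq_mul, mul_one]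
    have h0 : ∑ g : G, (ψ.1 g).re = 0 := by
      have h1 := classInner_irr ψ (oneIrr G)
      rw [if_neg hψ] at h1
      have h2 : classInner ψ.1 (oneIrr G).1 = (Nat.card G : ℂ)⁻¹ * ∑ g : G, ψ.1 g := by
        unfold classInner
        simp [oneIrr]
      rw [h2] at h1
      have hG' : (Nat.card G : ℂ) ≠ 0 := by exact_mod_cast Nat.card_pos.ne'
      have h3 : ∑ g : G, ψ.1 g = 0 := by
        rcases mul_eq_zero.mp h1 with h4 | h4
        · exact absurd h4 (inv_ne_zero hG')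
        · exact h4
      have h5 := congrArg Complex.re h3
      simpa using h5
    rw [h0, ← Nat.card_eq_fintype_card]
    ring
  -- the sum over the centralizer
  set n1 : ℝ := (mC P ψ (oneIrr (CCs P)) : ℝ) with hn1
  have hn11 : (1 : ℝ) ≤ n1 := by
    rw [hn1]
    exact_mod_cast Nat.one_le_iff_ne_zero.mpr hn
  have hC : ∑ c : CCs P, ‖f c‖ ^ 2
      = (Nat.card (CCs P) : ℝ) * (ee ^ 2 * (ee + 1) + 2 * ee * n1 + 1) := by
    simp only [hnorm, Finset.sum_add_distrib, ← Finset.mul_sum, sum_norm_CC', Finset.sum_const,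
      Finset.card_univ, nsmul_eq_mul, mul_one]
    have h0 : ∑ c : CCs P, (ψ.1 c).re = (Nat.card (CCs P) : ℝ) * n1 := by
      have h1 := congrArg Complex.re (sum_CC_char P ψ)
      rw [Complex.re_sum] at h1
      rw [h1, hn1, ← Complex.ofReal_natCast, ← Complex.ofReal_natCast, ← Complex.ofReal_mul,
        Complex.ofReal_re]
    rw [h0, ← Nat.card_eq_fintype_card, hD]
    push_cast
    ring
  -- the sum over the regular elements
  have hcard := card_CCs_eq P hstar hne
  set r : ℝ := ((Crs P).card : ℝ) with hr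
  set cc : ℝ := (Nat.card (CCs P) : ℝ) with hcc
  set qq : ℝ := (Nat.card (P : Subgroup G) : ℝ) with hqq
  have hcc_eq : cc = r * qq := by
    rw [hcc, hr, hqq]
    exact_mod_cast hcard
  have hqq_eq : qq = ee ^ 2 + ee + 1 := by
    rw [hqq, hq, hee]
    push_cast
    ring
  have hqq_pos : 0 < qq := by nlinarith
  have hcc_pos : 0 < cc := by rw [hcc]; exact_mod_cast Nat.card_pos
  have hr_pos : 0 < r := by
    by_contra h
    have hr0 : r ≤ 0 := not_lt.mp h
    nlinarith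
  set S : ℝ := ∑ l ∈ Crs P, ‖ψ.1 l‖ ^ 2 with hS
  have hSb : S ≤ (ee + 1) ^ 2 * r := by
    have h1 := crs_bound P hstar hne hPC ψ
    rw [hA, hD] at h1
    have h2 : qq * S ≤ qq * ((ee + 1) ^ 2 * r) := by
      have : ((e + 1 : ℕ) : ℝ) = ee + 1 := by push_cast; rfl
      rw [this] at h1
      calc qq * S ≤ (ee + 1) * (cc * (ee + 1)) := h1
        _ = qq * ((ee + 1) ^ 2 * r) := by rw [hcc_eq]; ring
    exact le_of_mul_le_mul_left h2 hqq_pos
  have hCrs : ∑ l ∈ Crs P, ‖f l‖ ^ 2 ≤ r * qq ^ 2 := by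
    have hc : (0 : ℝ) < ee + 1 := by linarith
    have hpt : ∀ l ∈ Crs P, ‖f l‖ ^ 2 ≤ (ee ^ 2 + ee / (ee + 1)) * ‖ψ.1 l‖ ^ 2 + (ee * (ee + 1) + 1) := by
      intro l _
      set s := ‖ψ.1 l‖ with hs
      have hs0 : 0 ≤ s := norm_nonneg _
      have h1 : ‖f l‖ ≤ ee * s + 1 := by
        show ‖((ee : ℝ) : ℂ) * ψ.1 l + 1‖ ≤ _
        calc ‖((ee : ℝ) : ℂ) * ψ.1 l + 1‖ ≤ ‖((ee : ℝ) : ℂ) * ψ.1 l‖ + ‖(1 : ℂ)‖ := norm_add_le _ _
          _ = ee * s + 1 := by
            rw [norm_mul, Complex.norm_real, norm_one, Real.norm_of_nonneg (by linarith)]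
      have h2 : ‖f l‖ ^ 2 ≤ (ee * s + 1) ^ 2 := by
        gcongr
      have h3 : 2 * s ≤ s ^ 2 / (ee + 1) + (ee + 1) := by
        have h4 : 0 ≤ (s - (ee + 1)) ^ 2 / (ee + 1) := by positivity
        have h5 : (s - (ee + 1)) ^ 2 / (ee + 1) = s ^ 2 / (ee + 1) + (ee + 1) - 2 * s := by
          field_simp
          ring
        linarith
      have h6 : (ee ^ 2 + ee / (ee + 1)) * s ^ 2 + (ee * (ee + 1) + 1)
          = ee ^ 2 * s ^ 2 + ee * (s ^ 2 / (ee + 1) + (ee + 1)) + 1 := by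
        field_simp
        ring
      rw [h6]
      nlinarith
    have h1 := Finset.sum_le_sum hpt
    rw [Finset.sum_add_distrib, ← Finset.mul_sum, Finset.sum_const, nsmul_eq_mul] at h1
    have h2 : (ee ^ 2 + ee / (ee + 1)) * S ≤ (ee ^ 2 + ee / (ee + 1)) * ((ee + 1) ^ 2 * r) :=
      mul_le_mul_of_nonneg_left hSb (by positivity)
    have h3 : (ee ^ 2 + ee / (ee + 1)) * ((ee + 1) ^ 2 * r) = r * (ee ^ 2 * (ee + 1) ^ 2 + ee * (ee + 1)) := by
      field_simp
    have h4 : r * qq ^ 2 = r * (ee ^ 2 * (ee + 1) ^ 2 + ee * (ee + 1)) + r * (ee * (ee + 1) + 1) := by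
      rw [hqq_eq]
      ring
    calc ∑ l ∈ Crs P, ‖f l‖ ^ 2 ≤ _ := h1
      _ ≤ r * qq ^ 2 := by
        rw [h4]
        have h5 : (ee ^ 2 + ee / (ee + 1)) * ∑ l ∈ Crs P, ‖ψ.1 l‖ ^ 2 = (ee ^ 2 + ee / (ee + 1)) * S := rfl
        rw [h5]
        have h6 : r = ((Crs P).card : ℝ) := rfl
        rw [← h6]
        linarith
  rw [hC, hG, he] at hstar2
  push_cast at hstar2
  have hgg : (0 : ℝ) < Nat.card G := by exact_mod_cast Nat.card_pos
  set gg : ℝ := (Nat.card G : ℝ)
  have h1 : cc * (ee ^ 2 * (ee + 1) + 2 * ee * n1 + 1) - ∑ l ∈ Crs P, ‖f l‖ ^ 2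
      < ee * cc * (ee ^ 2 + 1) := by
    have : gg * (cc * (ee ^ 2 * (ee + 1) + 2 * ee * n1 + 1) - ∑ l ∈ Crs P, ‖f l‖ ^ 2)
        < gg * (ee * cc * (ee ^ 2 + 1)) := by
      calc _ < ee * cc * (gg * (ee ^ 2 + 1)) := hstar2
        _ = _ := by ring
    exact lt_of_mul_lt_mul_left this hgg.le
  have h2 : r * qq ^ 2 = cc * qq := by rw [hcc_eq]; ring
  rw [h2] at hCrs
  have h3 : cc * (ee ^ 2 * (ee + 1) + 2 * ee * n1 + 1 - qq) < cc * (ee * (ee ^ 2 + 1)) := by
    nlinarith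
  have h4 := lt_of_mul_lt_mul_left h3 hcc_pos.le
  rw [hqq_eq] at h4
  nlinarith

include hstar hne hPC in
/-- The case of a nontrivial fusion cannot occur. -/
theorem DD_eq_index (hK : ∀ K : Subgroup G, K.Normal → (P : Subgroup G) ≤ K → K = ⊤)
    (χ : IrrCharacter G) (hχ : χ.1 ≠ fun _ => 1)
    (hdeg : charDegree χ.1 ^ 2 + 1 < Nat.card (P : Subgroup G))
    (e : ℕ) (he : e = ((CCs P).subgroupOf (NNs P)).index) :
    DD P χ = e ∧ (TT P hPC χ).card = e ∧ e ^ 2 + e + 1 ≤ Nat.card (P : Subgroup G) := by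
  classical
  have hcard := card_NN_eq P e he
  have hdvd := e_dvd P hstar e he
  have he0 : 0 < e := by
    rw [he]
    exact Nat.pos_of_ne_zero Subgroup.index_ne_zero_of_finite
  obtain ⟨ν, hν, hν1⟩ := exists_nontrivial_TT P hPC hK χ hχ
  have h1 := orbit_bound P hstar hPC χ hν hν1 e hcard
  have h2 : ((TT P hPC χ).erase (fun _ => 1)).card ≤ (TT P hPC χ).card :=
    Finset.card_le_card (Finset.erase_subset _ _)
  have h3 := card_TT_le_degree P hPC χ
  have h4 := card_TT_le_DD P hPC χ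
  have h5 := cc_arith1 he0 hdvd hdeg (by omega)
  have h6 := key_ineq P hstar hne hPC χ e hcard
  have h7 := cc_arith2 h3 hdeg (by omega) h5 h4 h6
  refine ⟨by omega, by omega, h5⟩

include hstar hne hPC in
theorem index_lt_two (hK : ∀ K : Subgroup G, K.Normal → (P : Subgroup G) ≤ K → K = ⊤)
    (χ : IrrCharacter G) (hχ : χ.1 ≠ fun _ => 1)
    (hdeg : charDegree χ.1 ^ 2 + 1 < Nat.card (P : Subgroup G))
    (e : ℕ) (he : e = ((CCs P).subgroupOf (NNs P)).index) : e < 2 := by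
  classical
  by_contra he2
  push Not at he2
  obtain ⟨hD, hA, hq⟩ := DD_eq_index P hstar hne hPC hK χ hχ hdeg e he
  have hcard := card_NN_eq P e he
  have hdvd := e_dvd P hstar e he
  have he0 : 0 < e := by omega
  -- the decomposition of `χ * conj χ`
  have hζ := isCharacter_mul (isCharacter_of_irr χ.2) (isCharacter_star (isCharacter_of_irr χ.2))
  obtain ⟨a, ha, hinner⟩ := isCharacter_decomp hζ
  have hz : ∀ g, χ.1 g * conj (χ.1 g) = ∑ ξ : IrrCharacter G, (a ξ : ℂ) * ξ.1 g := by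
    intro g
    have h1 := congrFun ha g
    simp only [Pi.mul_apply, Finset.sum_apply, Pi.smul_apply, nsmul_eq_mul] at h1
    exact h1
  have ha1 : a (oneIrr G) = 1 := by
    have h1 := hinner (oneIrr G)
    have h2 : classInner ((χ.1) * (fun g => conj (χ.1 g))) (oneIrr G).1 = classInner χ.1 χ.1 := by
      unfold classInner
      simp [oneIrr]
    rw [h2, classInner_irr, if_pos rfl] at h1
    exact_mod_cast h1.symm
  have hsum : ∑ ξ : IrrCharacter G, a ξ * mC P ξ (oneIrr (CCs P)) = DD P χ := by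
    have hC : (Nat.card (CCs P) : ℂ) ≠ 0 := by exact_mod_cast Nat.card_pos.ne'
    have h1 : ((∑ c : CCs P, ‖χ.1 c‖ ^ 2 : ℝ) : ℂ) = (((Nat.card (CCs P) : ℝ) * (DD P χ : ℝ) : ℝ) : ℂ) := by
      rw [sum_norm_CC']
    push_cast at h1
    have h2 : ∀ c : CCs P, ((‖χ.1 c‖ : ℝ) : ℂ) ^ 2 = ∑ ξ : IrrCharacter G, (a ξ : ℂ) * ξ.1 c := by
      intro c
      rw [← Complex.ofReal_pow, ← Complex.normSq_eq_norm_sq, ← Complex.mul_conj]
      exact hz c
    simp only [h2] at h1
    rw [Finset.sum_comm] at h1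
    have h3 : ∀ ξ : IrrCharacter G, ∑ c : CCs P, (a ξ : ℂ) * ξ.1 c
        = (Nat.card (CCs P) : ℂ) * ((a ξ : ℂ) * (mC P ξ (oneIrr (CCs P)) : ℂ)) := by
      intro ξ
      rw [← Finset.mul_sum, sum_CC_char]
      ring
    simp only [h3] at h1
    rw [← Finset.mul_sum] at h1
    have h4 := mul_left_cancel₀ hC h1
    exact_mod_cast h4
  obtain ⟨ψ, hψ1, haψ, hnψ⟩ : ∃ ψ : IrrCharacter G, ψ ≠ oneIrr G ∧ a ψ ≠ 0 ∧
      mC P ψ (oneIrr (CCs P)) ≠ 0 := by
    by_contra hno
    push Not at hno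
    have h1 : ∑ ξ : IrrCharacter G, a ξ * mC P ξ (oneIrr (CCs P))
        = a (oneIrr G) * mC P (oneIrr G) (oneIrr (CCs P)) := by
      apply Finset.sum_eq_single
      · intro ξ _ hξ
        by_cases h0 : a ξ = 0
        · rw [h0, zero_mul]
        · rw [hno ξ hξ h0, mul_zero]
      · intro h
        exact absurd (Finset.mem_univ _) h
    rw [h1, ha1, mC_one_one, hD] at hsum
    omega
  have hψ1' : ψ.1 ≠ fun _ => 1 := by
    intro h
    apply hψ1
    apply Subtype.ext
    exact h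
  obtain ⟨ν, hν, hν1⟩ := exists_nontrivial_TT P hPC hK ψ hψ1'
  have h1 := orbit_bound P hstar hPC ψ hν hν1 e hcard
  have hone := one_mem_TT P hPC ψ hnψ
  have h2 : (TT P hPC ψ).card = ((TT P hPC ψ).erase (fun _ => 1)).card + 1 :=
    (Finset.card_erase_add_one hone).symm
  have h3 := TT_subset_prodSet P hPC χ a hz ψ haψ
  have h4 := card_prodSet_le P (TT P hPC χ) (fun l hl => isLinFn_of_mem_TT P hPC hl)
  have h5 := Finset.card_le_card h3
  rw [hA] at h4
  have hq' : (TT P hPC ψ).card < Nat.card (P : Subgroup G) := by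
    have : (e : ℕ) ^ 2 + 1 < e ^ 2 + e + 1 + e := by omega
    omega
  have hkey := key_ineq P hstar hne hPC ψ e hcard
  have hAD := card_TT_le_DD P hPC ψ
  by_cases hA2 : e + 2 ≤ (TT P hPC ψ).card
  · exact (cc_arith3 hA2 (by omega) hq hq' hAD hkey).elim
  · have hA3 : (TT P hPC ψ).card = e + 1 := by omega
    rw [hA3] at hkey hAD
    obtain ⟨hq2, hD2⟩ := cc_arith4 he0 hdvd hq hAD hkey
    exact final_contra P hstar hne hPC ψ hψ1 e hcard hA3 hD2 hnψ hq2

include hstar hne hPC in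
/-- The main result, in the absence of proper normal subgroups containing `P`. -/
theorem cc_main (hK : ∀ K : Subgroup G, K.Normal → (P : Subgroup G) ≤ K → K = ⊤)
    (χ : IrrCharacter G) (hχ : χ.1 ≠ fun _ => 1)
    (hdeg : charDegree χ.1 ^ 2 + 1 < Nat.card (P : Subgroup G)) :
    (∃ N : Subgroup G, N.Normal ∧ N.index = Nat.card (P : Subgroup G)) ∧ charDegree χ.1 = 1 := by
  classical
  set e := ((CCs P).subgroupOf (NNs P)).index with he
  have he2 := index_lt_two P hstar hne hPC hK χ hχ hdeg e he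
  have he0 : 0 < e := by
    rw [he]
    exact Nat.pos_of_ne_zero Subgroup.index_ne_zero_of_finite
  have he1 : e = 1 := by omega
  obtain ⟨hD, hA, -⟩ := DD_eq_index P hstar hne hPC hK χ hχ hdeg e he
  constructor
  · have hle : NNs P ≤ CCs P := by
      rw [he] at he1
      exact Subgroup.subgroupOf_eq_top.mp (Subgroup.index_eq_one.mp he1)
    have hcomp := MonoidHom.ker_transferSylow_isComplement' P hle
    exact ⟨_, MonoidHom.normal_ker _, hcomp.symm.index_eq_card⟩
  · rw [he1] at hA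
    obtain ⟨ν, hν⟩ := Finset.card_eq_one.mp hA
    have hχc := isCharacter_of_irr χ.2
    have hlin : IsLinFn ν := isLinFn_of_mem_TT P hPC (by rw [hν]; exact Finset.mem_singleton_self _)
    have hval : ∀ u : (P : Subgroup G), χ.1 u = (wN P hPC χ ν : ℂ) * ν u := by
      intro u
      rw [val_P_expand P hPC χ u, hν, Finset.sum_singleton]
    have hval1 : χ.1 1 = (wN P hPC χ ν : ℂ) := by
      have := hval 1
      rw [hlin.1, mul_one] at this
      exact this
    have hζ := isCharacter_mul hχc (isCharacter_star hχc)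
    have hle : (P : Subgroup G) ≤ charKer _ hζ := by
      intro u hu
      rw [mem_charKer]
      have h1 := hval ⟨u, hu⟩
      have h2 := lin_mul_conj_self hlin ⟨u, hu⟩
      simp only [Pi.mul_apply]
      rw [hval1]
      have h3 : χ.1 u = (wN P hPC χ ν : ℂ) * ν ⟨u, hu⟩ := h1
      rw [h3, map_mul, Complex.conj_natCast]
      calc (wN P hPC χ ν : ℂ) * ν ⟨u, hu⟩ * ((wN P hPC χ ν : ℂ) * conj (ν ⟨u, hu⟩))
          = (wN P hPC χ ν : ℂ) * (wN P hPC χ ν : ℂ) * (ν ⟨u, hu⟩ * conj (ν ⟨u, hu⟩)) := by ring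
        _ = _ := by rw [h2, mul_one]
    have htop := hK _ (charKer_normal _ hζ) hle
    have hall : ∀ g, ‖χ.1 g‖ ^ 2 = (charDegree χ.1 : ℝ) ^ 2 := by
      intro g
      have hg : g ∈ charKer _ hζ := by rw [htop]; trivial
      rw [mem_charKer] at hg
      simp only [Pi.mul_apply] at hg
      rw [Complex.mul_conj, Complex.mul_conj, Complex.normSq_eq_norm_sq, Complex.normSq_eq_norm_sq,
        one_eq_charDegree hχc, Complex.norm_natCast] at hg
      exact_mod_cast hg
    have hsum := sum_norm_sq χ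
    simp only [hall] at hsum
    rw [Finset.sum_const, Finset.card_univ, nsmul_eq_mul, ← Nat.card_eq_fintype_card] at hsum
    have hG : (Nat.card G : ℝ) ≠ 0 := by exact_mod_cast Nat.card_pos.ne'
    have h1 : (charDegree χ.1 : ℝ) ^ 2 = 1 := by
      apply mul_left_cancel₀ hG
      rw [hsum, mul_one]
    have h2 : (charDegree χ.1 : ℝ) = 1 := by
      have h0 : (0 : ℝ) ≤ charDegree χ.1 := by positivity
      nlinarith
    exact_mod_cast h2

end

end Cfsg.Agent.H21
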