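import Cfsg.Agent.Lib.H21.CCSylowF

/-!
# Sylow subgroups in which every nonidentity element has the centralizer of the whole group:
# faithful characters of small degree
-/

set_option autoImplicit false
set_option linter.unusedSectionVars false
set_option linter.style.haveILetI false
set_option linter.unusedSimpArgs false

namespace Cfsg.Agent.H21

open scoped ComplexConjugate
open Cfsg Module Cfsg.Agent.H22

universe u v

variable {p : ℕ} [hp : Fact p.Prime]

/-- A faithful character of small degree forces `P` to be normal. -/
theorem cc_faithful_normal (m : ℕ) : ∀ (G : Type u) [Group G] [Finite G], Nat.card G ≤ m →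
    ∀ (P : Sylow p G), (P : Subgroup G) ≠ ⊥ →
    (∀ x ∈ (P : Subgroup G), x ≠ 1 → Subgroup.centralizer ({x} : Set G) = CCs P) →
    ∀ (χ : G → ℂ), IsCharacter G χ → (∀ g : G, χ g = χ 1 → g = 1) →
    charDegree χ ^ 2 + 1 < Nat.card (P : Subgroup G) → (P : Subgroup G).Normal := by
  classical
  induction m with
  | zero =>
    intro G _ _ hm
    have : Nat.card G ≠ 0 := Nat.card_pos.ne'
    omega
  | succ m ih =>
    intro G _ _ hm P hne hstar χ hχ hfaith hdeg
    by_cases hK : ∃ K : Subgroup G, K.Normal ∧ K ≠ ⊤ ∧ (P : Subgroup G) ≤ K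
    · obtain ⟨K, hKn, hKt, hPK⟩ := hK
      have hKlt : Nat.card K ≤ m := by
        have h1 : K.index ≠ 1 := fun h => hKt (Subgroup.index_eq_one.mp h)
        have h2 := Subgroup.card_mul_index K
        have h3 : K.index ≠ 0 := Subgroup.index_ne_zero_of_finite
        have h4 : 2 ≤ K.index := by omega
        have h5 : 0 < Nat.card K := Nat.card_pos
        nlinarith
      let P' : Sylow p K := P.subtype hPK
      have hP'coe : (P' : Subgroup K) = (P : Subgroup G).subgroupOf K := rfl
      have hP'mem : ∀ x : K, x ∈ (P' : Subgroup K) ↔ (x : G) ∈ (P : Subgroup G) := by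
        intro x
        rw [hP'coe, Subgroup.mem_subgroupOf]
      have hcard : Nat.card (P' : Subgroup K) = Nat.card (P : Subgroup G) := by
        rw [hP'coe]
        exact Nat.card_congr (Subgroup.subgroupOfEquivOfLe hPK).toEquiv
      have hne' : (P' : Subgroup K) ≠ ⊥ := by
        intro h
        rw [h, Subgroup.card_bot] at hcard
        exact hne (Subgroup.card_eq_one.mp hcard.symm)
      have hstar' : ∀ x ∈ (P' : Subgroup K), x ≠ 1 →
          Subgroup.centralizer ({x} : Set K) = CCs P' := by
        intro x hx hx1
        have hx1' : (x : G) ≠ 1 := fun h => hx1 (Subtype.ext h)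
        have hxP := (hP'mem x).mp hx
        ext y
        rw [mem_centralizer_singleton_iff, Subgroup.mem_centralizer_iff]
        have h1 : ((x : G) * (y : G) = (y : G) * (x : G)) ↔
            (y : G) ∈ Subgroup.centralizer ({(x : G)} : Set G) := by
          rw [mem_centralizer_singleton_iff]
        constructor
        · intro hxy z hz
          have h2 : (y : G) ∈ Subgroup.centralizer ({(x : G)} : Set G) := by
            rw [mem_centralizer_singleton_iff]
            exact congrArg Subtype.val hxy
          rw [hstar _ hxP hx1'] at h2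
          apply Subtype.ext
          exact (Subgroup.mem_centralizer_iff.mp h2) z ((hP'mem z).mp hz)
        · intro hall
          have h2 : (y : G) ∈ CCs P := by
            rw [Subgroup.mem_centralizer_iff]
            intro z hz
            have := hall ⟨z, hPK hz⟩ ((hP'mem _).mpr hz)
            exact congrArg Subtype.val this
          rw [← hstar _ hxP hx1', mem_centralizer_singleton_iff] at h2
          exact Subtype.ext h2
      have hχ' := isCharacter_restrict K hχ
      have hfaith' : ∀ k : K, (fun c : K => χ c) k = (fun c : K => χ c) 1 → k = 1 := by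
        intro k hk
        exact Subtype.ext (hfaith k hk)
      have hdeg' : charDegree (fun c : K => χ c) ^ 2 + 1 < Nat.card (P' : Subgroup K) := by
        rw [hcard]
        exact hdeg
      have hnorm := ih K hKlt P' hne' hstar' _ hχ' hfaith' hdeg'
      haveI huniq := Sylow.unique_of_normal P' hnorm
      refine ⟨fun n hn g => ?_⟩
      have hy : g * n * g⁻¹ ∈ K := hKn.conj_mem n (hPK hn) g
      obtain ⟨k, hk⟩ := pelt_of_sylow P hn
      have hQ : IsPGroup p (Subgroup.zpowers (⟨_, hy⟩ : K)) := by
        rw [IsPGroup.iff_card]
        refine ⟨k, ?_⟩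
        rw [Nat.card_zpowers, Subgroup.orderOf_mk, orderOf_conj', hk]
      obtain ⟨Q, hQle⟩ := hQ.exists_le_sylow
      have hQP : Q = P' := Subsingleton.elim _ _
      have h1 : (⟨_, hy⟩ : K) ∈ (P' : Subgroup K) := by
        rw [← hQP]
        exact hQle (Subgroup.mem_zpowers _)
      exact (hP'mem _).mp h1
    · have hK' : ∀ K : Subgroup G, K.Normal → (P : Subgroup G) ≤ K → K = ⊤ := by
        intro K h1 h2
        by_contra h3
        exact hK ⟨K, h1, h3, h2⟩
      have hPC := P_le_CCs P hstar hne
      obtain ⟨a, ha, -⟩ := isCharacter_decomp hχ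
      have hval : ∀ g, χ g = ∑ ξ : IrrCharacter G, (a ξ : ℂ) * ξ.1 g := by
        intro g
        have h1 := congrFun ha g
        rw [h1, Finset.sum_apply]
        refine Finset.sum_congr rfl fun ξ _ => ?_
        simp [Pi.smul_apply, nsmul_eq_mul]
      have hdegχ : charDegree χ = ∑ ξ : IrrCharacter G, a ξ * charDegree ξ.1 := by
        have h1 := hval 1
        rw [one_eq_charDegree hχ] at h1
        have h2 : ((charDegree χ : ℕ) : ℂ) = ((∑ ξ : IrrCharacter G, a ξ * charDegree ξ.1 : ℕ) : ℂ) := by
          rw [h1]
          push_cast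
          refine Finset.sum_congr rfl fun ξ _ => ?_
          rw [one_eq_charDegree (isCharacter_of_irr ξ.2)]
        exact_mod_cast h2
      have hlin : ∀ ξ : IrrCharacter G, a ξ ≠ 0 → charDegree ξ.1 = 1 := by
        intro ξ hξ
        by_cases hξ1 : ξ.1 = fun _ => 1
        · have h2 : ((charDegree ξ.1 : ℕ) : ℂ) = ((1 : ℕ) : ℂ) := by
            rw [← one_eq_charDegree (isCharacter_of_irr ξ.2), hξ1]
            simp
          exact_mod_cast h2
        · have h1 : charDegree ξ.1 ≤ charDegree χ := by
            rw [hdegχ]
            calc charDegree ξ.1 ≤ a ξ * charDegree ξ.1 :=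
                  Nat.le_mul_of_pos_left _ (Nat.pos_of_ne_zero hξ)
              _ ≤ _ := Finset.single_le_sum (f := fun ξ : IrrCharacter G => a ξ * charDegree ξ.1)
                  (fun _ _ => Nat.zero_le _) (Finset.mem_univ ξ)
          have h2 : charDegree ξ.1 ^ 2 + 1 < Nat.card (P : Subgroup G) := by
            have : charDegree ξ.1 ^ 2 ≤ charDegree χ ^ 2 := Nat.pow_le_pow_left h1 2
            omega
          exact (cc_main P hstar hne hPC hK' ξ hξ1 h2).2
      have hcomm : ∀ g h : G, g * h = h * g := by
        intro g h
        have h1 : g * h * g⁻¹ * h⁻¹ = 1 := by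
          apply hfaith
          rw [hval, hval]
          refine Finset.sum_congr rfl fun ξ _ => ?_
          by_cases hξ : a ξ = 0
          · simp [hξ]
          · have hc := isCharacter_of_irr ξ.2
            have hd := hlin ξ hξ
            have hone := linear_one hc hd
            have hinv : ∀ x, ξ.1 x * ξ.1 x⁻¹ = 1 := by
              intro x
              rw [← linear_mul hc hd, mul_inv_cancel, hone]
            rw [linear_mul hc hd, linear_mul hc hd, linear_mul hc hd, hone]
            have h3 := hinv g
            have h4 := hinv h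
            calc (a ξ : ℂ) * (ξ.1 g * ξ.1 h * ξ.1 g⁻¹ * ξ.1 h⁻¹)
                = (a ξ : ℂ) * ((ξ.1 g * ξ.1 g⁻¹) * (ξ.1 h * ξ.1 h⁻¹)) := by ring
              _ = _ := by rw [h3, h4]; ring
        calc g * h = (g * h * g⁻¹ * h⁻¹) * (h * g) := by group
          _ = h * g := by rw [h1, one_mul]
      refine ⟨fun n hn g => ?_⟩
      have : g * n * g⁻¹ = n := by rw [hcomm g n]; group
      rwa [this]

end Cfsg.Agent.H21
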