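import Cfsg.Agent.Lib.H21.FongReynolds
import Cfsg.Agent.Lib.H21.FirstMain
import Cfsg.Agent.Lib.H04.Cliff.Basic
import Cfsg.Agent.Lib.H23.Ito

/-!
# Blocks of `P C(P)` with defect group `P`: the canonical character and the extended first main
theorem (the defect group of the induced block is `P` iff `p` does not divide `|T : H|`)
-/

set_option autoImplicit false
set_option linter.unusedSectionVars false
set_option linter.style.haveILetI false
set_option linter.unusedSimpArgs false
set_option linter.unusedVariables false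

namespace Cfsg.Agent.H21

open scoped ComplexConjugate
open Cfsg Module Cfsg.Agent.H22

universe u

variable {G : Type u} [Group G] [Finite G]
variable {p : ℕ} [hp : Fact p.Prime] {M : Ideal AlgInt} [hMp : M.IsPrime]

section Canon

variable {P H : Subgroup G} [hPn : P.Normal] [hHn : H.Normal]

theorem sup_top_of_dec (hPH : P ≤ H)
    (hdec : ∀ h ∈ H, ∃ u ∈ P, ∃ c ∈ Subgroup.centralizer (P : Set G), h = u * c) :
    (P.subgroupOf H) ⊔ Subgroup.centralizer ((P.subgroupOf H : Subgroup H) : Set H) = ⊤ := by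
  rw [eq_top_iff]
  rintro ⟨h, hh⟩ -
  obtain ⟨u, hu, c, hc, rfl⟩ := hdec h hh
  have huH : u ∈ H := hPH hu
  have hcH : c ∈ H := by
    have := H.mul_mem (H.inv_mem huH) hh
    simpa using this
  have e : (⟨u * c, hh⟩ : H) = ⟨u, huH⟩ * ⟨c, hcH⟩ := rfl
  rw [e]
  refine Subgroup.mul_mem _ (Subgroup.mem_sup_left ?_) (Subgroup.mem_sup_right ?_)
  · exact Subgroup.mem_subgroupOf.mpr hu
  · rw [Subgroup.mem_centralizer_iff]
    intro x hx
    apply Subtype.ext
    have hx' : ((x : H) : G) ∈ P := Subgroup.mem_subgroupOf.mp hx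
    exact (Subgroup.mem_centralizer_iff.mp hc _ hx')

/-- A character of `H` trivial on `P`. -/
def trivOn (P : Subgroup G) (θ : IrrCharacter H) : Prop := ∀ x : H, (x : G) ∈ P → θ.1 x = θ.1 1

theorem exists_canonical (hM : IsPModular p M) (hP : IsPGroup p P) (hPH : P ≤ H)
    (hdec : ∀ h ∈ H, ∃ u ∈ P, ∃ c ∈ Subgroup.centralizer (P : Set G), h = u * c)
    {b : Set (IrrCharacter H)} (hb : IsPBlock M b)
    (hmin : minExp p b = (P.subgroupOf H).index.factorization p) :
    ∃ θ ∈ b, trivOn P θ ∧ (charDegree θ.1).factorization p = minExp p b ∧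
      ∀ θ₁ ∈ b, trivOn P θ₁ → θ₁ = θ := by
  classical
  have hP' : IsPGroup p (P.subgroupOf H) := hP.comap_of_injective H.subtype (Subgroup.subtype_injective H)
  haveI hPn' : (P.subgroupOf H).Normal := Subgroup.normal_subgroupOf
  obtain ⟨k, hk⟩ := index_centralizer_pow hP' (sup_top_of_dec hPH hdec)
  obtain ⟨χb, θ, hθ, hθeq⟩ := exists_inflation_in_block hM hP' hk hb
  have hdeg : charDegree θ.1 = charDegree χb.1 := by
    rw [hθeq]
    simp [charDegree]
  have hd0 : charDegree χb.1 ≠ 0 := (irr_charDegree_pos χb.2).ne'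
  have hdvd : charDegree χb.1 ∣ (P.subgroupOf H).index := charDegree_dvd_card χb
  have hidx0 : (P.subgroupOf H).index ≠ 0 := Subgroup.index_ne_zero_of_finite
  have hle : (charDegree χb.1).factorization p ≤ (P.subgroupOf H).index.factorization p :=
    (Nat.factorization_le_iff_dvd hd0 hidx0).mpr hdvd p
  have hge : minExp p b ≤ (charDegree θ.1).factorization p := minExp_le hθ
  have hval : (charDegree θ.1).factorization p = minExp p b := by
    rw [hdeg] at hge ⊢
    omega
  have hnd : ¬ p ∣ Nat.card (H ⧸ P.subgroupOf H) / charDegree χb.1 := by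
    intro hcon
    have hc : Nat.card (H ⧸ P.subgroupOf H) = (P.subgroupOf H).index := rfl
    rw [hc] at hcon
    have h1 : ((P.subgroupOf H).index / charDegree χb.1).factorization p =
        (P.subgroupOf H).index.factorization p - (charDegree χb.1).factorization p := by
      rw [Nat.factorization_div hdvd]
      rfl
    have h2 : (P.subgroupOf H).index / charDegree χb.1 ≠ 0 := by
      intro h0
      have := Nat.eq_zero_of_dvd_of_div_eq_zero hdvd h0
      exact hidx0 this
    have h3 := (hp.out.dvd_iff_one_le_factorization h2).mp hcon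
    rw [hdeg] at hval
    omega
  refine ⟨θ, hθ, ?_, hval, ?_⟩
  · intro x hx
    rw [hθeq]
    simp only [Function.comp_apply]
    have : (x : H ⧸ P.subgroupOf H) = 1 :=
      (QuotientGroup.eq_one_iff x).mpr (Subgroup.mem_subgroupOf.mpr hx)
    rw [QuotientGroup.mk'_apply, this, map_one]
  · intro θ₁ hθ₁ htr
    obtain ⟨χ₁', hirr, hχ₁⟩ := exists_descend (P.subgroupOf H) θ₁.2 (fun n hn => htr n
      (Subgroup.mem_subgroupOf.mp hn))
    let χ₁ : IrrCharacter (H ⧸ P.subgroupOf H) := ⟨χ₁', hirr⟩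
    have hs : SameBlock M (χb.1 ∘ QuotientGroup.mk' (P.subgroupOf H))
        (χ₁.1 ∘ QuotientGroup.mk' (P.subgroupOf H)) := by
      rw [← hθeq]
      have : χ₁.1 ∘ QuotientGroup.mk' (P.subgroupOf H) = θ₁.1 := hχ₁
      rw [this]
      exact block_sameBlock hb hθ hθ₁
    have hs' := (sameBlock_quot_iff hM hP' hk χb χ₁).mpr hs
    have heq := eq_of_mem_block_of_defect_zero hM χb hnd hs'
    apply Subtype.ext
    rw [← hχ₁, hθeq]
    exact congrArg (fun f : IrrCharacter (H ⧸ P.subgroupOf H) => f.1 ∘ QuotientGroup.mk' (P.subgroupOf H)) heq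

theorem trivOn_conj {θ : IrrCharacter H} (h : trivOn P θ) (t : G) : trivOn P (conjIrr H t θ) := by
  intro x hx
  rw [conjIrr_apply, conjIrr_apply]
  have h1 := h ⟨t * x * t⁻¹, hHn.conj_mem _ x.2 t⟩ (hPn.conj_mem _ hx t)
  rw [h1]
  have h2 : (⟨t * ((1 : H) : G) * t⁻¹, hHn.conj_mem _ (1 : H).2 t⟩ : H) = 1 := by
    apply Subtype.ext
    simp
  rw [h2]

variable {T : Subgroup G}

theorem hT_theta {b : Set (IrrCharacter H)} (hb : IsPBlock M b)
    (hT : ∀ g : G, g ∈ T ↔ ∀ θ ∈ b, conjIrr H g θ ∈ b) {θ : IrrCharacter H} (hθ : θ ∈ b)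
    (htr : trivOn P θ) (huniq : ∀ θ₁ ∈ b, trivOn P θ₁ → θ₁ = θ) :
    ∀ g : G, g ∈ T ↔ ∀ h : H, θ.1 ⟨g * h * g⁻¹, hHn.conj_mem h h.2 g⟩ = θ.1 h := by
  intro g
  constructor
  · intro hg h
    have h1 := huniq _ ((hT g).mp hg θ hθ) (trivOn_conj htr g)
    rw [← conjIrr_apply, h1]
  · intro hall
    by_contra hg
    apply conj_not_mem hb hT hg hθ
    have : conjIrr H g θ = θ := by
      apply Subtype.ext
      funext h
      rw [conjIrr_apply]
      exact hall h
    rw [this]
    exact hθ

/-- Degrees of characters above an invariant character. -/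
theorem deg_formula (hHT : H ≤ T) {θ : IrrCharacter H}
    (hT : ∀ g : G, g ∈ T ↔ ∀ h : H, θ.1 ⟨g * h * g⁻¹, hHn.conj_mem h h.2 g⟩ = θ.1 h)
    (χ : IrrCharacter G) {e : ℕ} (he : classInner (fun h : H => χ.1 h) θ.1 = e) (he0 : e ≠ 0) :
    charDegree χ.1 = T.index * e * charDegree θ.1 := by
  classical
  obtain ⟨ψ, e', hψ, he'0, hχ, hres, hin⟩ := Cfsg.Agent.H04.Cliff.clifford_ext H T hHT θ.2 hT χ.2
    (by rw [he]; exact_mod_cast he0)
  have hee : e' = e := by
    have : (e' : ℂ) = e := by rw [← hin, he]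
    exact_mod_cast this
  subst hee
  have h1 : χ.1 1 = (T.index : ℂ) * ψ 1 := by
    rw [hχ]
    exact indFun_one T ψ
  have h2 := hres 1
  have h3 : ψ 1 = (e' : ℂ) * θ.1 1 := h2
  have h4 : (charDegree χ.1 : ℂ) = ((T.index * e' * charDegree θ.1 : ℕ) : ℂ) := by
    rw [← irr_one_eq χ, h1, h3, irr_one_eq θ]
    push_cast
    ring
  exact_mod_cast h4

/-- The sum of the squares of the multiplicities is the index of `H` in the stabilizer. -/
theorem sum_mult_sq (hHT : H ≤ T) {θ : IrrCharacter H}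
    (hT : ∀ g : G, g ∈ T ↔ ∀ h : H, θ.1 ⟨g * h * g⁻¹, hHn.conj_mem h h.2 g⟩ = θ.1 h) :
    ∃ m : IrrCharacter G → ℕ, (∀ χ, classInner (fun h : H => χ.1 h) θ.1 = m χ) ∧
      ∑ χ : IrrCharacter G, m χ * m χ = H.relIndex T := by
  classical
  have hX := isCharacter_indFun H (isCharacter_of_irr θ.2)
  obtain ⟨m, hm1, hm2⟩ := H06.classInner_self_char_eq_sum hX
  refine ⟨m, ?_, ?_⟩
  · intro χ
    rw [← hm1, frobenius_reciprocity H _ _ (isClassFunction_of_isCharacter (isCharacter_of_irr χ.2))]
    obtain ⟨n, h1, h2⟩ := H06.classInner_char_conj_nat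
      (isCharacter_restrict H (isCharacter_of_irr χ.2)) θ
    rw [h1, h2]
  · have h1 : classInner (indFun H θ.1) (indFun H θ.1) = ((H.relIndex T : ℕ) : ℂ) := by
      rw [frobenius_reciprocity H _ _ (H21.indFun_isClass H θ.1), H06.indFun_restrict_eq_sum_twist,
        H21.classInner_smul_right]
      have h1 : classInner θ.1 (∑ g : G, H06.twist H θ.1 g) = ∑ g : G, classInner θ.1 (H06.twist H θ.1 g) :=
        H21.classInner_sum_right _ _ _
      have h2 : ∑ g : G, classInner θ.1 (H06.twist H θ.1 g) = (Nat.card {g : G // H06.twist H θ.1 g = θ.1} : ℂ) := by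
        rw [← H06.sum_classInner_twist H θ.2]
        refine Finset.sum_congr rfl fun g _ => ?_
        rw [H06.classInner_irr_fun θ.2 (H06.isIrrCharacter_twist H θ.2 g),
          H06.classInner_irr_fun (H06.isIrrCharacter_twist H θ.2 g) θ.2]
        simp only [eq_comm]
      rw [h1, h2, H06.card_stabilizer_eq H T hT]
      simp only [map_inv₀, Complex.conj_natCast]
      have h3 : Nat.card T = H.relIndex T * Nat.card H := by
        have e1 := H.relIndex_mul_index hHT
        have e2 := T.card_mul_index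
        have e3 := H.card_mul_index
        have hT0 : T.index ≠ 0 := Subgroup.index_ne_zero_of_finite
        apply Nat.eq_of_mul_eq_mul_right (Nat.pos_of_ne_zero hT0)
        rw [e2, mul_right_comm, e1, mul_comm, e3]
      rw [h3]
      push_cast
      field_simp
    rw [hm2] at h1
    exact_mod_cast h1

/-- The degree of a constituent divides the degree of the character. -/
theorem deg_dvd_of_cvr (hHT : H ≤ T) {ψ : IrrCharacter T} {ξ : IrrCharacter H}
    (h : cvr hHT ψ ξ ≠ 0) : charDegree ξ.1 ∣ charDegree ψ.1 := by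
  haveI : (H.subgroupOf T).Normal := Subgroup.normal_subgroupOf
  rw [← sum_thetaT] at h
  obtain ⟨w, hw, hval⟩ := value_dvd_of_normal ψ h (c := 1) (Subgroup.one_mem _)
  have hdeg : charDegree (thetaT hHT ξ).1 = charDegree ξ.1 := by
    simp only [charDegree]
    rw [thetaT_apply]
    rfl
  rw [hdeg, irr_one_eq ψ] at hval
  have hpos : 0 < charDegree ξ.1 := irr_charDegree_pos ξ.2
  apply H23.dvd_of_isIntegral_div hpos
  rw [hval]
  have : (charDegree ξ.1 : ℂ) ≠ 0 := by exact_mod_cast hpos.ne'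
  rw [mul_div_cancel_left₀ _ this]
  exact hw

/-- Members of a block covering `b` lie above a member of `b`. -/
theorem exists_over_of_cover {b : Set (IrrCharacter H)} (hb : IsPBlock M b)
    {B : Set (IrrCharacter G)} (hB : IsPBlock M B)
    (hcov : ∃ χ ∈ B, ∃ θ ∈ b, ∑ n : H, conj (θ.1 n) * χ.1 n ≠ 0) {χ : IrrCharacter G} (hχ : χ ∈ B) :
    ∃ ξ ∈ b, ∑ n : H, conj (ξ.1 n) * χ.1 n ≠ 0 := by
  obtain ⟨χ₀, hχ₀, θ₀, h0, hc⟩ := hcov
  have hs : SameBlock M χ.1 χ₀.1 := block_sameBlock hB hχ hχ₀
  obtain ⟨θ₁, hθ₁⟩ := exists_constituent H χ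
  have e1 := (const_iff χ θ₁).mp hθ₁
  have e2 := (const_iff χ₀ θ₀).mp hc
  obtain ⟨t, ht⟩ := exists_conj_mem_of_congr hb (θ₀ := θ₀) (θ₂ := θ₁) h0 (fun n => by
    rw [← e1 n, ← e2 n]
    exact hs (n : G))
  exact ⟨_, ht, const_of_conj t hθ₁⟩

theorem minExp_cover_ge (hHT : H ≤ T) {b : Set (IrrCharacter H)} (hb : IsPBlock M b)
    (hT : ∀ g : G, g ∈ T ↔ ∀ θ ∈ b, conjIrr H g θ ∈ b)
    {B : Set (IrrCharacter G)} (hB : IsPBlock M B)
    (hcov : ∃ χ ∈ B, ∃ θ ∈ b, ∑ n : H, conj (θ.1 n) * χ.1 n ≠ 0) :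
    T.index.factorization p + minExp p b ≤ minExp p B := by
  classical
  obtain ⟨χ₁, h1, h2⟩ := exists_min_height (p := p) hB
  obtain ⟨ξ, hξ, hc⟩ := exists_over_of_cover hb hB hcov h1
  obtain ⟨ψ, hψ1, hψ2⟩ := exists_ind_of_over hHT hb hT hξ hc
  have hdvd := deg_dvd_of_cvr hHT hψ1
  have h3 : charDegree χ₁.1 = T.index * charDegree ψ.1 := by
    have h4 : (charDegree χ₁.1 : ℂ) = ((T.index * charDegree ψ.1 : ℕ) : ℂ) := by
      rw [← irr_one_eq χ₁, hψ2, indFun_one, irr_one_eq ψ]
      push_cast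
      ring
    exact_mod_cast h4
  have hψ0 : charDegree ψ.1 ≠ 0 := (irr_charDegree_pos ψ.2).ne'
  have hT0 : T.index ≠ 0 := Subgroup.index_ne_zero_of_finite
  rw [← h2, h3, Nat.factorization_mul hT0 hψ0]
  simp only [Finsupp.add_apply]
  have h5 : (charDegree ξ.1).factorization p ≤ (charDegree ψ.1).factorization p :=
    (Nat.factorization_le_iff_dvd (irr_charDegree_pos ξ.2).ne' hψ0).mpr hdvd p
  have h6 : minExp p b ≤ (charDegree ξ.1).factorization p := minExp_le hξ
  omega

/-- **The extended first main theorem, normal case.** -/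
theorem defect_normal_iff (hM : IsPModular p M) (hP : IsPGroup p P) (hPH : P ≤ H)
    (hCH : Subgroup.centralizer (P : Set G) ≤ H)
    (hdec : ∀ h ∈ H, ∃ u ∈ P, ∃ c ∈ Subgroup.centralizer (P : Set G), h = u * c) (hHT : H ≤ T)
    {b : Set (IrrCharacter H)} (hb : IsPBlock M b)
    (hmin : minExp p b = (P.subgroupOf H).index.factorization p)
    (hT : ∀ g : G, g ∈ T ↔ ∀ θ ∈ b, conjIrr H g θ ∈ b)
    {B : Set (IrrCharacter G)} (hB : IsPBlock M B)
    (hcov : ∃ χ ∈ B, ∃ θ ∈ b, ∑ n : H, conj (θ.1 n) * χ.1 n ≠ 0) :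
    IsDefectGroup p M B P ↔ ¬ p ∣ H.relIndex T := by
  classical
  obtain ⟨θ, hθ, htr, hval, huniq⟩ := exists_canonical hM hP hPH hdec hb hmin
  have hT' := hT_theta (P := P) hb hT hθ htr huniq
  obtain ⟨m, hm1, hm2⟩ := sum_mult_sq hHT hT'
  have hind := cover_induced_of_centralizer hM P hP hCH hb hB hcov
  -- characters above `θ` lie in `B`
  have hinB : ∀ χ : IrrCharacter G, m χ ≠ 0 → χ ∈ B := by
    intro χ hχ
    have hne : ∑ n : H, conj (θ.1 n) * χ.1 n ≠ 0 := by
      rw [← inner_ne_iff (inst := fintypeOfFiniteH22) (fun n : H => χ.1 n) θ.1, hm1]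
      exact_mod_cast hχ
    have hind' := cover_induced_of_centralizer hM P hP hCH hb (isBlock_blockOf χ)
      ⟨χ, self_mem_blockOf χ, θ, hθ, hne⟩
    obtain ⟨χ₀, hχ₀⟩ := block_nonempty hB
    rw [block_eq_of_mem hB hχ₀]
    intro g
    have h1 := hind.2.2 θ hθ χ₀ hχ₀ g
    have h2 := hind'.2.2 θ hθ χ (self_mem_blockOf χ) g
    have h3 := mli_sub h2 h1
    rw [sub_sub_sub_cancel_left] at h3
    exact h3
  have hT0 : T.index ≠ 0 := Subgroup.index_ne_zero_of_finite
  have hrel0 : H.relIndex T ≠ 0 := by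
    intro h0
    have := H.relIndex_mul_index hHT
    rw [h0, zero_mul] at this
    exact Subgroup.index_ne_zero_of_finite this.symm
  have hθ0 : charDegree θ.1 ≠ 0 := (irr_charDegree_pos θ.2).ne'
  have hvalχ : ∀ χ : IrrCharacter G, m χ ≠ 0 → (charDegree χ.1).factorization p =
      T.index.factorization p + (m χ).factorization p + minExp p b := by
    intro χ hχ
    rw [deg_formula hHT hT' χ (hm1 χ) hχ, Nat.factorization_mul (mul_ne_zero hT0 hχ) hθ0,
      Nat.factorization_mul hT0 hχ, Finsupp.add_apply, Finsupp.add_apply, hval]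
  have hindex : P.index.factorization p = (P.subgroupOf H).index.factorization p +
      (H.relIndex T).factorization p + T.index.factorization p := by
    have e1 : P.relIndex H * H.index = P.index := P.relIndex_mul_index hPH
    have e2 : H.relIndex T * T.index = H.index := H.relIndex_mul_index hHT
    have hPr : (P.subgroupOf H).index = P.relIndex H := rfl
    rw [← e1, ← e2, ← hPr]
    have hP0 : (P.subgroupOf H).index ≠ 0 := Subgroup.index_ne_zero_of_finite
    rw [Nat.factorization_mul hP0 (mul_ne_zero hrel0 hT0), Nat.factorization_mul hrel0 hT0]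
    simp only [Finsupp.add_apply]
    omega
  constructor
  · intro hD
    have hminB := minExp_eq_index hM hB hD
    set a := (H.relIndex T).factorization p with ha
    have hdiv : ∀ χ : IrrCharacter G, p ^ a ∣ m χ := by
      intro χ
      by_cases hχ : m χ = 0
      · rw [hχ]; exact dvd_zero _
      · have h1 := minExp_le (p := p) (hinB χ hχ)
        rw [hminB, hindex, hvalχ χ hχ, hmin] at h1
        have h2 : a ≤ (m χ).factorization p := by omega
        exact (hp.out.pow_dvd_iff_le_factorization hχ).mpr h2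
    have hdiv2 : p ^ a * p ^ a ∣ H.relIndex T := by
      rw [← hm2]
      exact Finset.dvd_sum fun χ _ => mul_dvd_mul (hdiv χ) (hdiv χ)
    rw [← pow_add] at hdiv2
    have h3 := (hp.out.pow_dvd_iff_le_factorization hrel0).mp hdiv2
    have h4 : a = 0 := by omega
    intro hdvd
    have := (hp.out.dvd_iff_one_le_factorization hrel0).mp hdvd
    omega
  · intro hnd
    have hex : ∃ χ : IrrCharacter G, ¬ p ∣ m χ := by
      by_contra hcon
      push Not at hcon
      apply hnd
      rw [← hm2]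
      exact Finset.dvd_sum fun χ _ => Dvd.dvd.mul_right (hcon χ) _
    obtain ⟨χ₀, hχ₀⟩ := hex
    have hχ₀0 : m χ₀ ≠ 0 := by
      intro h0
      apply hχ₀
      rw [h0]
      exact dvd_zero _
    have hv0 : (m χ₀).factorization p = 0 := Nat.factorization_eq_zero_of_not_dvd hχ₀
    have hr0 : (H.relIndex T).factorization p = 0 := Nat.factorization_eq_zero_of_not_dvd hnd
    have hle1 := minExp_le (p := p) (hinB χ₀ hχ₀0)
    rw [hvalχ χ₀ hχ₀0, hv0] at hle1
    have hge1 := minExp_cover_ge hHT hb hT hB hcov (p := p)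
    have hminB : minExp p B = P.index.factorization p := by
      rw [hindex, hr0, ← hmin]
      omega
    obtain ⟨E, hE⟩ := isDefectGroup_exists (p := p) hB
    have hPE : P ≤ E := (Cfsg.Agent.H01.le_pCore hPn hP).trans (pCore_le_defect hM hB hE)
    have hEp : IsPGroup p E := defect_isPGroup hE
    rw [minExp_eq_index hM hB hE] at hminB
    have hcardE := E.card_mul_index
    have hcardP := P.card_mul_index
    have hv : (Nat.card E).factorization p = (Nat.card P).factorization p := by
      have h1 := congrArg (fun n => n.factorization p) (hcardE.trans hcardP.symm)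
      rw [Nat.factorization_mul Nat.card_pos.ne' Subgroup.index_ne_zero_of_finite,
        Nat.factorization_mul Nat.card_pos.ne' Subgroup.index_ne_zero_of_finite] at h1
      simp only [Finsupp.add_apply] at h1
      omega
    obtain ⟨x, hx⟩ := IsPGroup.iff_card.mp hEp
    obtain ⟨y, hy⟩ := IsPGroup.iff_card.mp hP
    rw [hx, hy, hp.out.factorization_pow, hp.out.factorization_pow] at hv
    simp only [Finsupp.smul_single, smul_eq_mul, mul_one, Finsupp.single_eq_same] at hv
    have hEP : P = E := Subgroup.eq_of_le_of_card_ge hPE (by rw [hx, hy, hv])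
    rw [hEP]
    exact hE

end Canon

section Trans

/-- Transitivity of block induction. -/
theorem induced_trans {K H : Subgroup G} (hHK : H ≤ K) {b : Set (IrrCharacter H)}
    (hb : IsPBlock M b) {B₀ : Set (IrrCharacter K)} {B₁ : Set (IrrCharacter G)}
    (h1 : IsInducedBlock M (H.subgroupOf K) (irrMap (Subgroup.subgroupOfEquivOfLe hHK).symm '' b) B₀)
    (h2 : IsInducedBlock M K B₀ B₁) : IsInducedBlock M H b B₁ := by
  classical
  haveI : Fintype (ConjClasses K) := Fintype.ofFinite _
  refine ⟨hb, h2.2.1, fun ξ hξ χ hχ g => ?_⟩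
  obtain ⟨χ₀, hχ₀⟩ := block_nonempty h1.2.1
  set ξK := irrMap (Subgroup.subgroupOfEquivOfLe hHK).symm ξ with hξK
  have hξK' : ξK ∈ irrMap (Subgroup.subgroupOfEquivOfLe hHK).symm '' b := ⟨ξ, hξ, rfl⟩
  have e1 := h2.2.2 χ₀ hχ₀ χ hχ g
  suffices hs : MemLocalIdeal M (inducedCentralChar H ξ.1 g - inducedCentralChar K χ₀.1 g) by
    have := mli_add hs e1
    rwa [sub_add_sub_cancel] at this
  -- expressing both through `om`
  have a_class : IsClassFunction K (fun m : K => classIndicator g (m : G)) := indicator_isClass g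
  have hexp : ∀ m : K, ∑ C : ConjClasses K, classIndicator g ((C.out : K) : G) * classIndicator C.out m =
      classIndicator g (m : G) := by
    intro m
    rw [Finset.sum_eq_single (ConjClasses.mk m)]
    · have hc : IsConj m (ConjClasses.mk m).out :=
        ConjClasses.mk_eq_mk_iff_isConj.mp (Quotient.out_eq (ConjClasses.mk m)).symm
      have h3 : classIndicator (ConjClasses.mk m).out m = 1 := by
        unfold classIndicator
        rw [if_pos hc]
      rw [h3, mul_one]
      have h4 : (fun m : K => classIndicator g (m : G)) (ConjClasses.mk m).out =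
          (fun m : K => classIndicator g (m : G)) m := by
        obtain ⟨c, hc'⟩ := isConj_iff.mp hc
        rw [← hc']
        exact a_class m c
      exact h4
    · intro C _ hC
      have h3 : classIndicator C.out m = 0 := by
        unfold classIndicator
        rw [if_neg]
        intro hc
        apply hC
        have h5 : ConjClasses.mk C.out = C := Quotient.out_eq C
        rw [← h5]
        exact (ConjClasses.mk_eq_mk_iff_isConj.mpr hc).symm
      rw [h3, mul_zero]
    · simp
  have h3 : inducedCentralChar K χ₀.1 g =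
      ∑ C : ConjClasses K, classIndicator g ((C.out : K) : G) * cc C.out χ₀ := by
    rw [← om_indicator_eq, om_eq_sum_classes _ a_class]
  have hom : ∀ y : K, inducedCentralChar (H.subgroupOf K) ξK.1 y =
      om ξK (fun m : H.subgroupOf K => classIndicator y (m : K)) := fun y =>
    (om_indicator_eq ξK y).symm
  have h4 : inducedCentralChar H ξ.1 g =
      ∑ C : ConjClasses K, classIndicator g ((C.out : K) : G) *
        inducedCentralChar (H.subgroupOf K) ξK.1 C.out := by
    rw [← om_indicator_eq]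
    simp only [hom]
    have hK : om ξ (fun m : H => classIndicator g (m : G)) =
        om ξK (fun m : H.subgroupOf K => classIndicator g ((m : K) : G)) := by
      rw [hξK, om_irrMap]
      congr 1
    rw [hK]
    unfold om
    rw [Finset.mul_sum]
    simp only [Finset.sum_mul, mul_left_comm _ ((ξK.1 1)⁻¹), ← Finset.mul_sum]
    congr 1
    have hcomm : ∀ (n : H.subgroupOf K), classIndicator g (((n : K) : G)) * ξK.1 n =
        ∑ C : ConjClasses K, classIndicator g ((C.out : K) : G) * (classIndicator C.out (n : K) * ξK.1 n) := by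
      intro n
      rw [← hexp (n : K), Finset.sum_mul]
      exact Finset.sum_congr rfl fun _ _ => by ring
    simp only [hcomm]
    rw [Finset.sum_comm]
    exact Finset.sum_congr rfl fun _ _ => by rw [Finset.mul_sum]
  rw [h3, h4, ← Finset.sum_sub_distrib]
  refine mli_sum _ _ fun C _ => ?_
  rw [← mul_sub]
  refine mli_mul_left ?_ (classIndicator_mlr _ _)
  exact h1.2.2 ξK hξK' χ₀ hχ₀ C.out

theorem induced_unique' {H : Subgroup G} {b : Set (IrrCharacter H)} {B B₁ : Set (IrrCharacter G)}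
    (h : IsInducedBlock M H b B) (h₁ : IsInducedBlock M H b B₁) : B₁ = B := by
  obtain ⟨ξ, hξ⟩ := block_nonempty h.1
  obtain ⟨χ, hχ⟩ := block_nonempty h.2.1
  obtain ⟨χ₁, hχ₁⟩ := block_nonempty h₁.2.1
  rw [block_eq_of_mem h.2.1 hχ, block_eq_of_mem h₁.2.1 hχ₁]
  apply blockOf_eq_of_mem
  intro g
  have := mli_sub (h₁.2.2 ξ hξ χ₁ hχ₁ g) (h.2.2 ξ hξ χ hχ g)
  rwa [sub_sub_sub_cancel_left] at this

theorem minExp_image {K L : Type*} [Group K] [Group L] [Finite K] [Finite L] (φ : K ≃* L)
    (S : Set (IrrCharacter K)) : minExp p (irrMap φ '' S) = minExp p S := by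
  unfold minExp
  congr 1
  ext n
  constructor
  · rintro ⟨_, ⟨χ, hχ, rfl⟩, rfl⟩
    refine ⟨χ, hχ, ?_⟩
    simp only [charDegree, irrMap_apply, map_one]
  · rintro ⟨χ, hχ, rfl⟩
    refine ⟨_, ⟨χ, hχ, rfl⟩, ?_⟩
    simp only [charDegree, irrMap_apply, map_one]

end Trans

/-- **Extended first main theorem of Brauer.** -/
theorem extended_first_main (hM : IsPModular p M) (P : Subgroup G) (hP : IsPGroup p P)
    (H : Subgroup G) (hH : H = P ⊔ Subgroup.centralizer (P : Set G)) (b : Set (IrrCharacter H))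
    (hb : IsPBlock M b) (hbP : IsDefectGroup p M b (P.subgroupOf H)) (B : Set (IrrCharacter G))
    (hind : IsInducedBlock M H b B) (T : Subgroup G)
    (hT : ∀ g : G, g ∈ T ↔ (g ∈ Subgroup.normalizer (P : Set G) ∧ ∀ θ ∈ b, ∀ θ' : IrrCharacter H,
      (∀ h h' : H, (h' : G) = g * h * g⁻¹ → (θ' : H → ℂ) h' = (θ : H → ℂ) h) → θ' ∈ b)) :
    IsDefectGroup p M B P ↔ ¬ p ∣ H.relIndex T := by
  classical
  set K : Subgroup G := Subgroup.normalizer (P : Set G) with hK
  have hPK : P ≤ K := Subgroup.le_normalizer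
  have hCK : Subgroup.centralizer (P : Set G) ≤ K := Subgroup.centralizer_le_normalizer _
  have hPH : P ≤ H := by rw [hH]; exact le_sup_left
  have hCH : Subgroup.centralizer (P : Set G) ≤ H := by rw [hH]; exact le_sup_right
  have hHK : H ≤ K := by rw [hH]; exact sup_le hPK hCK
  have hTK : T ≤ K := fun g hg => ((hT g).mp hg).1
  -- decomposition
  have hdecG : ∀ h ∈ H, ∃ u ∈ P, ∃ c ∈ Subgroup.centralizer (P : Set G), h = u * c := by
    let A : Subgroup G :=
      { carrier := {x | ∃ u ∈ P, ∃ c ∈ Subgroup.centralizer (P : Set G), x = u * c}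
        mul_mem' := by
          rintro _ _ ⟨u, hu, c, hc, rfl⟩ ⟨u', hu', c', hc', rfl⟩
          refine ⟨u * u', P.mul_mem hu hu', c * c', Subgroup.mul_mem _ hc hc', ?_⟩
          have := Subgroup.mem_centralizer_iff.mp hc u' hu'
          calc u * c * (u' * c') = u * (c * u') * c' := by group
            _ = u * (u' * c) * c' := by rw [this]
            _ = _ := by group
        one_mem' := ⟨1, P.one_mem, 1, Subgroup.one_mem _, by simp⟩
        inv_mem' := by
          rintro _ ⟨u, hu, c, hc, rfl⟩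
          refine ⟨u⁻¹, P.inv_mem hu, c⁻¹, Subgroup.inv_mem _ hc, ?_⟩
          have : Commute u c := Subgroup.mem_centralizer_iff.mp hc u hu
          rw [mul_inv_rev]
          exact (Commute.inv_inv this).eq.symm }
    have hle : H ≤ A := by
      rw [hH]
      refine sup_le (fun u hu => ⟨u, hu, 1, Subgroup.one_mem _, by simp⟩)
        (fun c hc => ⟨1, P.one_mem, c, hc, by simp⟩)
    intro h hh
    exact hle hh
  -- conjugation by elements of `K`
  have hCn : ∀ g ∈ K, ∀ c ∈ Subgroup.centralizer (P : Set G), g * c * g⁻¹ ∈ Subgroup.centralizer (P : Set G) := by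
    intro g hg c hc
    rw [Subgroup.mem_centralizer_iff]
    intro x hx
    have hg' := Subgroup.mem_normalizer_iff.mp hg
    have hx' : g⁻¹ * x * g ∈ P := by
      have := (hg' (g⁻¹ * x * g)).mpr (by
        have e : g * (g⁻¹ * x * g) * g⁻¹ = x := by group
        rw [e]; exact hx)
      exact this
    have := Subgroup.mem_centralizer_iff.mp hc _ hx'
    calc x * (g * c * g⁻¹) = g * ((g⁻¹ * x * g) * c) * g⁻¹ := by group
      _ = g * (c * (g⁻¹ * x * g)) * g⁻¹ := by rw [this]
      _ = _ := by group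
  have hHn : ∀ g ∈ K, ∀ h ∈ H, g * h * g⁻¹ ∈ H := by
    intro g hg h hh
    obtain ⟨u, hu, c, hc, rfl⟩ := hdecG h hh
    have e : g * (u * c) * g⁻¹ = (g * u * g⁻¹) * (g * c * g⁻¹) := by group
    rw [e]
    exact H.mul_mem (hPH ((Subgroup.mem_normalizer_iff.mp hg u).mp hu)) (hCH (hCn g hg c hc))
  haveI hPKn : (P.subgroupOf K).Normal := normal_subgroupOf_of_le_normalizer (P := P) (H := K) le_rfl
  haveI hHKn : (H.subgroupOf K).Normal := ⟨fun n hn g => by
    rw [Subgroup.mem_subgroupOf] at hn ⊢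
    exact hHn g g.2 n hn⟩
  set ι := Subgroup.subgroupOfEquivOfLe hHK with hι
  set bK : Set (IrrCharacter (H.subgroupOf K)) := irrMap ι.symm '' b with hbK
  have hbKb : IsPBlock M bK := isPBlock_image _ hb
  -- conjugation formula
  have hconjv : ∀ (g : K) (θ₀ : IrrCharacter H) (h : H),
      (irrMap ι (conjIrr (H.subgroupOf K) g (irrMap ι.symm θ₀))).1 h =
        θ₀.1 ⟨g * h * (g : G)⁻¹, hHn g g.2 h h.2⟩ := by
    intro g θ₀ h
    rw [irrMap_apply, conjIrr_apply, irrMap_apply, MulEquiv.symm_symm]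
    rfl
  have hTKc : ∀ g : K, g ∈ T.subgroupOf K ↔ ∀ θ ∈ bK, conjIrr (H.subgroupOf K) g θ ∈ bK := by
    intro g
    rw [Subgroup.mem_subgroupOf]
    have hginv : (g : G) ∈ T ↔ (g : G)⁻¹ ∈ T := (T.inv_mem_iff).symm
    rw [hginv, hT]
    constructor
    · rintro ⟨-, hall⟩ _ ⟨θ₀, hθ₀, rfl⟩
      have h1 := hall θ₀ hθ₀ (irrMap ι (conjIrr (H.subgroupOf K) g (irrMap ι.symm θ₀))) (by
        intro h h' hh'
        rw [hconjv]
        refine congrArg θ₀.1 (Subtype.ext ?_)
        simp only [inv_inv] at hh'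
        show (g : G) * h' * (g : G)⁻¹ = h
        rw [hh']
        group)
      refine ⟨_, h1, ?_⟩
      exact irrMap_symm_irrMap _ _ |>.trans rfl
    · intro hall
      refine ⟨K.inv_mem g.2, ?_⟩
      intro θ₀ hθ₀ θ' hθ'
      obtain ⟨θ'', hθ'', he⟩ := hall _ ⟨θ₀, hθ₀, rfl⟩
      have h2 : θ'' = irrMap ι (conjIrr (H.subgroupOf K) g (irrMap ι.symm θ₀)) := by
        rw [← he]
        exact (irrMap_irrMap_symm ι θ'').symm
      have h3 : θ' = θ'' := by
        apply Subtype.ext
        funext x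
        rw [h2, hconjv]
        have := hθ' ⟨g * x * (g : G)⁻¹, hHn g g.2 x x.2⟩ x (by
          simp only [inv_inv]
          group)
        exact this
      rw [h3]
      exact hθ''
  have hHTK : H.subgroupOf K ≤ T.subgroupOf K := by
    intro h hh
    rw [hTKc]
    rintro _ ⟨θ₀, hθ₀, rfl⟩
    have : conjIrr (H.subgroupOf K) h (irrMap ι.symm θ₀) = irrMap ι.symm θ₀ := by
      apply Subtype.ext
      funext x
      rw [conjIrr_apply]
      have := isClassFunction_of_isCharacter (isCharacter_of_irr (irrMap ι.symm θ₀).2) x ⟨h, hh⟩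
      rw [← this]
      refine congrArg (irrMap ι.symm θ₀).1 (Subtype.ext ?_)
      rfl
    rw [this]
    exact ⟨θ₀, hθ₀, rfl⟩
  have hPKp : IsPGroup p (P.subgroupOf K) := hP.comap_of_injective K.subtype (Subgroup.subtype_injective K)
  have hPHK : P.subgroupOf K ≤ H.subgroupOf K := fun x hx =>
    Subgroup.mem_subgroupOf.mpr (hPH (Subgroup.mem_subgroupOf.mp hx))
  have hCHK : Subgroup.centralizer ((P.subgroupOf K : Subgroup K) : Set K) ≤ H.subgroupOf K := by
    intro m hm
    rw [Subgroup.mem_subgroupOf]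
    apply hCH
    rw [Subgroup.mem_centralizer_iff]
    intro x hx
    have := Subgroup.mem_centralizer_iff.mp hm ⟨x, hPK hx⟩ (Subgroup.mem_subgroupOf.mpr hx)
    exact congrArg Subtype.val this
  have hdecK : ∀ h ∈ H.subgroupOf K, ∃ u ∈ P.subgroupOf K,
      ∃ c ∈ Subgroup.centralizer ((P.subgroupOf K : Subgroup K) : Set K), h = u * c := by
    intro h hh
    obtain ⟨u, hu, c, hc, he⟩ := hdecG _ (Subgroup.mem_subgroupOf.mp hh)
    refine ⟨⟨u, hPK hu⟩, Subgroup.mem_subgroupOf.mpr hu, ⟨c, hCK hc⟩, ?_, Subtype.ext he⟩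
    rw [Subgroup.mem_centralizer_iff]
    intro x hx
    apply Subtype.ext
    exact Subgroup.mem_centralizer_iff.mp hc _ (Subgroup.mem_subgroupOf.mp hx)
  have hminK : minExp p bK = ((P.subgroupOf K).subgroupOf (H.subgroupOf K)).index.factorization p := by
    rw [hbK, minExp_image, minExp_eq_index hM hb hbP]
    have e1 : ((P.subgroupOf K).subgroupOf (H.subgroupOf K)).index = (P.subgroupOf K).relIndex (H.subgroupOf K) := rfl
    have e2 : (P.subgroupOf H).index = P.relIndex H := rfl
    rw [e1, e2, Subgroup.relIndex_subgroupOf hHK]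
  obtain ⟨θ₀, hθ₀⟩ := block_nonempty hb
  obtain ⟨χ₀, hχ₀⟩ := exists_above (irrMap ι.symm θ₀)
  set B₀ : Set (IrrCharacter K) := blockOf M χ₀.1 with hB₀
  have hB₀b : IsPBlock M B₀ := isBlock_blockOf χ₀
  have hcovK : ∃ χ ∈ B₀, ∃ θ ∈ bK, ∑ n : H.subgroupOf K, conj (θ.1 n) * χ.1 n ≠ 0 :=
    ⟨χ₀, self_mem_blockOf χ₀, _, ⟨θ₀, hθ₀, rfl⟩, hχ₀⟩
  have hindK : IsInducedBlock M (H.subgroupOf K) bK B₀ :=
    cover_induced_of_centralizer hM (P.subgroupOf K) hPKp hCHK hbKb hB₀b hcovK
  have hmainK := defect_normal_iff hM hPKp hPHK hCHK hdecK hHTK hbKb hminK hTKc hB₀b hcovK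
  have hrel : (H.subgroupOf K).relIndex (T.subgroupOf K) = H.relIndex T :=
    Subgroup.relIndex_subgroupOf hTK
  rw [hrel] at hmainK
  rw [← hmainK]
  constructor
  · intro hD
    obtain ⟨B₁, hB₁⟩ := exists_induced_between hCK hM hP hPK le_rfl hB₀b
    have h1 := induced_trans hHK hb hindK hB₁
    have h2 := induced_unique' hind h1
    rw [h2] at hB₁
    exact defect_of_induced_between hM hP hPK le_rfl hB₁ hD
  · intro hD
    obtain ⟨B₁, -, hD₁, hB₁⟩ := first_main_one hM hP hB₀b hD
    have h1 := induced_trans hHK hb hindK hB₁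
    have h2 := induced_unique' hind h1
    rw [← h2]
    exact hD₁

end Cfsg.Agent.H21
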