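import Cfsg.Agent.Lib.H21.ElemExt
import Cfsg.Agent.Lib.H04.Cliff.Extend

/-!
# Extension of invariant characters through elementary subgroups
-/

set_option autoImplicit false
set_option linter.unusedSectionVars false
set_option linter.style.haveILetI false
set_option linter.unusedSimpArgs false
set_option linter.unusedVariables false

namespace Cfsg.Agent.H21.DadeE

open Cfsg Cfsg.Agent.H21 Cfsg.Agent.H04.Cliff Module
open scoped ComplexConjugate commutatorElement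

universe u

section Glue

/-- Gluing a hom on `K` and an invariant hom on the normal `M` when `K ⊔ M = ⊤`. -/
theorem glue_hom {Γ : Type*} [Group Γ] {A : Type*} [CommGroup A] (K M : Subgroup Γ) [hM : M.Normal]
    (hKM : K ⊔ M = ⊤) (f : M →* A)
    (hinv : ∀ (g : Γ) (m : M), f ⟨g * m * g⁻¹, hM.conj_mem m m.2 g⟩ = f m)
    (ν : K →* A) (hν : ∀ (y : Γ) (hK : y ∈ K) (hN : y ∈ M), ν ⟨y, hK⟩ = f ⟨y, hN⟩) :
    ∃ Λ : Γ →* A, ∀ m : M, Λ m = f m := by
  classical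
  have hdec : ∀ g : Γ, ∃ k : K, ∃ n : M, g = k * n := by
    intro g
    have h1 : g ∈ K ⊔ M := by rw [hKM]; exact Subgroup.mem_top g
    obtain ⟨y, hy, d, hd, hyd⟩ := Subgroup.mem_sup_of_normal_right.1 h1
    exact ⟨⟨y, hy⟩, ⟨d, hd⟩, hyd.symm⟩
  choose k n hkn using hdec
  have hwell : ∀ (a : K) (b : M) (a' : K) (b' : M), (a : Γ) * b = a' * b' →
      ν a * f b = ν a' * f b' := by
    intro a b a' b' h
    have h1 : ((a' : Γ))⁻¹ * a = b' * (b : Γ)⁻¹ := by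
      calc ((a' : Γ))⁻¹ * a = (a' : Γ)⁻¹ * (a * b) * (b : Γ)⁻¹ := by group
        _ = _ := by rw [h]; group
    have hK : ((a' : Γ))⁻¹ * a ∈ K := K.mul_mem (K.inv_mem a'.2) a.2
    have hM' : ((a' : Γ))⁻¹ * a ∈ M := h1 ▸ M.mul_mem b'.2 (M.inv_mem b.2)
    have h2 := hν _ hK hM'
    have h3 : (⟨((a' : Γ))⁻¹ * a, hK⟩ : K) = a'⁻¹ * a := rfl
    have h4 : (⟨((a' : Γ))⁻¹ * a, hM'⟩ : M) = b' * b⁻¹ := by
      apply Subtype.ext; exact h1
    rw [h3, h4, map_mul, map_mul, map_inv, map_inv] at h2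
    calc ν a * f b = ν a' * ((ν a')⁻¹ * ν a) * f b := by simp
      _ = ν a' * (f b' * (f b)⁻¹) * f b := by rw [h2]
      _ = ν a' * f b' := by simp [mul_assoc]
  let Λ : Γ → A := fun g => ν (k g) * f (n g)
  have hΛ : ∀ (a : K) (b : M), Λ ((a : Γ) * b) = ν a * f b := fun a b =>
    hwell _ _ _ _ (hkn _).symm
  refine ⟨MonoidHom.mk' Λ ?_, ?_⟩
  · intro g h
    have hg := hkn g
    have hh := hkn h
    have hb : (k h : Γ)⁻¹ * (n g : Γ) * ((k h : Γ)⁻¹)⁻¹ ∈ M :=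
      hM.conj_mem _ (n g).2 _
    let c : M := ⟨(k h : Γ)⁻¹ * (n g : Γ) * ((k h : Γ)⁻¹)⁻¹, hb⟩
    have h1 : g * h = ((k g * k h : K) : Γ) * ((c * n h : M) : Γ) := by
      conv_lhs => rw [hg, hh]
      simp only [Subgroup.coe_mul, c]
      group
    rw [h1, hΛ]
    have h2 : f c = f (n g) := hinv _ _
    show _ = Λ g * Λ h
    have h3 : Λ g = ν (k g) * f (n g) := rfl
    have h4 : Λ h = ν (k h) * f (n h) := rfl
    rw [h3, h4, map_mul, map_mul, h2]
    exact mul_mul_mul_comm _ _ _ _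
  · intro m
    have h1 := hΛ 1 m
    simp only [OneMemClass.coe_one, one_mul, map_one] at h1
    exact h1

/-- Extension of a character along an injection into a commutative finite group. -/
theorem ext_along_inj {A B : Type*} [Group A] [Group B] [Finite B] (j : A →* B)
    (hj : Function.Injective j) (hB : ∀ a b : B, a * b = b * a) (ψ : A →* ℂˣ) :
    ∃ Ψ : B →* ℂˣ, ∀ a, Ψ (j a) = ψ a := by
  let e : A ≃* j.range := MonoidHom.ofInjective hj
  obtain ⟨Λ, hΛ⟩ := exists_ext_of_comm j.range (ψ.comp e.symm.toMonoidHom) (fun x hx => by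
    have h1 : (x : B) = 1 := by
      have h2 : commutator B = ⊥ := by
        rw [commutator_def, Subgroup.commutator_eq_bot_iff_le_centralizer]
        intro a _
        rw [Subgroup.mem_centralizer_iff]
        intro b _
        exact hB b a
      rw [h2] at hx
      exact hx
    have h3 : x = 1 := Subtype.ext h1
    rw [h3, map_one])
  refine ⟨Λ, fun a => ?_⟩
  have h1 := hΛ (e a)
  have h2 : ((e a : j.range) : B) = j a := rfl
  rw [h2] at h1
  rw [h1]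
  simp

end Glue

section Rep

variable {G : Type u} [Group G] {N : Subgroup G} [hN : N.Normal]
  {W : Type*} [AddCommGroup W] [Module ℂ W] [FiniteDimensional ℂ W]

/-- The isotypic part. -/
def isoSp (ρ : Representation ℂ N W) (E : Subgroup G) (ψ : ↥(E ⊓ N) →* ℂˣ) : Submodule ℂ W where
  carrier := {w | ∀ d : ↥(E ⊓ N), ρ ⟨d, d.2.2⟩ w = (ψ d : ℂ) • w}
  add_mem' := by
    intro a b ha hb d
    rw [map_add, ha d, hb d, smul_add]
  zero_mem' := by
    intro d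
    simp
  smul_mem' := by
    intro c a ha d
    rw [map_smul, ha d, smul_comm]

theorem mem_isoSp {ρ : Representation ℂ N W} {E : Subgroup G} {ψ : ↥(E ⊓ N) →* ℂˣ} {w : W} :
    w ∈ isoSp ρ E ψ ↔ ∀ d : ↥(E ⊓ N), ρ ⟨d, d.2.2⟩ w = (ψ d : ℂ) • w := Iff.rfl

variable {ρ : Representation ℂ N W} {E : Subgroup G} {ψ : ↥(E ⊓ N) →* ℂˣ}

/-- Elements over `E` preserve the isotypic part. -/
theorem gam_maps (hc : ∀ d ∈ E ⊓ N, ∀ e ∈ E, d * e = e * d) (y : GamH N ρ E) {w : W}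
    (hw : w ∈ isoSp ρ E ψ) : (y.1.1.1 : Module.End ℂ W) w ∈ isoSp ρ E ψ := by
  intro d
  have h1 := y.1.2.2 ⟨d, d.2.2⟩
  have h2 : cj N y.1.1.2 ⟨d, d.2.2⟩ = ⟨d, d.2.2⟩ := by
    apply Subtype.ext
    show y.1.1.2 * (d : G) * y.1.1.2⁻¹ = d
    have h7 : (d : G) * y.1.1.2 = y.1.1.2 * d := hc d d.2 _ y.2
    rw [← h7]
    group
  rw [h2] at h1
  have h3 := congrArg (fun T : Module.End ℂ W => T w) h1
  simp only [Module.End.mul_apply] at h3
  rw [← h3, hw d, map_smul]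

/-- Restriction to the isotypic part. -/
def resSp (hc : ∀ d ∈ E ⊓ N, ∀ e ∈ E, d * e = e * d) :
    GamH N ρ E →* Module.End ℂ (isoSp ρ E ψ) where
  toFun y := LinearMap.restrict (y.1.1.1 : Module.End ℂ W) (fun _ hw => gam_maps hc y hw)
  map_one' := by
    ext w
    rfl
  map_mul' a b := by
    ext w
    rfl

/-- The map `Ê → E`. -/
def cE : GamH N ρ E →* E where
  toFun y := ⟨y.1.1.2, y.2⟩
  map_one' := rfl
  map_mul' _ _ := rfl

/-- The hom on `Ê`. -/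
noncomputable def nuE (hc : ∀ d ∈ E ⊓ N, ∀ e ∈ E, d * e = e * d) (μ : E →* ℂˣ) :
    GamH N ρ E →* ℂˣ :=
  MonoidHom.toHomUnits ((LinearMap.det : Module.End ℂ (isoSp ρ E ψ) →* ℂ).comp (resSp hc)) *
    ((μ.comp cE) ^ finrank ℂ (isoSp ρ E ψ))⁻¹

variable [Finite G]

theorem nuE_eq (hρ : ρ.IsIrreducible) (hc : ∀ d ∈ E ⊓ N, ∀ e ∈ E, d * e = e * d) (μ : E →* ℂˣ)
    (hμ : ∀ d : ↥(E ⊓ N), μ ⟨d, d.2.1⟩ = ψ d) (y : Gam N ρ) (hE : y ∈ GamH N ρ E)
    (hN' : y ∈ GamH N ρ N) :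
    nuE (ρ := ρ) (ψ := ψ) hc μ ⟨y, hE⟩ = (phi hρ ^ finrank ℂ (isoSp ρ E ψ)) ⟨y, hN'⟩ := by
  have hsp := phi_spec hρ ⟨y, hN'⟩
  let d : ↥(E ⊓ N) := ⟨y.1.2, hE, hN'⟩
  have hres : resSp (ρ := ρ) (ψ := ψ) hc ⟨y, hE⟩ =
      (((phi hρ ⟨y, hN'⟩ : ℂˣ) : ℂ) * (ψ d : ℂ)) • (LinearMap.id : Module.End ℂ (isoSp ρ E ψ)) := by
    ext w
    show (y.1.1 : Module.End ℂ W) w.1 = _
    have h1 : (y.1.1 : Module.End ℂ W) w.1 =
        ((phi hρ ⟨y, hN'⟩ : ℂˣ) : ℂ) • ρ ⟨y.1.2, hN'⟩ w.1 := by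
      have := congrArg (fun T : Module.End ℂ W => T w.1) hsp
      simpa using this
    have h2 := w.2 d
    have h3 : ρ ⟨y.1.2, hN'⟩ w.1 = (ψ d : ℂ) • w.1 := h2
    rw [h1, h3, smul_smul]
    rfl
  apply Units.ext
  have hμd : μ (cE (⟨y, hE⟩ : GamH N ρ E)) = ψ d := hμ d
  simp only [nuE, MonoidHom.mul_apply, MonoidHom.inv_apply, MonoidHom.pow_apply,
    MonoidHom.comp_apply, Units.val_mul, MonoidHom.coe_toHomUnits, hμd, Units.val_inv_eq_inv_val,
    Units.val_pow_eq_pow_val, hres]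
  rw [LinearMap.det_smul, LinearMap.det_id, mul_one, mul_pow, mul_assoc, mul_inv_cancel₀, mul_one]
  exact pow_ne_zero _ (Units.ne_zero _)

/-- The extension theorem. -/
theorem extends_of_iso (hρ : ρ.IsIrreducible)
    (hinv : ∀ (g : G) (n : N), ρ.character (cj N g n) = ρ.character n)
    {p : ℕ} (hp : p.Prime) {k : ℕ} (hk : N.index = p ^ k) (hEN : E ⊔ N = ⊤)
    (hc : ∀ d ∈ E ⊓ N, ∀ e ∈ E, d * e = e * d) (μ : E →* ℂˣ)
    (hμ : ∀ d : ↥(E ⊓ N), μ ⟨d, d.2.1⟩ = ψ d) (hm : ¬ p ∣ finrank ℂ (isoSp ρ E ψ)) :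
    ∃ τ : Representation ℂ G W, τ.IsIrreducible ∧ ∀ n : N, τ n = ρ n := by
  haveI := Gam_finite hρ hinv
  refine extends_of_comm hρ hinv fun x hx => ?_
  set m := finrank ℂ (isoSp ρ E ψ) with hmdef
  have hsup : GamH N ρ E ⊔ GamH N ρ N = ⊤ := by
    have h1 := Subgroup.comap_sup_eq (prj N ρ) E N (prj_surjective hρ hinv)
    unfold GamH
    rw [h1, hEN, Subgroup.comap_top]
  obtain ⟨Λ, hΛ⟩ := glue_hom (GamH N ρ E) (GamH N ρ N) hsup (phi hρ ^ m)
    (fun g n => by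
      simp only [MonoidHom.pow_apply]
      rw [phi_inv hρ g n])
    (nuE (ρ := ρ) (ψ := ψ) hc μ) (fun y hE hN' => nuE_eq hρ hc μ hμ y hE hN')
  have h1 : phi hρ x ^ m = 1 := by
    have h2 := hΛ x
    rw [map_commutator_eq_one Λ hx] at h2
    exact h2.symm
  have h5 : phi hρ x ^ N.index = 1 := by
    have := pow_index_eq_one (GamH N ρ N) (phi hρ) (phi_inv hρ) (GamH N ρ N) le_rfl
      (phi hρ) (fun m => rfl) x hx
    rwa [index_GamH hρ hinv] at this
  have hcop : Nat.Coprime N.index m := by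
    rw [hk]
    exact Nat.Coprime.pow_left _ ((Nat.Prime.coprime_iff_not_dvd hp).2 hm)
  have h6 : orderOf (phi hρ x) = 1 :=
    Nat.eq_one_of_dvd_coprimes hcop (orderOf_dvd_of_pow_eq_one h5) (orderOf_dvd_of_pow_eq_one h1)
  exact orderOf_eq_one_iff.mp h6

end Rep

section Dim

variable {G : Type u} [Group G] [Finite G] {N : Subgroup G} [hN : N.Normal]
  {W : Type*} [AddCommGroup W] [Module ℂ W] [FiniteDimensional ℂ W]
  {ρ : Representation ℂ N W} {E : Subgroup G} {ψ : ↥(E ⊓ N) →* ℂˣ}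

theorem conj_units {A : Type*} [Group A] [Finite A] (ψ : A →* ℂˣ) (a : A) :
    conj (ψ a : ℂ) = (ψ a⁻¹ : ℂ) := by
  have h1 : (ψ a : ℂ) ^ (Nat.card A) = 1 := by
    rw [← Units.val_pow_eq_pow_val, ← map_pow, pow_card_eq_one', map_one, Units.val_one]
  have h2 := Complex.norm_eq_one_of_pow_eq_one h1 Nat.card_pos.ne'
  rw [← Complex.inv_eq_conj h2, map_inv, Units.val_inv_eq_inv_val]

theorem finrank_isoSp [Fintype ↥(E ⊓ N)] :
    (finrank ℂ (isoSp ρ E ψ) : ℂ) = (Nat.card ↥(E ⊓ N) : ℂ)⁻¹ *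
      ∑ d : ↥(E ⊓ N), ρ.character ⟨d, d.2.2⟩ * conj (ψ d : ℂ) := by
  classical
  let c : ℂ := (Nat.card ↥(E ⊓ N) : ℂ)⁻¹
  let e : Module.End ℂ W := c • ∑ d : ↥(E ⊓ N), conj (ψ d : ℂ) • ρ ⟨d, d.2.2⟩
  have hcard : c * (Fintype.card ↥(E ⊓ N) : ℂ) = 1 := by
    simp only [c]
    rw [Nat.card_eq_fintype_card]
    exact inv_mul_cancel₀ (Nat.cast_ne_zero.mpr Fintype.card_ne_zero)
  have hproj : LinearMap.IsProj (isoSp ρ E ψ) e := by
    refine ⟨fun w d₀ => ?_, fun w hw => ?_⟩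
    · simp only [e, LinearMap.smul_apply, LinearMap.sum_apply, map_smul, map_sum]
      rw [smul_comm (ψ d₀ : ℂ) c]
      congr 1
      rw [Finset.smul_sum]
      refine Fintype.sum_equiv (Equiv.mulLeft d₀) _ _ fun d => ?_
      have h1 : (Equiv.mulLeft d₀) d = d₀ * d := rfl
      rw [h1]
      have h2 : conj (ψ (d₀ * d) : ℂ) = conj (ψ d₀ : ℂ) * conj (ψ d : ℂ) := by
        rw [map_mul, Units.val_mul, map_mul]
      have h3 : (ψ d₀ : ℂ) * conj (ψ d₀ : ℂ) = 1 := by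
        rw [conj_units, ← Units.val_mul, ← map_mul, mul_inv_cancel, map_one, Units.val_one]
      have h4 : (⟨((d₀ * d : ↥(E ⊓ N)) : G), (d₀ * d).2.2⟩ : N) = ⟨d₀, d₀.2.2⟩ * ⟨d, d.2.2⟩ := rfl
      rw [h2, h4, map_mul, smul_smul]
      have h5 : (ψ d₀ : ℂ) * (conj (ψ d₀ : ℂ) * conj (ψ d : ℂ)) = conj (ψ d : ℂ) := by
        rw [← mul_assoc, h3, one_mul]
      rw [h5]
      rfl
    · simp only [e, LinearMap.smul_apply, LinearMap.sum_apply]
      have h1 : ∀ d : ↥(E ⊓ N), conj (ψ d : ℂ) • ρ ⟨d, d.2.2⟩ w = w := by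
        intro d
        rw [hw d, smul_smul, conj_units, ← Units.val_mul, ← map_mul, inv_mul_cancel, map_one,
          Units.val_one, one_smul]
      simp only [h1, Finset.sum_const, Finset.card_univ]
      rw [← Nat.cast_smul_eq_nsmul ℂ, smul_smul, hcard, one_smul]
  have h := hproj.trace
  rw [← h]
  simp only [e, map_smul, map_sum, smul_eq_mul, c]
  congr 1
  refine Finset.sum_congr rfl fun d _ => ?_
  rw [mul_comm]
  rfl

end Dim

section Grp

variable {G : Type u} [Group G] [Fintype G] {p : ℕ} [hp : Fact p.Prime] {N : Subgroup G}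
  [hN : N.Normal]

theorem elem_struct {k : ℕ} (hk : N.index = p ^ k) (P : Sylow p G) (E : Subgroup G)
    (hE : IsElementary p E) :
    ∃ (x : E) (Q : Subgroup E) (g : G), x ∈ Subgroup.center E ∧ (x : G) ∈ N ∧
      (∀ y ∈ Q, g⁻¹ * (y : G) * g ∈ (P : Subgroup G)) ∧
      ∀ y : E, ∃ a ∈ Subgroup.zpowers x, ∃ q ∈ Q, y = a * q := by
  classical
  obtain ⟨x, hxc, hxo, j, hj⟩ := hE
  have hpp := hp.out
  obtain ⟨Q⟩ : Nonempty (Sylow p E) := inferInstance
  have hQG : IsPGroup p ((Q : Subgroup E).map E.subtype) := Q.isPGroup'.map E.subtype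
  obtain ⟨R, hR⟩ := hQG.exists_le_sylow
  obtain ⟨g, hg⟩ := MulAction.exists_smul_eq G P R
  refine ⟨x, Q, g, hxc, ?_, ?_, ?_⟩
  · have h1 : (x : G) ^ (p ^ k) ∈ N := hk ▸ Subgroup.pow_index_mem N x.1
    have hco : (p ^ k).Coprime (orderOf (x : G)) := by
      rw [Subgroup.orderOf_coe]
      exact Nat.Coprime.pow_left k hxo.symm
    obtain ⟨m, hm⟩ := exists_pow_eq_self_of_coprime hco
    rw [← hm]
    exact N.pow_mem h1 m
  · intro y hy
    have h1 : (y : G) ∈ (R : Subgroup G) := hR ⟨y, hy, rfl⟩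
    rw [← hg, Sylow.coe_subgroup_smul, Subgroup.mem_pointwise_smul_iff_inv_smul_mem] at h1
    have h2 : (MulAut.conj g)⁻¹ • (y : G) = g⁻¹ * y * g := by
      rw [MulAut.smul_def, MulAut.conj_inv_apply]
    rwa [h2] at h1
  · haveI hCn : (Subgroup.zpowers x).Normal := by
      constructor
      rintro n ⟨i, rfl⟩ g
      have h1 : Commute g x := (Subgroup.mem_center_iff.1 hxc g)
      have h2 : g * (fun z : ℤ => x ^ z) i * g⁻¹ = x ^ i := by
        show g * x ^ i * g⁻¹ = x ^ i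
        rw [(h1.zpow_right i).eq]
        group
      rw [h2]
      exact ⟨i, rfl⟩
    have h1 : ((Q : Subgroup E) ⊔ Subgroup.zpowers x).index ∣ (Q : Subgroup E).index :=
      Subgroup.index_dvd_of_le le_sup_left
    have h2 : ((Q : Subgroup E) ⊔ Subgroup.zpowers x).index ∣ (Subgroup.zpowers x).index :=
      Subgroup.index_dvd_of_le le_sup_right
    rw [hj] at h2
    obtain ⟨i, -, hi⟩ := (Nat.dvd_prime_pow hpp).1 h2
    have h3 : ((Q : Subgroup E) ⊔ Subgroup.zpowers x).index = 1 := by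
      rcases i with _ | i
      · simpa using hi
      · exfalso
        rw [hi, pow_succ] at h1
        exact Q.not_dvd_index ((Dvd.intro_left _ rfl).trans h1)
    have h4 : (Q : Subgroup E) ⊔ Subgroup.zpowers x = ⊤ := Subgroup.index_eq_one.1 h3
    intro y
    have h5 : y ∈ (Q : Subgroup E) ⊔ Subgroup.zpowers x := by
      rw [h4]
      exact Subgroup.mem_top y
    obtain ⟨q, hq, a, ha, hy⟩ := Subgroup.mem_sup_of_normal_right.1 h5
    refine ⟨a, ha, q, hq, ?_⟩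
    rw [← hy]
    obtain ⟨i, rfl⟩ := ha
    have h6 : Commute q x := (Subgroup.mem_center_iff.1 hxc q)
    exact (h6.zpow_right i).eq

theorem elem_central {k : ℕ} (hk : N.index = p ^ k) (P : Sylow p G)
    (hcent : ∀ x ∈ (P : Subgroup G) ⊓ N, ∀ y ∈ (P : Subgroup G), x * y = y * x) (E : Subgroup G)
    (hE : IsElementary p E) : ∀ d ∈ E ⊓ N, ∀ e ∈ E, d * e = e * d := by
  intro d hd e he
  obtain ⟨x, Q, g, hxc, hxN, hQ, hdec⟩ := elem_struct hk P E hE
  obtain ⟨a, ha, q, hq, hdq⟩ := hdec ⟨d, hd.1⟩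
  obtain ⟨b, hb, r, hr, her⟩ := hdec ⟨e, he⟩
  have hcen : ∀ a ∈ Subgroup.zpowers x, ∀ z : E, Commute a z := by
    rintro a ⟨i, rfl⟩ z
    have h6 : Commute x z := ((Subgroup.mem_center_iff.1 hxc z).symm)
    exact h6.zpow_left i
  have haN : (a : G) ∈ N := by
    obtain ⟨i, rfl⟩ := ha
    show ((x ^ i : E) : G) ∈ N
    rw [Subgroup.coe_zpow]
    exact N.zpow_mem hxN i
  have hqN : (q : G) ∈ N := by
    have h1 : d = a * q := congrArg Subtype.val hdq
    have h2 : (q : G) = (a : G)⁻¹ * d := by rw [h1]; group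
    rw [h2]
    exact N.mul_mem (N.inv_mem haN) hd.2
  have h1 : g⁻¹ * (q : G) * g ∈ (P : Subgroup G) ⊓ N :=
    ⟨hQ q hq, by simpa using hN.conj_mem _ hqN g⁻¹⟩
  have h2 := hcent _ h1 _ (hQ r hr)
  have h3 : (q : G) * r = r * q := by
    have h4 : g⁻¹ * ((q : G) * r) * g = g⁻¹ * (r * q) * g := by
      calc g⁻¹ * ((q : G) * r) * g = (g⁻¹ * q * g) * (g⁻¹ * r * g) := by group
        _ = (g⁻¹ * r * g) * (g⁻¹ * q * g) := h2
        _ = _ := by group
    simpa using h4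
  have h4 : Commute q r := Subtype.ext h3
  have h5 : Commute (a * q) (b * r) := by
    refine Commute.mul_left (Commute.mul_right (hcen a ha b) (hcen a ha r)) ?_
    exact Commute.mul_right ((hcen b hb q).symm) h4
  rw [← hdq, ← her] at h5
  exact congrArg Subtype.val h5.eq

theorem elem_ext {k : ℕ} (hk : N.index = p ^ k) (P : Sylow p G)
    (hcent : ∀ x ∈ (P : Subgroup G) ⊓ N, ∀ y ∈ (P : Subgroup G), x * y = y * x)
    (hlin : ∀ lam : ↥((P : Subgroup G) ⊓ N) → ℂ, IsCharacter ↥((P : Subgroup G) ⊓ N) lam →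
      lam 1 = 1 → ∃ μ : ↥(P : Subgroup G) → ℂ, IsCharacter ↥(P : Subgroup G) μ ∧ μ 1 = 1 ∧
        ∀ x : ↥((P : Subgroup G) ⊓ N), μ ⟨(x : G), x.2.1⟩ = lam x)
    (E : Subgroup G) (hE : IsElementary p E) (ψ : ↥(E ⊓ N) →* ℂˣ) :
    ∃ μ : E →* ℂˣ, ∀ d : ↥(E ⊓ N), μ ⟨d, d.2.1⟩ = ψ d := by
  classical
  obtain ⟨x, Q, g, hxc, hxN, hQ, hdec⟩ := elem_struct hk P E hE
  -- the part of `Q` in `N`
  let A : Subgroup Q := (N.subgroupOf E).subgroupOf Q
  have hAN : ∀ a : A, (((a : Q) : E) : G) ∈ N := fun a => a.2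
  have hAP : ∀ a : A, g⁻¹ * (((a : Q) : E) : G) * g ∈ (P : Subgroup G) ⊓ N := fun a =>
    ⟨hQ _ a.1.2, by simpa using hN.conj_mem _ (hAN a) g⁻¹⟩
  let j : A →* ↥((P : Subgroup G) ⊓ N) :=
    { toFun := fun a => ⟨g⁻¹ * (((a : Q) : E) : G) * g, hAP a⟩
      map_one' := by
        apply Subtype.ext
        simp
      map_mul' := fun a b => by
        apply Subtype.ext
        simp only [Subgroup.coe_mul]
        group }
  have hj : Function.Injective j := by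
    intro a b hab
    have h1 : g⁻¹ * (((a : Q) : E) : G) * g = g⁻¹ * (((b : Q) : E) : G) * g :=
      congrArg Subtype.val hab
    have h2 : (((a : Q) : E) : G) = (((b : Q) : E) : G) := by simpa using h1
    exact Subtype.ext (Subtype.ext (Subtype.ext h2))
  let ψA : A →* ℂˣ := ψ.comp
    { toFun := fun a => ⟨((a : Q) : E), ((a : Q) : E).2, hAN a⟩
      map_one' := rfl
      map_mul' := fun _ _ => rfl }
  have hcm : ∀ a b : ↥((P : Subgroup G) ⊓ N), a * b = b * a := fun a b =>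
    Subtype.ext (hcent a a.2 b b.2.1)
  obtain ⟨Ψ, hΨ⟩ := ext_along_inj j hj hcm ψA
  obtain ⟨μ₀, hμ₀, h1, hext⟩ := hlin (fun x => (Ψ x : ℂ)) (H23.isCharacter_hom Ψ) (by simp)
  let μP : ↥(P : Subgroup G) →* ℂˣ := linU μ₀ hμ₀ h1
  let cq : Q →* ↥(P : Subgroup G) :=
    { toFun := fun y => ⟨g⁻¹ * ((y : E) : G) * g, hQ y y.2⟩
      map_one' := by
        apply Subtype.ext
        simp
      map_mul' := fun a b => by
        apply Subtype.ext
        simp only [Subgroup.coe_mul]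
        group }
  let μQ : Q →* ℂˣ := μP.comp cq
  have hμQ : ∀ a : A, μQ a = ψA a := by
    intro a
    apply Units.ext
    have h2 := hext (j a)
    have h3 := hΨ a
    show μ₀ _ = _
    rw [← h3]
    exact h2
  -- commutators
  have hcomm : commutator E ≤ (commutator Q).map Q.subtype := by
    rw [commutator_def, Subgroup.commutator_le]
    intro u _ v _
    obtain ⟨a, ha, q, hq, rfl⟩ := hdec u
    obtain ⟨b, hb, r, hr, rfl⟩ := hdec v
    have hcen : ∀ a ∈ Subgroup.zpowers x, ∀ z : E, Commute a z := by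
      rintro a ⟨i, rfl⟩ z
      have h6 : Commute x z := ((Subgroup.mem_center_iff.1 hxc z).symm)
      exact h6.zpow_left i
    have h7 : ⁅a * q, b * r⁆ = ⁅q, r⁆ := by
      simp only [commutatorElement_def]
      have h8 := (hcen a ha q).eq
      have h9 := (hcen a ha r).eq
      have h10 := (hcen b hb q).eq
      have h11 := (hcen b hb r).eq
      have h12 := (hcen a ha b).eq
      have h13 := (hcen a ha r).eq
      calc a * q * (b * r) * (a * q)⁻¹ * (b * r)⁻¹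
          = (a * a⁻¹) * (b * b⁻¹) * (q * r * q⁻¹ * r⁻¹) := by
            have hc1 : ∀ z, Commute a z := hcen a ha
            have hc2 : ∀ z, Commute b z := hcen b hb
            have e1 : a * q * (b * r) * (a * q)⁻¹ * (b * r)⁻¹ =
                a * (q * (b * (r * (q⁻¹ * (a⁻¹ * (r⁻¹ * b⁻¹)))))) := by group
            rw [e1]
            have e2 : a * (q * (b * (r * (q⁻¹ * (a⁻¹ * (r⁻¹ * b⁻¹)))))) =
                a * (b * (q * (r * (q⁻¹ * (a⁻¹ * (r⁻¹ * b⁻¹)))))) := by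
              rw [← mul_assoc q b, ← (hc2 q).eq, mul_assoc b q]
            rw [e2]
            have hinva : ∀ z, Commute a⁻¹ z := fun z => (hc1 z).inv_left
            have hinvb : ∀ z, Commute b⁻¹ z := fun z => (hc2 z).inv_left
            have e3 : q * (r * (q⁻¹ * (a⁻¹ * (r⁻¹ * b⁻¹)))) =
                a⁻¹ * (b⁻¹ * (q * r * q⁻¹ * r⁻¹)) := by
              have e4 : a⁻¹ * (b⁻¹ * (q * r * q⁻¹ * r⁻¹)) = (a⁻¹ * b⁻¹) * (q * r * q⁻¹ * r⁻¹) := by
                group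
              rw [e4]
              have hc3 : Commute (a⁻¹ * b⁻¹) (q * r * q⁻¹) :=
                ((hinva _).mul_left (hinvb _))
              have e5 : (a⁻¹ * b⁻¹) * (q * r * q⁻¹ * r⁻¹) = (q * r * q⁻¹) * ((a⁻¹ * b⁻¹) * r⁻¹) := by
                rw [← mul_assoc, hc3.eq, mul_assoc]
              rw [e5]
              have e6 : q * (r * (q⁻¹ * (a⁻¹ * (r⁻¹ * b⁻¹)))) = (q * r * q⁻¹) * (a⁻¹ * (r⁻¹ * b⁻¹)) := by
                group
              rw [e6]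
              congr 1
              rw [mul_assoc, (hinvb r⁻¹).eq]
            rw [e3]
            have e7 : a * b * a⁻¹ * b⁻¹ = 1 := by rw [h12]; group
            calc a * (b * (a⁻¹ * (b⁻¹ * (q * r * q⁻¹ * r⁻¹))))
                = (a * b * a⁻¹ * b⁻¹) * (q * r * q⁻¹ * r⁻¹) := by group
              _ = _ := by rw [e7]; simp
        _ = q * r * q⁻¹ * r⁻¹ := by simp
    rw [h7]
    exact ⟨⁅(⟨q, hq⟩ : Q), (⟨r, hr⟩ : Q)⁆, Subgroup.commutator_mem_commutator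
      (Subgroup.mem_top _) (Subgroup.mem_top _), rfl⟩
  let ψ' : N.subgroupOf E →* ℂˣ := ψ.comp (BrP.infEquiv N E).symm.toMonoidHom
  obtain ⟨μ, hμ⟩ := exists_ext_of_comm (N.subgroupOf E) ψ' (fun y hy => by
    obtain ⟨z, hz, hzy⟩ := hcomm hy
    have hzQ : ((z : Q) : E) = y := hzy
    have hzA : z ∈ A := by
      show ((z : E)) ∈ N.subgroupOf E
      rw [hzQ]
      exact y.2
    have h2 := hμQ ⟨z, hzA⟩
    have h3 : μQ z = 1 := map_commutator_eq_one μQ hz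
    have h4 : ψ' y = ψA ⟨z, hzA⟩ := by
      show ψ _ = ψ _
      congr 1
      apply Subtype.ext
      show ((y : E) : G) = ((z : E) : G)
      rw [hzQ]
    rw [h4, ← h2]
    exact h3)
  refine ⟨μ, fun d => ?_⟩
  have h2 := hμ ⟨⟨d, d.2.1⟩, d.2.2⟩
  exact h2

theorem main_ext (N : Subgroup G) [hN : N.Normal] (hind : ∃ k : ℕ, N.index = p ^ k) (P : Sylow p G)
    (hcent : ∀ x ∈ (P : Subgroup G) ⊓ N, ∀ y ∈ (P : Subgroup G), x * y = y * x)
    (hlin : ∀ lam : ↥((P : Subgroup G) ⊓ N) → ℂ, IsCharacter ↥((P : Subgroup G) ⊓ N) lam →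
      lam 1 = 1 → ∃ μ : ↥(P : Subgroup G) → ℂ, IsCharacter ↥(P : Subgroup G) μ ∧ μ 1 = 1 ∧
        ∀ x : ↥((P : Subgroup G) ⊓ N), μ ⟨(x : G), x.2.1⟩ = lam x)
    (ϑ : N → ℂ) (hϑ : IsIrrCharacter N ϑ)
    (hinv : ∀ (g : G) (n : N), ϑ ⟨g * n * g⁻¹, hN.conj_mem (n : G) n.2 g⟩ = ϑ n) :
    ∃ χ : G → ℂ, IsIrrCharacter G χ ∧ ∀ n : N, χ n = ϑ n := by
  classical
  obtain ⟨k, hk⟩ := hind
  obtain ⟨E, φ, hE, htop, hφ, hφinv, m, hm, hmeq⟩ := BrP.main_elem hp.out N ⟨k, hk⟩ ϑ hϑ hinv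
  have hc := elem_central hk P hcent E hE
  have hcomm : ∀ a b : ↥(E ⊓ N), a * b = b * a := fun a b =>
    Subtype.ext (hc a a.2 b b.2.1)
  have hd := irr_degree_one_of_comm hcomm hφ
  have h1 : φ 1 = 1 := by
    rw [one_eq_charDegree (isCharacter_of_irr hφ), hd]
    simp
  let ψ : ↥(E ⊓ N) →* ℂˣ := linU φ (isCharacter_of_irr hφ) h1
  obtain ⟨μ, hμ⟩ := elem_ext hk P hcent hlin E hE ψ
  obtain ⟨n, ρ, hρ, rfl⟩ := hϑ
  have hinv' := inv_of_char rfl hinv
  have hdim : (finrank ℂ (isoSp ρ E ψ) : ℂ) = m := by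
    rw [finrank_isoSp, ← hmeq, finsum_eq_sum_of_fintype]
    rfl
  have hm' : ¬ p ∣ finrank ℂ (isoSp ρ E ψ) := by
    have h2 : finrank ℂ (isoSp ρ E ψ) = m := by exact_mod_cast hdim
    rwa [h2]
  obtain ⟨τ, hτ, hτN⟩ := extends_of_iso hρ hinv' hp.out hk htop hc μ hμ hm'
  refine ⟨τ.character, isIrrCharacter_of_rep τ hτ, fun x => ?_⟩
  show LinearMap.trace ℂ _ (τ x) = LinearMap.trace ℂ _ (ρ x)
  rw [hτN]

end Grp

end Cfsg.Agent.H21.DadeE
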