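import Cfsg.Agent.Lib.H21.Reynolds

/-!
# Central characters at `p`-elements; characters vanishing on elements of order `p`
-/

set_option autoImplicit false
set_option linter.unusedSectionVars false
set_option linter.style.haveILetI false
set_option linter.unusedSimpArgs false

namespace Cfsg.Agent.H21

open scoped ComplexConjugate
open Cfsg Module Cfsg.Agent.H22

universe u

variable {G : Type u} [Group G] [Finite G]
variable {p : ℕ} [hp : Fact p.Prime] {M : Ideal AlgInt} [hMp : M.IsPrime]

theorem orderOf_conj_aux {K : Type*} [Group K] {a b : K} (h : IsConj a b) : orderOf a = orderOf b := by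
  obtain ⟨u, rfl⟩ := isConj_iff.mp h
  exact (orderOf_injective (MulAut.conj u).toMonoidHom (MulEquiv.injective _) a).symm

/-- A central `p`-element acts by a scalar congruent to `1`. -/
theorem central_value_congr (hM : IsPModular p M) {K : Type*} [Group K] [Finite K]
    (ξ : IrrCharacter K) {h : K} (hh : h ∈ Subgroup.center K) {k : ℕ} (hord : orderOf h = p ^ k) :
    MemLocalIdeal M (ξ.1 h / ξ.1 1 - 1) := by
  have h1 : ξ.1 1 ≠ 0 := irr_one_ne_zero' ξ
  set ζ := ξ.1 h / ξ.1 1 with hζ
  have hpow : ∀ n : ℕ, ξ.1 (h ^ n) = ζ ^ n * ξ.1 1 := by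
    intro n
    induction n with
    | zero => simp
    | succ n ih =>
      have h2 := irr_central_mul ξ.2 hh (h ^ n)
      rw [← irr_one_eq ξ, ← pow_succ', ih] at h2
      have hζ1 : ζ * ξ.1 1 = ξ.1 h := by
        rw [hζ]
        field_simp
      apply mul_right_cancel₀ h1
      rw [h2, pow_succ, ← hζ1]
      ring
  have h3 : ζ ^ (p ^ k) = 1 := by
    have h4 := hpow (p ^ k)
    rw [← hord, pow_orderOf_eq_one, hord] at h4
    have h5 : ξ.1 1 * (ζ ^ p ^ k - 1) = 0 := by
      rw [mul_sub, mul_one, mul_comm]
      rw [← h4]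
      ring
    rcases mul_eq_zero.mp h5 with h6 | h6
    · exact absurd h6 h1
    · exact sub_eq_zero.mp h6
  obtain ⟨hz, hmem⟩ := root_sub_one_mem hM ζ k h3
  have := mli_of_mem hmem
  simpa using this

open scoped Classical in
/-- The fundamental congruence: at a `p`-element `z`, the central character of a block with defect
group `D` counts the conjugates of `z` in `Z(D)`. -/
theorem cc_congr_of_defect (hM : IsPModular p M) {B : Set (IrrCharacter G)} (hB : IsPBlock M B)
    {D : Subgroup G} (hD : IsDefectGroup p M B D) {χ : IrrCharacter G} (hχ : χ ∈ B) {z : G} {k : ℕ}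
    (hz : orderOf z = p ^ k) :
    MemLocalIdeal M (cc z χ - ((Finset.filter (fun h : Subgroup.centralizer (D : Set G) =>
      (h : G) ∈ D ∧ IsConj z (h : G)) Finset.univ).card : ℂ)) := by
  classical
  obtain ⟨e, hmax⟩ := exists_maximal_on_defect hM hD hB
  have hind := induced_of_pair hM hmax.1
  have hde := defect_of_maximal hM hmax
  have he : IsPBlock M e := hind.1
  set Z' : Subgroup (Subgroup.centralizer (D : Set G)) :=
    (D ⊓ Subgroup.centralizer (D : Set G)).subgroupOf (Subgroup.centralizer (D : Set G)) with hZ'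
  have hZp : IsPGroup p Z' := defect_isPGroup hde
  have hZc : Z' ≤ Subgroup.center (Subgroup.centralizer (D : Set G)) := by
    intro t ht
    rw [Subgroup.mem_center_iff]
    intro c
    apply Subtype.ext
    have ht' : (t : G) ∈ D := (Subgroup.mem_subgroupOf.mp ht).1
    exact (Subgroup.mem_centralizer_iff.mp c.2 t ht').symm
  obtain ⟨ξ, hξ, hξmin⟩ := exists_min_height (p := p) he
  have hdeg : (charDegree ξ.1).factorization p = Z'.index.factorization p := by
    rw [hξmin]
    exact minExp_eq_index hM he hde
  have hvan := (defect_of_central hM hZp hZc ξ hdeg).2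
  have h3 := hind.2.2 ξ hξ χ hχ z
  have hregone : ¬ p ∣ orderOf (1 : Subgroup.centralizer (D : Set G)) := by
    rw [orderOf_one]
    exact fun h => hp.out.one_lt.ne' (Nat.dvd_one.mp h)
  have hsum : inducedCentralChar (Subgroup.centralizer (D : Set G)) ξ.1 z -
      ((Finset.filter (fun h : Subgroup.centralizer (D : Set G) =>
      (h : G) ∈ D ∧ IsConj z (h : G)) Finset.univ).card : ℂ) =
      ∑ h : Subgroup.centralizer (D : Set G),
        if (h : G) ∈ D ∧ IsConj z (h : G) then ξ.1 h / ξ.1 1 - 1 else 0 := by
    rw [inducedCentralChar_eq_sum, Finset.card_filter]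
    push_cast
    rw [← Finset.sum_sub_distrib]
    refine Finset.sum_congr rfl fun h _ => ?_
    by_cases hc : IsConj z (h : G)
    · by_cases hD' : (h : G) ∈ D
      · rw [if_pos hc, if_pos ⟨hD', hc⟩, if_pos ⟨hD', hc⟩]
      · rw [if_pos hc, if_neg (fun h' => hD' h'.1), if_neg (fun h' => hD' h'.1)]
        -- `h` is a `p`-element outside `Z'`
        have hordh : orderOf h = p ^ k := by
          rw [← Subgroup.orderOf_coe, ← orderOf_conj_aux hc, hz]
        have hpart : IsPPart p h h :=
          ⟨1, mul_one h, Commute.one_right h, ⟨k, hordh⟩, hregone⟩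
        have hnot : h ∉ Z' := fun hm => hD' (Subgroup.mem_subgroupOf.mp hm).1
        rw [hvan h h hpart hnot]
        simp
    · rw [if_neg hc, if_neg (fun h' => hc h'.2), if_neg (fun h' => hc h'.2)]
      simp
  have h4 : MemLocalIdeal M (inducedCentralChar (Subgroup.centralizer (D : Set G)) ξ.1 z -
      ((Finset.filter (fun h : Subgroup.centralizer (D : Set G) =>
      (h : G) ∈ D ∧ IsConj z (h : G)) Finset.univ).card : ℂ)) := by
    rw [hsum]
    refine mli_sum _ _ fun h _ => ?_
    split_ifs with hc
    · have hordh : orderOf h = p ^ k := by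
        rw [← Subgroup.orderOf_coe, ← orderOf_conj_aux hc.2, hz]
      have hm : h ∈ Z' := Subgroup.mem_subgroupOf.mpr ⟨hc.1, h.2⟩
      exact central_value_congr hM ξ (hZc hm) hordh
    · exact mli_zero
  have h5 := mli_sub h4 h3
  have h6 : (inducedCentralChar (Subgroup.centralizer (D : Set G)) ξ.1 z -
      ((Finset.filter (fun h : Subgroup.centralizer (D : Set G) =>
      (h : G) ∈ D ∧ IsConj z (h : G)) Finset.univ).card : ℂ)) -
      (inducedCentralChar (Subgroup.centralizer (D : Set G)) ξ.1 z - centralChar χ.1 z) =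
      cc z χ - ((Finset.filter (fun h : Subgroup.centralizer (D : Set G) =>
      (h : G) ∈ D ∧ IsConj z (h : G)) Finset.univ).card : ℂ) := by
    unfold cc
    ring
  rwa [h6] at h5

theorem dvd_card_of_fibers {α β : Type*} [DecidableEq β] (T : Finset α) (f : α → β) {p : ℕ}
    (h : ∀ a ∈ T, p ∣ (T.filter fun x => f x = f a).card) : p ∣ T.card := by
  rw [Finset.card_eq_sum_card_image f T]
  refine Finset.dvd_sum fun b hb => ?_
  obtain ⟨a, ha, rfl⟩ := Finset.mem_image.mp hb
  exact h a ha

/-- If `χ` vanishes on the elements of order `p`, then the block of `χ` has defect zero. -/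
theorem defect_eq_bot_of_vanish (hM : IsPModular p M) {B : Set (IrrCharacter G)} (hB : IsPBlock M B)
    {D : Subgroup G} (hD : IsDefectGroup p M B D) {χ : IrrCharacter G} (hχ : χ ∈ B)
    (hvan : ∀ g : G, orderOf g = p → χ.1 g = 0) : D = ⊥ := by
  classical
  by_contra hne
  have hpD : IsPGroup p D := defect_isPGroup hD
  set C := Subgroup.centralizer (D : Set G) with hC
  -- `E`: elements of `D ∩ C` of exponent dividing `p`
  let E : Subgroup C :=
    { carrier := {h : C | (h : G) ∈ D ∧ h ^ p = 1}
      one_mem' := ⟨D.one_mem, one_pow p⟩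
      mul_mem' := by
        rintro a b ⟨ha, ha'⟩ ⟨hb, hb'⟩
        refine ⟨D.mul_mem ha hb, ?_⟩
        have hcomm : Commute a b := by
          apply Subtype.ext
          exact Subgroup.mem_centralizer_iff.mp b.2 a ha
        rw [hcomm.mul_pow, ha', hb', one_mul]
      inv_mem' := by
        rintro a ⟨ha, ha'⟩
        refine ⟨D.inv_mem ha, ?_⟩
        rw [inv_pow, ha', inv_one] }
  have hmemE : ∀ h : C, h ∈ E ↔ (h : G) ∈ D ∧ h ^ p = 1 := fun _ => Iff.rfl
  -- `E` is a nontrivial `p`-group
  have hEp : IsPGroup p E := by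
    intro x
    exact ⟨1, by rw [pow_one]; exact Subtype.ext ((hmemE x.1).mp x.2).2⟩
  haveI hDnt : Nontrivial D := (Subgroup.nontrivial_iff_ne_bot D).mpr hne
  haveI : Nontrivial (Subgroup.center D) := hpD.center_nontrivial
  obtain ⟨t, ht⟩ := exists_ne (1 : Subgroup.center D)
  -- an element of order `p` in the centre
  have hpc : p ∣ Nat.card (Subgroup.center D) := by
    have h1 : IsPGroup p (Subgroup.center D) := hpD.to_subgroup _
    obtain ⟨n, hn⟩ := IsPGroup.iff_card.mp h1
    rw [hn]
    refine dvd_pow_self p ?_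
    rintro rfl
    rw [pow_zero] at hn
    have := Finite.one_lt_card (α := Subgroup.center D)
    omega
  obtain ⟨s, hs⟩ := exists_prime_orderOf_dvd_card' p hpc
  have hsC : ((s : D) : G) ∈ C := by
    rw [hC, Subgroup.mem_centralizer_iff]
    intro w hw
    have := Subgroup.mem_center_iff.mp s.2 ⟨w, hw⟩
    exact congrArg Subtype.val this
  have hordS : orderOf ((s : D) : G) = p := by
    rw [Subgroup.orderOf_coe, Subgroup.orderOf_coe, hs]
  let s' : C := ⟨(s : D), hsC⟩
  have hs'E : s' ∈ E := by
    refine ⟨(s : D).2, ?_⟩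
    apply Subtype.ext
    show ((s : D) : G) ^ p = 1
    rw [← hordS, pow_orderOf_eq_one]
  have hs'ne : s' ≠ 1 := by
    intro h
    have : ((s : D) : G) = 1 := congrArg Subtype.val h
    rw [this, orderOf_one] at hordS
    exact hp.out.one_lt.ne hordS
  have hpE : p ∣ Nat.card E := by
    obtain ⟨n, hn⟩ := IsPGroup.iff_card.mp hEp
    rw [hn]
    refine dvd_pow_self p ?_
    rintro rfl
    rw [pow_zero] at hn
    haveI := (Nat.card_eq_one_iff_unique.mp hn).1
    have : (⟨s', hs'E⟩ : E) = 1 := Subsingleton.elim _ _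
    exact hs'ne (congrArg Subtype.val this)
  -- counting
  let T : Finset C := Finset.filter (fun h : C => (h : G) ∈ D ∧ orderOf (h : G) = p) Finset.univ
  have hcardE : Nat.card E = T.card + 1 := by
    have h1 : (Finset.filter (fun h : C => h ∈ E) Finset.univ) = insert 1 T := by
      ext h
      simp only [Finset.mem_filter, Finset.mem_univ, true_and, Finset.mem_insert, T]
      constructor
      · intro hh
        by_cases h1 : h = 1
        · exact Or.inl h1
        · right
          refine ⟨hh.1, ?_⟩
          rw [Subgroup.orderOf_coe]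
          exact orderOf_eq_prime hh.2 h1
      · rintro (rfl | ⟨h1, h2⟩)
        · exact E.one_mem
        · refine ⟨h1, ?_⟩
          rw [Subgroup.orderOf_coe] at h2
          rw [← h2, pow_orderOf_eq_one]
    have h2 : (1 : C) ∉ T := by
      simp only [Finset.mem_filter, Finset.mem_univ, true_and, T, not_and]
      intro _
      simp only [OneMemClass.coe_one, orderOf_one]
      exact hp.out.one_lt.ne
    rw [← Finset.card_insert_of_notMem h2, ← h1, Nat.card_eq_fintype_card, Fintype.card_subtype]
  have hpT : p ∣ T.card := by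
    refine dvd_card_of_fibers T (fun h : C => ConjClasses.mk (h : G)) fun a ha => ?_
    have ha' := (Finset.mem_filter.mp ha).2
    have hcc := cc_congr_of_defect hM hB hD hχ (z := (a : G)) (k := 1) (by rw [pow_one]; exact ha'.2)
    have hzero : cc (a : G) χ = 0 := by
      unfold cc centralChar
      rw [hvan _ ha'.2, mul_zero, zero_div]
    rw [hzero, zero_sub] at hcc
    have h3 := mli_neg hcc
    rw [neg_neg, mli_natCast_iff hM] at h3
    convert h3 using 2
    ext x
    simp only [Finset.mem_filter, Finset.mem_univ, true_and, T, ConjClasses.mk_eq_mk_iff_isConj]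
    constructor
    · rintro ⟨⟨h1, h2⟩, h4⟩
      exact ⟨h1, h4.symm⟩
    · rintro ⟨h1, h2⟩
      refine ⟨⟨h1, ?_⟩, h2.symm⟩
      rw [← orderOf_conj_aux h2]
      exact ha'.2
  rw [hcardE] at hpE
  have h1 : p ∣ 1 := (Nat.dvd_add_right hpT).mp hpE
  exact hp.out.one_lt.ne' (Nat.dvd_one.mp h1)

/-- `S0928`. -/
theorem factorization_of_vanish (χ : IrrCharacter G) (hvan : ∀ g : G, orderOf g = p → χ.1 g = 0) :
    (charDegree χ.1).factorization p = (Nat.card G).factorization p := by
  obtain ⟨M, hM⟩ := exists_pModular hp.out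
  haveI : M.IsPrime := hM.2.1.isPrime
  have hB := isBlock_blockOf (M := M) χ
  have hχ := self_mem_blockOf (M := M) χ
  obtain ⟨D, hD⟩ := isDefectGroup_exists (p := p) hB
  have hbot := defect_eq_bot_of_vanish hM hB hD hχ hvan
  have hcard := card_defect hM hB hD
  rw [hbot, Subgroup.card_bot] at hcard
  have h0 : blockDefect p (blockOf M χ.1) = 0 := by
    by_contra hne
    have := Nat.one_lt_pow hne hp.out.one_lt
    omega
  rw [blockDefect_eq] at h0
  have h1 := minExp_le (p := p) hχ
  have h2 := (Nat.factorization_le_iff_dvd (irr_charDegree_pos χ.2).ne' Nat.card_pos.ne').2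
    (H22.charDegree_dvd_card χ) p
  omega

end Cfsg.Agent.H21
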