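import Cfsg.Agent.Lib.H21.KleinFour
import Cfsg.Agent.Lib.H21.CentralProd
import Cfsg.Agent.Lib.H21.FirstMain
import Cfsg.Agent.Lib.H21.VanishP

/-!
# 2-blocks of defect one
-/

set_option autoImplicit false
set_option linter.unusedSectionVars false
set_option linter.style.haveILetI false
set_option linter.unusedSimpArgs false

namespace Cfsg.Agent.H21

open scoped ComplexConjugate Pointwise
open Cfsg Module Cfsg.Agent.H22

universe u

section Aux

theorem central_sign {K : Type*} [Group K] [Finite K] (ψ : IrrCharacter K) {z : K}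
    (hz : z ∈ Subgroup.center K) (hzz : z * z = 1) :
    (ψ.1 z = ψ.1 1 ∧ ∀ c, ψ.1 (z * c) = ψ.1 c) ∨ (ψ.1 z = -ψ.1 1 ∧ ∀ c, ψ.1 (z * c) = -ψ.1 c) := by
  have hdeg : ψ.1 1 = (charDegree ψ.1 : ℂ) := one_eq_charDegree (isCharacter_of_irr ψ.2)
  have h1 : ψ.1 1 ≠ 0 := irr_one_ne_zero' ψ
  have hmul : ∀ g, ψ.1 (z * g) * ψ.1 1 = ψ.1 z * ψ.1 g := by
    intro g
    rw [hdeg]
    exact irr_central_mul ψ.2 hz g
  have h2 := hmul z
  rw [hzz] at h2
  have h3 : (ψ.1 z - ψ.1 1) * (ψ.1 z + ψ.1 1) = 0 := by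
    linear_combination -h2
  rcases mul_eq_zero.mp h3 with h4 | h4
  · left
    have h5 : ψ.1 z = ψ.1 1 := sub_eq_zero.mp h4
    refine ⟨h5, fun c => ?_⟩
    have h6 := hmul c
    rw [h5] at h6
    exact mul_right_cancel₀ h1 (by rw [h6]; ring)
  · right
    have h5 : ψ.1 z = -ψ.1 1 := eq_neg_of_add_eq_zero_left h4
    refine ⟨h5, fun c => ?_⟩
    have h6 := hmul c
    rw [h5] at h6
    exact mul_right_cancel₀ h1 (by rw [h6]; ring)

theorem exists_other_of_card_two {α : Type*} {s : Set α} (h : Nat.card s = 2) {a : α} (ha : a ∈ s) :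
    ∃ a' ∈ s, a' ≠ a ∧ ∀ y ∈ s, y = a ∨ y = a' := by
  rw [Nat.card_coe_set_eq, Set.ncard_eq_two] at h
  obtain ⟨u, v, huv, rfl⟩ := h
  rcases ha with rfl | rfl
  · refine ⟨v, by simp, huv.symm, ?_⟩
    rintro y (rfl | rfl)
    · exact Or.inl rfl
    · exact Or.inr rfl
  · refine ⟨u, by simp, huv, ?_⟩
    rintro y (rfl | rfl)
    · exact Or.inr rfl
    · exact Or.inl rfl

/-- Pure combinatorics. -/
theorem sum_sq_eq_two {α : Type*} (T : Finset α) (c : α → ℤ) (h0 : ∀ x ∈ T, c x ≠ 0)
    (h : ∑ x ∈ T, (c x) ^ 2 = 2) : T.card = 2 ∧ ∀ x ∈ T, c x = 1 ∨ c x = -1 := by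
  classical
  have hle : ∀ x ∈ T, (c x) ^ 2 ≤ 2 := by
    intro x hx
    rw [← h]
    exact Finset.single_le_sum (f := fun x => (c x) ^ 2) (fun y _ => sq_nonneg _) hx
  have hpm : ∀ x ∈ T, c x = 1 ∨ c x = -1 := by
    intro x hx
    have h1 := hle x hx
    have h2 := h0 x hx
    have h3 : c x ≤ 1 := by nlinarith
    have h4 : -1 ≤ c x := by nlinarith
    omega
  refine ⟨?_, hpm⟩
  have h5 : ∑ x ∈ T, (c x) ^ 2 = ∑ x ∈ T, (1 : ℤ) := by
    refine Finset.sum_congr rfl fun x hx => ?_
    rcases hpm x hx with h1 | h1 <;> rw [h1] <;> norm_num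
  rw [h5] at h
  simp only [Finset.sum_const, smul_eq_mul, mul_one, Int.nsmul_eq_mul] at h
  exact_mod_cast h

end Aux

section Main

variable {G : Type u} [Group G] [Finite G] {M : Ideal AlgInt} [hMp : M.IsPrime]

theorem mem_zpowers_of_order_two {x : G} (hx : orderOf x = 2) {g : G} (hg : g ∈ Subgroup.zpowers x) :
    g = 1 ∨ g = x := by
  obtain ⟨k, rfl⟩ := Subgroup.mem_zpowers_iff.mp hg
  rw [← zpow_mod_orderOf, hx]
  have h2 : ((2 : ℕ) : ℤ) = 2 := rfl
  rw [h2]
  rcases Int.emod_two_eq_zero_or_one k with h | h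
  · left
    rw [h]
    simp
  · right
    rw [h]
    simp

/-- `x` as an element of its centraliser. -/
def selfC (x : G) : Subgroup.centralizer ({x} : Set G) :=
  ⟨x, Subgroup.mem_centralizer_singleton_iff.mpr rfl⟩

@[simp] theorem selfC_coe (x : G) : ((selfC x : Subgroup.centralizer ({x} : Set G)) : G) = x := rfl

theorem comm_of_centralizer {x : G} (c : Subgroup.centralizer ({x} : Set G)) :
    (c : G) * x = x * c := Subgroup.mem_centralizer_singleton_iff.mp c.2

theorem selfC_central (x : G) : selfC x ∈ Subgroup.center (Subgroup.centralizer ({x} : Set G)) := by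
  rw [Subgroup.mem_center_iff]
  intro c
  exact Subtype.ext (comm_of_centralizer c)

theorem selfC_mul_self {x : G} (hxx : x * x = 1) : selfC x * selfC x = 1 := Subtype.ext hxx

theorem orderOf_selfC (x : G) : orderOf (selfC x) = orderOf x := by
  rw [selfC, Subgroup.orderOf_mk]

theorem normalizer_zpowers_le {x : G} (hx : orderOf x = 2) :
    Subgroup.normalizer ((Subgroup.zpowers x : Subgroup G) : Set G) ≤
      Subgroup.centralizer ({x} : Set G) := by
  have hx1 : x ≠ 1 := by
    rintro rfl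
    simp at hx
  intro n hn
  rw [Subgroup.mem_normalizer_iff] at hn
  have h1 := (hn x).mp (Subgroup.mem_zpowers x)
  rw [Subgroup.mem_centralizer_singleton_iff]
  rcases mem_zpowers_of_order_two hx h1 with h2 | h2
  · exfalso
    rw [mul_inv_eq_one] at h2
    exact hx1 (mul_eq_left.mp h2)
  · rw [mul_inv_eq_iff_eq_mul] at h2
    exact h2

theorem centralizer_le_normalizer_zpowers {x : G} (hx : orderOf x = 2) :
    Subgroup.centralizer ({x} : Set G) ≤
      Subgroup.normalizer ((Subgroup.zpowers x : Subgroup G) : Set G) := by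
  intro c hc
  rw [Subgroup.mem_normalizer_iff]
  intro h
  have h2 : c * x = x * c := Subgroup.mem_centralizer_singleton_iff.mp hc
  constructor
  · intro hh
    rcases mem_zpowers_of_order_two hx hh with rfl | rfl
    · simp
    · have h1 : c * h * c⁻¹ = h := by
        rw [h2, mul_inv_cancel_right]
      rw [h1]
      exact hh
  · intro hh
    rcases mem_zpowers_of_order_two hx hh with h1 | h1
    · rw [mul_inv_eq_one] at h1
      have h3 : h = 1 := mul_eq_left.mp h1
      rw [h3]
      exact Subgroup.one_mem _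
    · rw [mul_inv_eq_iff_eq_mul, ← h2] at h1
      have h3 := mul_left_cancel h1
      rw [h3]
      exact Subgroup.mem_zpowers x

theorem sum_eB_two {K : Type*} [Group K] [Finite K] {b : Set (IrrCharacter K)}
    {θ θ' : IrrCharacter K} (hθ : θ ∈ b) (hθ' : θ' ∈ b) (hne : θ' ≠ θ)
    (h : ∀ ψ ∈ b, ψ = θ ∨ ψ = θ') (f : IrrCharacter K → ℂ) :
    ∑ ψ : IrrCharacter K, eB b ψ * f ψ = f θ + f θ' := by
  classical
  rw [sum_eB_eq_filter]
  have h1 : Finset.univ.filter (· ∈ b) = {θ, θ'} := by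
    ext ψ
    simp only [Finset.mem_filter, Finset.mem_univ, true_and, Finset.mem_insert,
      Finset.mem_singleton]
    constructor
    · exact h ψ
    · rintro (rfl | rfl)
      · exact hθ
      · exact hθ'
  rw [h1, Finset.sum_pair hne.symm]

/-- Local analysis of the block of the centraliser. -/
theorem local_two (hM : IsPModular 2 M) {x : G} (hx : orderOf x = 2)
    {b : Set (IrrCharacter (Subgroup.centralizer ({x} : Set G)))} (hb : IsPBlock M b)
    (hD : IsDefectGroup 2 M b ((Subgroup.zpowers x).subgroupOf (Subgroup.centralizer ({x} : Set G))))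
    {θ : IrrCharacter (Subgroup.centralizer ({x} : Set G))} (hθ : θ ∈ b)
    (hθx : θ.1 (selfC x) = θ.1 1) :
    ∃ θ' ∈ b, θ' ≠ θ ∧ (∀ ψ ∈ b, ψ = θ ∨ ψ = θ') ∧ (∀ c, θ.1 (selfC x * c) = θ.1 c) ∧
      (∀ c, θ'.1 (selfC x * c) = -θ'.1 c) ∧
      ∀ y : Subgroup.centralizer ({x} : Set G), ¬ 2 ∣ orderOf y → θ'.1 y = θ.1 y := by
  classical
  have hxx : x * x = 1 := by rw [← sq, ← hx, pow_orderOf_eq_one]
  have hx1 : x ≠ 1 := by
    rintro rfl
    simp at hx
  have hx₀c : selfC x ∈ Subgroup.center (Subgroup.centralizer ({x} : Set G)) := selfC_central x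
  have hx₀x₀ : selfC x * selfC x = 1 := selfC_mul_self hxx
  have hx₀ord : orderOf (selfC x) = 2 := by rw [orderOf_selfC, hx]
  set P' := (Subgroup.zpowers x).subgroupOf (Subgroup.centralizer ({x} : Set G)) with hP'
  have hP : IsPGroup 2 (Subgroup.zpowers x) := by
    apply IsPGroup.of_card (n := 1)
    rw [Nat.card_zpowers, hx, pow_one]
  have hP'p : IsPGroup 2 P' := hP.comap_subtype
  have hP'mem : ∀ y : Subgroup.centralizer ({x} : Set G), y ∈ P' ↔ y = 1 ∨ y = selfC x := by
    intro y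
    rw [hP', Subgroup.mem_subgroupOf]
    constructor
    · intro h
      rcases mem_zpowers_of_order_two hx h with h1 | h1
      · left
        exact Subtype.ext h1
      · right
        exact Subtype.ext h1
    · rintro (rfl | rfl)
      · exact Subgroup.one_mem _
      · exact Subgroup.mem_zpowers x
  have hP'c : P' ≤ Subgroup.center (Subgroup.centralizer ({x} : Set G)) := by
    intro y hy
    rcases (hP'mem y).mp hy with rfl | rfl
    · exact Subgroup.one_mem _
    · exact hx₀c
  have hG : P' ⊔ Subgroup.centralizer (P' : Set (Subgroup.centralizer ({x} : Set G))) = ⊤ := by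
    rw [eq_top_iff]
    intro c _
    apply Subgroup.mem_sup_right
    rw [Subgroup.mem_centralizer_iff]
    intro h hh
    exact ((Subgroup.mem_center_iff.mp (hP'c hh)) c).symm
  have hPC : Subgroup.zpowers x ≤ Subgroup.centralizer ({x} : Set G) := by
    rw [Subgroup.zpowers_le]
    exact (selfC x).2
  have hcardP : Nat.card P' = 2 := by
    rw [Nat.card_congr (Subgroup.subgroupOfEquivOfLe hPC).toEquiv, Nat.card_zpowers, hx]
  have hcard : Nat.card (ConjClasses P') = 2 := by
    rw [← hcardP]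
    symm
    apply Nat.card_eq_of_bijective (ConjClasses.mk : P' → ConjClasses P')
    constructor
    · intro u v huv
      rw [ConjClasses.mk_eq_mk_iff_isConj] at huv
      obtain ⟨c, hc⟩ := isConj_iff.mp huv
      rw [← hc]
      have h1 : (c : P') * u = u * c := by
        apply Subtype.ext
        exact (Subgroup.mem_center_iff.mp (hP'c c.2) u).symm
      rw [h1, mul_inv_cancel_right]
    · exact ConjClasses.mk_surjective
  obtain ⟨⟨θ₀, ⟨hθ₀, hθ₀x⟩, huniq⟩, -, hcb⟩ := central_prod_main hM hP'p hG hb hD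
  have hθP : ∀ y ∈ P', θ.1 y = θ.1 1 := by
    intro y hy
    rcases (hP'mem y).mp hy with rfl | rfl
    · rfl
    · exact hθx
  rw [hcard] at hcb
  obtain ⟨θ', hθ', hne, hall⟩ := exists_other_of_card_two hcb hθ
  have hsign1 : ∀ c, θ.1 (selfC x * c) = θ.1 c := by
    rcases central_sign θ hx₀c hx₀x₀ with ⟨_, h⟩ | ⟨h, _⟩
    · exact h
    · exfalso
      have h1 : θ.1 1 ≠ 0 := irr_one_ne_zero' θ
      rw [hθx] at h
      apply h1
      linear_combination h / 2
  have hsign2 : ∀ c, θ'.1 (selfC x * c) = -θ'.1 c := by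
    rcases central_sign θ' hx₀c hx₀x₀ with ⟨h, _⟩ | ⟨_, h⟩
    · exfalso
      have h1 : ∀ y ∈ P', θ'.1 y = θ'.1 1 := by
        intro y hy
        rcases (hP'mem y).mp hy with rfl | rfl
        · rfl
        · exact h
      have h2 := huniq θ' ⟨hθ', h1⟩
      have h3 := huniq θ ⟨hθ, hθP⟩
      exact hne (h2.trans h3.symm)
    · exact h
  refine ⟨θ', hθ', hne, hall, hsign1, hsign2, ?_⟩
  intro y hy
  have hsing : 2 ∣ orderOf (selfC x) := by rw [hx₀ord]
  have key : ∀ y : Subgroup.centralizer ({x} : Set G), ¬ 2 ∣ orderOf y →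
      θ.1 1 * conj (θ.1 y) - θ'.1 1 * conj (θ'.1 y) = 0 := by
    intro y hy
    have h1 := block_orth_singular_regular hM hb hsing hy
    rw [sum_eB_two hθ hθ' hne hall] at h1
    have h2 := hsign1 1
    have h3 := hsign2 1
    rw [mul_one] at h2 h3
    rw [h2, h3] at h1
    linear_combination h1
  have hone : θ'.1 1 = θ.1 1 := by
    have h1 := key 1 (by rw [orderOf_one]; norm_num)
    rw [one_eq_charDegree (isCharacter_of_irr θ.2), one_eq_charDegree (isCharacter_of_irr θ'.2)] at h1 ⊢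
    simp only [map_natCast] at h1
    have h2 : (charDegree θ.1 : ℂ) * charDegree θ.1 = charDegree θ'.1 * charDegree θ'.1 := by
      linear_combination h1
    have h3 : charDegree θ.1 * charDegree θ.1 = charDegree θ'.1 * charDegree θ'.1 := by
      exact_mod_cast h2
    have h4 : charDegree θ.1 = charDegree θ'.1 := by nlinarith [Nat.mul_self_inj.mp h3]
    rw [h4]
  have h1 := key y hy
  rw [hone] at h1
  have h2 : θ.1 1 * (conj (θ.1 y) - conj (θ'.1 y)) = 0 := by linear_combination h1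
  have h3 := (mul_eq_zero.mp h2).resolve_left (irr_one_ne_zero' θ)
  have h4 : conj (θ.1 y) = conj (θ'.1 y) := sub_eq_zero.mp h3
  exact ((starRingEnd ℂ).injective h4).symm

/-- The block of the centraliser inducing `B` is unique. -/
theorem induced_unique_two (hM : IsPModular 2 M) {x : G} (hx : orderOf x = 2)
    {B : Set (IrrCharacter G)} (hBD : IsDefectGroup 2 M B (Subgroup.zpowers x))
    {b b' : Set (IrrCharacter (Subgroup.centralizer ({x} : Set G)))}
    (hb : IsInducedBlock M (Subgroup.centralizer ({x} : Set G)) b B)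
    (hb' : IsInducedBlock M (Subgroup.centralizer ({x} : Set G)) b' B) : b' = b := by
  classical
  have hP : IsPGroup 2 (Subgroup.zpowers x) := by
    apply IsPGroup.of_card (n := 1)
    rw [Nat.card_zpowers, hx, pow_one]
  have hPC : Subgroup.zpowers x ≤ Subgroup.centralizer ({x} : Set G) := by
    rw [Subgroup.zpowers_le]
    exact (selfC x).2
  have hCH : Subgroup.centralizer ((Subgroup.zpowers x : Subgroup G) : Set G) ≤
      Subgroup.centralizer ({x} : Set G) := by
    apply Subgroup.centralizer_le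
    intro y hy
    rw [Set.mem_singleton_iff] at hy
    rw [hy]
    exact Subgroup.mem_zpowers x
  have hNC := normalizer_zpowers_le hx
  have hCN := centralizer_le_normalizer_zpowers hx
  have hNH : Subgroup.normalizer ((Subgroup.zpowers x : Subgroup G) : Set G) ≤
      Subgroup.normalizer ((Subgroup.centralizer ({x} : Set G) : Subgroup G) : Set G) := by
    intro n hn
    exact Subgroup.le_normalizer (hNC hn)
  obtain ⟨n, hn, h⟩ := blocks_between_conj hCH hM hP hPC hCN hNH hBD hb hb'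
  obtain ⟨θ, hθ⟩ := block_nonempty hb.1
  obtain ⟨θ', hθ', hval⟩ := h θ hθ
  have hnC := hNC hn
  have hθθ' : θ' = θ := by
    apply Subtype.ext
    funext z
    have hz : n * (z : G) * n⁻¹ ∈ Subgroup.centralizer ({x} : Set G) :=
      mul_mem (mul_mem hnC z.2) (inv_mem hnC)
    rw [hval z hz]
    exact irr_conj' θ z ⟨n, hnC⟩
  rw [hθθ'] at hθ'
  exact (block_eq_of_inter hb.1 hb'.1 hθ hθ').symm

theorem inner_shift {x : G} (hxx : x * x = 1) (χ : IrrCharacter G)
    (ψ : IrrCharacter (Subgroup.centralizer ({x} : Set G))) {s : ℂ} (hs : conj s = s)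
    (hψ : ∀ c, ψ.1 (selfC x * c) = s * ψ.1 c) :
    classInner (fun c : Subgroup.centralizer ({x} : Set G) => χ.1 (x * (c : G))) ψ.1 =
      s * classInner (fun c : Subgroup.centralizer ({x} : Set G) => χ.1 (c : G)) ψ.1 := by
  unfold classInner
  rw [mul_left_comm]
  congr 1
  rw [Finset.mul_sum, ← Equiv.sum_comp (Equiv.mulLeft (selfC x))]
  refine Finset.sum_congr rfl fun c _ => ?_
  simp only [Equiv.coe_mulLeft, hψ, map_mul, hs]
  have h1 : x * ((selfC x * c : Subgroup.centralizer ({x} : Set G)) : G) = c := by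
    simp only [Subgroup.coe_mul, selfC_coe]
    rw [← mul_assoc, hxx, one_mul]
  rw [h1]
  ring

/-- The section formula in a block whose defect group is generated by an involution. -/
theorem exists_section_int (hM : IsPModular 2 M) {x : G} (hx : orderOf x = 2)
    {B : Set (IrrCharacter G)} (hB : IsPBlock M B)
    {b : Set (IrrCharacter (Subgroup.centralizer ({x} : Set G)))}
    (huniq : ∀ b', IsInducedBlock M (Subgroup.centralizer ({x} : Set G)) b' B → b' = b)
    (hb : IsInducedBlock M (Subgroup.centralizer ({x} : Set G)) b B)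
    {θ θ' : IrrCharacter (Subgroup.centralizer ({x} : Set G))} (hθ : θ ∈ b) (hθ' : θ' ∈ b)
    (hne : θ' ≠ θ) (hall : ∀ ψ ∈ b, ψ = θ ∨ ψ = θ') (h1 : ∀ c, θ.1 (selfC x * c) = θ.1 c)
    (h2 : ∀ c, θ'.1 (selfC x * c) = -θ'.1 c)
    (h3 : ∀ y : Subgroup.centralizer ({x} : Set G), ¬ 2 ∣ orderOf y → θ'.1 y = θ.1 y)
    (χ : IrrCharacter G) :
    ∃ c : ℤ, ∀ y : Subgroup.centralizer ({x} : Set G), ¬ 2 ∣ orderOf y →
      blockPart b (fun c : Subgroup.centralizer ({x} : Set G) => χ.1 (x * (c : G))) y =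
        (c : ℂ) * θ.1 y := by
  classical
  have hxx : x * x = 1 := by rw [← sq, ← hx, pow_orderOf_eq_one]
  have hchar : IsCharacter (Subgroup.centralizer ({x} : Set G))
      (fun c : Subgroup.centralizer ({x} : Set G) => χ.1 (c : G)) :=
    isCharacter_restrict _ (isCharacter_of_irr χ.2)
  obtain ⟨m, hm⟩ := classInner_isNat hchar θ
  obtain ⟨m', hm'⟩ := classInner_isNat hchar θ'
  refine ⟨(m : ℤ) - m', fun y hy => ?_⟩
  rw [blockPart_eq, sum_eB_two hθ hθ' hne hall, h3 y hy]
  have h4 := inner_shift hxx χ θ (s := 1) (by simp) (by simpa using h1)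
  have h5 := inner_shift hxx χ θ' (s := -1) (by simp) (by simpa using h2)
  rw [h4, h5, hm, hm']
  push_cast
  ring

theorem sum_eB_mul_self_aux {K : Type*} [Group K] [Finite K] (b : Set (IrrCharacter K))
    (f : IrrCharacter K → ℂ) :
    ∑ ψ : IrrCharacter K, eB b ψ * eB b ψ * f ψ = ∑ ψ : IrrCharacter K, eB b ψ * f ψ := by
  refine Finset.sum_congr rfl fun ψ _ => ?_
  have h := congrFun (eB_mul_self b) ψ
  simp only [Pi.mul_apply] at h
  rw [h]

/-- A member of a block with defect group `⟨x⟩` does not vanish at `x`. -/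
theorem value_ne_zero_of_defect (hM : IsPModular 2 M) {x : G} (hx : orderOf x = 2)
    {B : Set (IrrCharacter G)} (hB : IsPBlock M B)
    (hBD : IsDefectGroup 2 M B (Subgroup.zpowers x)) {χ : IrrCharacter G} (hχ : χ ∈ B) :
    χ.1 x ≠ 0 := by
  classical
  intro h0
  have hx1 : x ≠ 1 := by
    rintro rfl
    simp at hx
  have hbot := defect_eq_bot_of_vanish hM hB hBD hχ (fun g hg => ?_)
  · rw [Subgroup.zpowers_eq_bot] at hbot
    exact hx1 hbot
  · by_cases hc : IsConj g x
    · obtain ⟨c, hc⟩ := isConj_iff.mp hc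
      rw [← h0, ← hc]
      exact (irr_conj' χ g c).symm
    · have hg' : IsPPart 2 g g := by
        refine ⟨1, mul_one _, Commute.one_right _, ⟨1, by rw [hg, pow_one]⟩, ?_⟩
        rw [orderOf_one]
        norm_num
      apply vanish_off_defect hM χ hg'
      intro D hD hgD
      rw [← block_eq_of_mem hB hχ] at hD
      obtain ⟨t, ht⟩ := subConj_of_defects hM hB hD hBD
      have h1 := ht g hgD
      rcases mem_zpowers_of_order_two hx h1 with h2 | h2
      · rw [mul_inv_eq_one] at h2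
        have h3 : g = 1 := mul_eq_left.mp h2
        rw [h3, orderOf_one] at hg
        norm_num at hg
      · exact hc (isConj_iff.mpr ⟨t, h2⟩)

/-- **Blocks of defect one for `p = 2`.** -/
theorem defect_one_main (hM : IsPModular 2 M) {x : G} (hx : orderOf x = 2)
    {B : Set (IrrCharacter G)} (hB : IsPBlock M B)
    (hBD : IsDefectGroup 2 M B (Subgroup.zpowers x))
    {b : Set (IrrCharacter (Subgroup.centralizer ({x} : Set G)))}
    (hb : IsInducedBlock M (Subgroup.centralizer ({x} : Set G)) b B)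
    {θ : IrrCharacter (Subgroup.centralizer ({x} : Set G))} (hθ : θ ∈ b)
    (hθx : ∀ z : Subgroup.centralizer ({x} : Set G), (z : G) = x → θ.1 z = θ.1 1) :
    Nat.card B = 2 ∧ (∀ χ ∈ B, ∀ ψ ∈ B, ∀ g : G, ¬ 2 ∣ orderOf g → χ.1 g = ψ.1 g) ∧
      ∃ χ₁ ∈ B, ∃ χ₂ ∈ B, χ₁ ≠ χ₂ ∧ ∃ ε₁ ε₂ : ℤ, (ε₁ = 1 ∨ ε₁ = -1) ∧ (ε₂ = 1 ∨ ε₂ = -1) ∧
        ε₁ * ε₂ = -1 ∧ ∀ y : Subgroup.centralizer ({x} : Set G), ¬ 2 ∣ orderOf y →
          χ₁.1 (x * y) = (ε₁ : ℂ) * θ.1 y ∧ χ₂.1 (x * y) = (ε₂ : ℂ) * θ.1 y := by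
  classical
  have hx' : orderOf x = 2 ^ 1 := by rw [hx, pow_one]
  have hP : IsPGroup 2 (Subgroup.zpowers x) := by
    apply IsPGroup.of_card (n := 1)
    rw [Nat.card_zpowers, hx, pow_one]
  have hPC : Subgroup.zpowers x ≤ Subgroup.centralizer ({x} : Set G) := by
    rw [Subgroup.zpowers_le]
    exact (selfC x).2
  have hdd := defect_of_induced_between hM hP hPC (centralizer_le_normalizer_zpowers hx) hb hBD
  obtain ⟨θ', hθ', hne, hall, h1, h2, h3⟩ := local_two hM hx hb.1 hdd hθ (hθx _ rfl)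
  have huniq : ∀ b', IsInducedBlock M (Subgroup.centralizer ({x} : Set G)) b' B → b' = b :=
    fun b' hb' => induced_unique_two hM hx hBD hb hb'
  have hsec := exists_section_int hM hx hB huniq hb hθ hθ' hne hall h1 h2 h3
  choose c hc using hsec
  -- the section in terms of the block part
  have hpart : ∀ (χ : IrrCharacter G) (y : Subgroup.centralizer ({x} : Set G)), ¬ 2 ∣ orderOf y →
      blockPart b (fun c : Subgroup.centralizer ({x} : Set G) => χ.1 (x * (c : G))) y =
        eB B χ * χ.1 (x * y) := by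
    intro χ y hy
    have h := sum_induced_blockPart hM hx' hB χ y hy
    rw [Finset.sum_eq_single_of_mem b (by simp [Finset.mem_filter, mem_blocksF, hb.1, hb])
      (fun b' hb' hne => absurd (huniq b' (Finset.mem_filter.mp hb').2) hne)] at h
    exact h
  have hval : ∀ χ ∈ B, ∀ y : Subgroup.centralizer ({x} : Set G), ¬ 2 ∣ orderOf y →
      χ.1 (x * y) = (c χ : ℂ) * θ.1 y := by
    intro χ hχ y hy
    have h := hpart χ y hy
    rw [hc χ y hy, eB_apply_mem hχ, one_mul] at h
    exact h.symm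
  have hreg1 : ¬ 2 ∣ orderOf (1 : Subgroup.centralizer ({x} : Set G)) := by
    rw [orderOf_one]
    norm_num
  have hvalx : ∀ χ ∈ B, χ.1 x = (c χ : ℂ) * θ.1 1 := by
    intro χ hχ
    have h := hval χ hχ 1 hreg1
    simpa using h
  have hθ1 : θ.1 1 ≠ 0 := irr_one_ne_zero' θ
  have hθ1c : conj (θ.1 1) = θ.1 1 := by
    rw [one_eq_charDegree (isCharacter_of_irr θ.2), map_natCast]
  have hθ'1 : θ'.1 1 = θ.1 1 := h3 1 hreg1
  have hc0 : ∀ χ ∈ B, c χ ≠ 0 := by
    intro χ hχ h0
    apply value_ne_zero_of_defect hM hx hB hBD hχ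
    rw [hvalx χ hχ, h0]
    simp
  -- the norm
  have hnorm : ∑ χ ∈ Finset.univ.filter (· ∈ B), (c χ) ^ 2 = 2 := by
    have h := subsection_orth hM hx' hb.1 hb.1 hreg1 hreg1
    rw [sum_eB_mul_self_aux, sum_eB_two hθ hθ' hne hall, hθ'1] at h
    have h4 : ∀ ζ : IrrCharacter G,
        blockPart b (fun c : Subgroup.centralizer ({x} : Set G) => ζ.1 (x * (c : G))) 1 *
          conj (blockPart b (fun c : Subgroup.centralizer ({x} : Set G) => ζ.1 (x * (c : G))) 1) =
        eB B ζ * (((c ζ : ℂ) ^ 2) * (θ.1 1 * θ.1 1)) := by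
      intro ζ
      rw [hpart ζ 1 hreg1]
      by_cases hζ : ζ ∈ B
      · rw [eB_apply_mem hζ]
        have h5 := hval ζ hζ 1 hreg1
        rw [h5]
        simp only [one_mul, map_mul, map_intCast, hθ1c]
        ring
      · rw [eB_apply_not_mem hζ]
        simp
    simp only [h4] at h
    rw [sum_eB_eq_filter, hθ1c, ← Finset.sum_mul] at h
    have h5 : (θ.1 1 * θ.1 1) ≠ 0 := mul_ne_zero hθ1 hθ1
    have h6 : ∑ χ ∈ Finset.univ.filter (· ∈ B), ((c χ : ℂ)) ^ 2 = 2 := by
      apply mul_right_cancel₀ h5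
      rw [h]
      ring
    exact_mod_cast h6
  obtain ⟨hcard, hpm⟩ := sum_sq_eq_two _ c
    (fun χ hχ => hc0 χ (Finset.mem_filter.mp hχ).2) hnorm
  obtain ⟨a, a', haa', hS⟩ := Finset.card_eq_two.mp hcard
  have hmem : ∀ χ, χ ∈ B ↔ χ = a ∨ χ = a' := by
    intro χ
    have h5 : χ ∈ Finset.univ.filter (· ∈ B) ↔ χ ∈ ({a, a'} : Finset _) := by rw [hS]
    simpa using h5
  have ha : a ∈ B := (hmem a).mpr (Or.inl rfl)
  have ha' : a' ∈ B := (hmem a').mpr (Or.inr rfl)
  have hall' : ∀ ψ ∈ B, ψ = a ∨ ψ = a' := fun ψ hψ => (hmem ψ).mp hψ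
  -- orthogonality
  have horth : ∀ g : G, ¬ 2 ∣ orderOf g → a.1 g * (c a : ℂ) + a'.1 g * (c a' : ℂ) = 0 := by
    intro g hg
    have h4 := block_orth_regular_singular hM hB hg (y := x) (by rw [hx])
    rw [sum_eB_two ha ha' haa'.symm hall', hvalx a ha, hvalx a' ha'] at h4
    simp only [map_mul, map_intCast, hθ1c] at h4
    have h5 : (a.1 g * (c a : ℂ) + a'.1 g * (c a' : ℂ)) * θ.1 1 = 0 := by
      linear_combination h4
    exact (mul_eq_zero.mp h5).resolve_right hθ1
  have hsum0 : c a + c a' = 0 := by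
    have h4 := horth 1 (by rw [orderOf_one]; norm_num)
    rw [one_eq_charDegree (isCharacter_of_irr a.2), one_eq_charDegree (isCharacter_of_irr a'.2)] at h4
    have h5 : ((charDegree a.1 : ℤ) * c a + (charDegree a'.1 : ℤ) * c a') = 0 := by
      exact_mod_cast h4
    have hd1 : 0 < (charDegree a.1 : ℤ) := by exact_mod_cast irr_charDegree_pos a.2
    have hd2 : 0 < (charDegree a'.1 : ℤ) := by exact_mod_cast irr_charDegree_pos a'.2
    have ha1 := hpm a (by simp [Finset.mem_filter, ha])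
    have ha2 := hpm a' (by simp [Finset.mem_filter, ha'])
    rcases ha1 with h6 | h6 <;> rcases ha2 with h7 | h7 <;> rw [h6, h7] at h5 ⊢ <;> omega
  have heq : ∀ g : G, ¬ 2 ∣ orderOf g → a.1 g = a'.1 g := by
    intro g hg
    have h4 := horth g hg
    have h5 : (c a' : ℂ) = -(c a : ℂ) := by
      have : c a' = - c a := by omega
      rw [this]
      push_cast
      rfl
    rw [h5] at h4
    have h6 : (c a : ℂ) ≠ 0 := by
      exact_mod_cast hc0 a ha
    have h7 : (a.1 g - a'.1 g) * (c a : ℂ) = 0 := by linear_combination h4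
    exact sub_eq_zero.mp ((mul_eq_zero.mp h7).resolve_right h6)
  refine ⟨?_, ?_, a, ha, a', ha', haa', c a, c a', hpm a (by simp [Finset.mem_filter, ha]),
    hpm a' (by simp [Finset.mem_filter, ha']), ?_, fun y hy => ⟨hval a ha y hy, hval a' ha' y hy⟩⟩
  · have hBe : B = {a, a'} := Set.ext (fun χ => by simpa using hmem χ)
    rw [Nat.card_coe_set_eq, hBe, Set.ncard_pair haa']
  · intro χ hχ ψ hψ g hg
    rcases hall' χ hχ with rfl | rfl <;> rcases hall' ψ hψ with rfl | rfl
    · rfl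
    · exact heq g hg
    · exact (heq g hg).symm
    · rfl
  · have : c a' = - c a := by omega
    rw [this]
    rcases hpm a (by simp [Finset.mem_filter, ha]) with h6 | h6 <;> rw [h6] <;> norm_num

end Main

end Cfsg.Agent.H21
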