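import Cfsg.Agent.Lib.H21.BrauerP
import Cfsg.Agent.Lib.H23.RealDeg1
import Cfsg.Agent.Lib.H21.GlaubCore
import Cfsg.Agent.Lib.H01.Hall

/-!
# Elementary subgroups and invariant constituents
-/

set_option autoImplicit false
set_option linter.unusedSectionVars false
set_option linter.style.haveILetI false
set_option linter.unusedSimpArgs false

namespace Cfsg.Agent.H21.BrP

open Cfsg Cfsg.Agent.H21 Cfsg.Agent.H06 Cfsg.Agent.H06.Brauer Cfsg.Agent
open scoped ComplexConjugate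

universe u

section Abs

variable {E : Type u} [Group E] [Fintype E] {p : ℕ} [hp : Fact p.Prime]

/-- The invariance of the weighted inner products under twisting. -/
theorem inner_twist_mul (D : Subgroup E) [hD : D.Normal] [Fintype D] (θ β φ : D → ℂ) (g : E)
    (hθ : twist D θ g = θ) (hβ : twist D β g = β) :
    classInner (twist D φ g * β) θ = classInner (φ * β) θ := by
  unfold classInner
  congr 1
  let e : D ≃ D := (MulAut.conjNormal g : MulAut D).toEquiv
  refine Fintype.sum_equiv e _ _ fun x => ?_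
  have h1 := congrFun hθ x
  have h2 := congrFun hβ x
  simp only [twist] at h1 h2
  have h3 : e x = ⟨g * x * g⁻¹, hD.conj_mem x x.2 g⟩ := rfl
  rw [h3]
  simp only [Pi.mul_apply, twist]
  rw [h1, h2]

theorem inner_twist_right (D : Subgroup E) [hD : D.Normal] [Fintype D] (θ φ : D → ℂ) (g : E)
    (hθ : twist D θ g = θ) : classInner θ (twist D φ g) = classInner θ φ := by
  unfold classInner
  congr 1
  let e : D ≃ D := (MulAut.conjNormal g : MulAut D).toEquiv
  refine Fintype.sum_equiv e _ _ fun x => ?_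
  have h1 := congrFun hθ x
  simp only [twist] at h1
  have h3 : e x = ⟨g * x * g⁻¹, hD.conj_mem x x.2 g⟩ := rfl
  rw [h3]
  simp only [twist]
  rw [h1]

/-- Invariant constituents with multiplicity prime to `p`. -/
theorem exists_inv_constituent (D : Subgroup E) [hD : D.Normal] [Fintype D] {j : ℕ}
    (hj : D.index = p ^ j) (θ : D → ℂ) (hθ : IsCharacter D θ) (β : D → ℂ)
    (hβ : IsGeneralizedCharacter D β) (hθinv : ∀ g : E, twist D θ g = θ)
    (hβinv : ∀ g : E, twist D β g = β) (c : ℤ) (hc : classInner (θ * β) θ = c)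
    (hpc : ¬ (p : ℤ) ∣ c) :
    ∃ φ : IrrCharacter D, (∀ g : E, twist D φ.1 g = φ.1) ∧
      ∃ m : ℕ, ¬ p ∣ m ∧ classInner θ φ.1 = m := by
  classical
  haveI : Fintype (IrrCharacter D) := Fintype.ofFinite _
  have hpp : p.Prime := hp.out
  obtain ⟨m, hm, hm'⟩ := isCharacter_decomp hθ
  have hk : ∀ φ : IrrCharacter D, ∃ k : ℤ, classInner (φ.1 * β) θ = k := fun φ =>
    gen_inner_int (gen_mul (gen_of_char (isCharacter_of_irr φ.2)) hβ) (gen_of_char hθ)
  choose k hk using hk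
  have hsum : (c : ℂ) = ∑ φ : IrrCharacter D, (m φ : ℂ) * (k φ : ℂ) := by
    rw [← hc]
    have h1 : θ * β = ∑ φ : IrrCharacter D, (m φ : ℂ) • (φ.1 * β) := by
      funext x
      have h2 := congrFun hm x
      simp only [Finset.sum_apply, Pi.smul_apply, Pi.mul_apply, smul_eq_mul] at h2 ⊢
      rw [h2, Finset.sum_mul]
      refine Finset.sum_congr rfl fun φ _ => ?_
      simp [mul_assoc]
    rw [h1, classInner_sum_left]
    refine Finset.sum_congr rfl fun φ _ => ?_
    rw [classInner_smul_left, hk]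
  letI := H23.irrTwistAction (G := E) D
  obtain ⟨R⟩ : Nonempty (Sylow p E) := inferInstance
  have hmi : ∀ (a : (R : Subgroup E)) (φ : IrrCharacter D), m (a • φ) = m φ := by
    intro a φ
    have h1 := hm' φ
    have h2 := hm' (a • φ)
    have h3 : classInner θ (a • φ).1 = classInner θ φ.1 := inner_twist_right D θ φ.1 _ (hθinv _)
    rw [h1, h2] at h3
    exact_mod_cast h3
  have hki : ∀ (a : (R : Subgroup E)) (φ : IrrCharacter D), k (a • φ) = k φ := by
    intro a φ
    have h1 := hk φ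
    have h2 := hk (a • φ)
    have h3 : classInner ((a • φ).1 * β) θ = classInner (φ.1 * β) θ :=
      inner_twist_mul D θ β φ.1 _ (hθinv _) (hβinv _)
    rw [h1, h2] at h3
    exact_mod_cast h3
  obtain ⟨F, hF, w, hw, hwe⟩ : ∃ F : Finset (IrrCharacter D),
      (∀ x, x ∈ F ↔ ∀ a : (R : Subgroup E), a • x = x) ∧ ∃ w : ℂ, IsIntegral ℤ w ∧
        ∑ φ : IrrCharacter D, (m φ : ℂ) * (k φ : ℂ) = (∑ φ ∈ F, (m φ : ℂ) * (k φ : ℂ)) + p * w :=
    ⟨_, fun θ => by simp [Finset.mem_filter],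
      H21.sum_eq_fixed_add (A := (R : Subgroup E)) (X := IrrCharacter D) R.isPGroup'
        (fun φ => (m φ : ℂ) * (k φ : ℂ))
        (fun φ => IsIntegral.mul (isIntegral_natCast _) (isIntegral_intCast _))
        (fun a φ => by simp only [hmi, hki])⟩
  by_contra hno
  push Not at hno
  have htop : ∀ g : E, ∃ y ∈ (R : Subgroup E), ∃ d ∈ D, y * d = g := by
    intro g
    have h1 : ((R : Subgroup E) ⊔ D).index ∣ (R : Subgroup E).index :=
      Subgroup.index_dvd_of_le le_sup_left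
    have h2 : ((R : Subgroup E) ⊔ D).index ∣ D.index := Subgroup.index_dvd_of_le le_sup_right
    rw [hj] at h2
    obtain ⟨i, -, hi⟩ := (Nat.dvd_prime_pow hpp).1 h2
    have h3 : ((R : Subgroup E) ⊔ D).index = 1 := by
      rcases i with _ | i
      · simpa using hi
      · exfalso
        rw [hi, pow_succ] at h1
        exact R.not_dvd_index ((Dvd.intro_left _ rfl).trans h1)
    have h4 : (R : Subgroup E) ⊔ D = ⊤ := Subgroup.index_eq_one.1 h3
    have h5 : g ∈ (R : Subgroup E) ⊔ D := by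
      rw [h4]
      exact Subgroup.mem_top g
    exact Subgroup.mem_sup_of_normal_right.1 h5
  have hinvE : ∀ φ : IrrCharacter D, (∀ a : (R : Subgroup E), a • φ = φ) → ∀ g : E, twist D φ.1 g = φ.1 := by
    intro φ hφ g
    obtain ⟨y, hy, d, hd, rfl⟩ := htop g
    have h1 : twist D φ.1 y = φ.1 := by
      have := congrArg Subtype.val (hφ ⟨y⁻¹, R.1.inv_mem hy⟩)
      change twist D φ.1 (y⁻¹)⁻¹ = φ.1 at this
      rwa [inv_inv] at this
    rw [twist_mul, h1]
    funext x
    exact isClassFunction_of_isCharacter (isCharacter_of_irr φ.2) x ⟨d, hd⟩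
  have hFp : ∀ φ ∈ F, p ∣ m φ := by
    intro φ hφ
    have h1 := hinvE φ ((hF φ).1 hφ)
    by_contra h3
    exact hno φ h1 (m φ) h3 (hm' φ)
  choose! q hq using hFp
  have hFsum : ∑ φ ∈ F, (m φ : ℂ) * (k φ : ℂ) = p * ∑ φ ∈ F, (q φ : ℂ) * (k φ : ℂ) := by
    rw [Finset.mul_sum]
    refine Finset.sum_congr rfl fun φ hφ => ?_
    rw [hq φ hφ]
    push_cast
    ring
  apply hpc
  apply H21.p_dvd_of_eq_mul hpp c (w + ∑ φ ∈ F, (q φ : ℂ) * (k φ : ℂ))
  · exact IsIntegral.add hw (IsIntegral.sum _ fun φ _ =>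
      IsIntegral.mul (isIntegral_natCast _) (isIntegral_intCast _))
  · rw [hsum, hwe, hFsum]
    ring

end Abs

section Main

variable {G : Type u} [Group G] [Fintype G] {p : ℕ}

/-- The restriction of `ϑ` to the subgroup of `E`. -/
def resD (N E : Subgroup G) (ϑ : N → ℂ) : N.subgroupOf E → ℂ := fun d => ϑ ⟨d.1.1, d.2⟩

/-- The map from the subgroup of `E` into `N`. -/
def toN (N E : Subgroup G) : N.subgroupOf E →* N where
  toFun d := ⟨d.1.1, d.2⟩
  map_one' := rfl
  map_mul' _ _ := rfl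

theorem isCharacter_resD (N E : Subgroup G) {ϑ : N → ℂ} (hϑ : IsCharacter N ϑ) :
    IsCharacter (N.subgroupOf E) (resD N E ϑ) :=
  isCharacter_comp (toN N E) hϑ

open scoped Classical in
/-- The main formula. -/
theorem key_formula (N : Subgroup G) [hN : N.Normal] (ϑ : N → ℂ)
    (hinv : ∀ (g : G) (n : N), ϑ ⟨g * n * g⁻¹, hN.conj_mem (n : G) n.2 g⟩ = ϑ n) (E : Subgroup G)
    (β : E → ℂ) :
    (Nat.card N : ℂ)⁻¹ * ∑ n : N, ϑ n * conj (ϑ n) * indFun E β n =
      ((E ⊔ N).index : ℂ) *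
        classInner (resD N E ϑ * fun d : N.subgroupOf E => β d.1) (resD N E ϑ) := by
  classical
  have hE0 : (Nat.card E : ℂ) ≠ 0 := Nat.cast_ne_zero.mpr Nat.card_pos.ne'
  have hN0 : (Nat.card N : ℂ) ≠ 0 := Nat.cast_ne_zero.mpr Nat.card_pos.ne'
  have hD0 : (Nat.card (N.subgroupOf E) : ℂ) ≠ 0 := Nat.cast_ne_zero.mpr Nat.card_pos.ne'
  -- step 1
  have h1 : ∀ x : G, ∑ n : N, ϑ n * conj (ϑ n) * extendByZero E β (x⁻¹ * n * x) =
      ∑ n : N, ϑ n * conj (ϑ n) * extendByZero E β n := by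
    intro x
    let e : N ≃ N := (MulAut.conjNormal x⁻¹ : MulAut N).toEquiv
    refine Fintype.sum_equiv e _ _ fun n => ?_
    have h2 : e n = ⟨x⁻¹ * n * x⁻¹⁻¹, hN.conj_mem (n : G) n.2 x⁻¹⟩ := rfl
    have h3 : ϑ (e n) = ϑ n := by
      rw [h2]
      exact hinv x⁻¹ n
    have h4 : ((e n : N) : G) = x⁻¹ * n * x := by
      rw [h2]
      simp
    rw [h3, h4]
  -- step 2
  have h2 : ∑ n : N, ϑ n * conj (ϑ n) * extendByZero E β n =
      ∑ d : N.subgroupOf E, resD N E ϑ d * β d.1 * conj (resD N E ϑ d) := by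
    symm
    apply Fintype.sum_of_injective (toN N E)
    · intro a b hab
      apply Subtype.ext
      apply Subtype.ext
      exact congrArg (fun z : N => (z : G)) hab
    · intro n hn
      have h3 : (n : G) ∉ E := by
        intro h4
        exact hn ⟨⟨⟨n, h4⟩, n.2⟩, rfl⟩
      rw [extendByZero_of_not_mem E β h3, mul_zero]
    · intro d
      have h3 := extendByZero_coe E β d.1
      have h4 : ((toN N E d : N) : G) = ((d.1 : E) : G) := rfl
      rw [h4, h3]
      have h5 : toN N E d = ⟨d.1.1, d.2⟩ := rfl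
      rw [h5]
      simp only [resD]
      ring
  have hcard : ((E ⊔ N).index : ℂ) * (Nat.card E : ℂ) * (Nat.card N : ℂ) =
      (Nat.card G : ℂ) * (Nat.card (N.subgroupOf E) : ℂ) := by
    have h3 := Cfsg.Agent.H01.card_sup_mul_card_inf E N
    have h4 := Subgroup.index_mul_card (E ⊔ N)
    have h5 : Nat.card (N.subgroupOf E) = Nat.card (E ⊓ N : Subgroup G) := by
      rw [← Subgroup.inf_subgroupOf_left, inf_comm]
      exact Nat.card_congr (Subgroup.subgroupOfEquivOfLe inf_le_right).toEquiv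
    rw [h5]
    have h6 : (E ⊔ N).index * (Nat.card E * Nat.card N) = Nat.card G * Nat.card (E ⊓ N : Subgroup G) := by
      rw [← h3, ← h4]
      ring
    exact_mod_cast (by rw [mul_assoc]; exact h6 : (E ⊔ N).index * Nat.card E * Nat.card N = _)
  have hS : ∑ n : N, ϑ n * conj (ϑ n) * indFun E β n =
      (Nat.card E : ℂ)⁻¹ * ((Nat.card G : ℂ) *
        ∑ d : N.subgroupOf E, resD N E ϑ d * β d.1 * conj (resD N E ϑ d)) := by
    simp only [indFun]
    have h3 : ∀ n : N, ϑ n * conj (ϑ n) * ((Nat.card E : ℂ)⁻¹ *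
        ∑ x : G, extendByZero E β (x⁻¹ * n * x)) = (Nat.card E : ℂ)⁻¹ *
        ∑ x : G, ϑ n * conj (ϑ n) * extendByZero E β (x⁻¹ * n * x) := by
      intro n
      rw [mul_left_comm, Finset.mul_sum]
    simp only [h3]
    rw [← Finset.mul_sum, Finset.sum_comm]
    congr 1
    simp only [h1, Finset.sum_const, Finset.card_univ, nsmul_eq_mul]
    rw [h2, Nat.card_eq_fintype_card]
  rw [hS]
  simp only [classInner, Pi.mul_apply]
  field_simp
  linear_combination (∑ d : N.subgroupOf E, resD N E ϑ d * β d.1 * conj (resD N E ϑ d)) * hcard.symm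

open scoped Classical in
/-- The existence of the elementary subgroup. -/
theorem exists_elem [hp : Fact p.Prime] (N : Subgroup G) [hN : N.Normal] {k : ℕ} (hk : N.index = p ^ k)
    (ϑ : N → ℂ) (hϑ : IsIrrCharacter N ϑ)
    (hinv : ∀ (g : G) (n : N), ϑ ⟨g * n * g⁻¹, hN.conj_mem (n : G) n.2 g⟩ = ϑ n) :
    ∃ (E : Subgroup G) (β : E → ℂ) (c : ℤ), IsElementary p E ∧ E ⊔ N = ⊤ ∧
      IsGeneralizedCharacter E β ∧
      classInner (resD N E ϑ * fun d : N.subgroupOf E => β d.1) (resD N E ϑ) = c ∧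
      ¬ (p : ℤ) ∣ c := by
  classical
  have hpp : p.Prime := hp.out
  by_contra hno
  push Not at hno
  let J : (G → ℂ) → ℂ := fun f => (Nat.card N : ℂ)⁻¹ * ∑ n : N, ϑ n * conj (ϑ n) * f n
  have hJ : ∀ f ∈ VZ p G, ∃ z : ℤ, J f = p * z := by
    intro f hf
    induction hf using AddSubgroup.closure_induction with
    | mem f hf =>
      obtain ⟨E, β, hE, hβ, rfl⟩ := hf
      show ∃ z : ℤ, (Nat.card N : ℂ)⁻¹ * ∑ n : N, ϑ n * conj (ϑ n) * indFun E β n = p * z
      rw [key_formula N ϑ hinv E β]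
      have hθ := gen_of_char (isCharacter_resD N E (isCharacter_of_irr hϑ))
      have hβ' : IsGeneralizedCharacter (N.subgroupOf E) (fun d : N.subgroupOf E => β d.1) :=
        gen_restrict _ hβ
      obtain ⟨c, hc⟩ := gen_inner_int (gen_mul hθ hβ') hθ
      rw [hc]
      by_cases htop : E ⊔ N = ⊤
      · obtain ⟨z, hz⟩ := hno E β c hE htop hβ hc
        refine ⟨z, ?_⟩
        rw [htop, Subgroup.index_top, hz]
        push_cast
        ring
      · have h1 : (E ⊔ N).index ∣ p ^ k := hk ▸ Subgroup.index_dvd_of_le le_sup_right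
        obtain ⟨i, -, hi⟩ := (Nat.dvd_prime_pow hpp).1 h1
        rcases i with _ | i
        · exfalso
          apply htop
          rw [← Subgroup.index_eq_one, hi, pow_zero]
        · refine ⟨(p ^ i : ℕ) * c, ?_⟩
          rw [hi]
          push_cast
          ring
    | zero =>
      exact ⟨0, by simp [J]⟩
    | add f₁ f₂ _ _ h1 h2 =>
      obtain ⟨z₁, h1⟩ := h1
      obtain ⟨z₂, h2⟩ := h2
      refine ⟨z₁ + z₂, ?_⟩
      have h3 : J (f₁ + f₂) = J f₁ + J f₂ := by
        simp only [J, Pi.add_apply, mul_add, Finset.sum_add_distrib]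
      rw [h3, h1, h2]
      push_cast
      ring
    | neg f _ h =>
      obtain ⟨z, h⟩ := h
      refine ⟨-z, ?_⟩
      have h3 : J (-f) = - J f := by
        simp only [J, Pi.neg_apply, mul_neg, Finset.sum_neg_distrib]
      rw [h3, h]
      push_cast
      ring
  obtain ⟨m, hm, hmem⟩ := exists_prime_to_mem_VZ (G := G) p hpp
  obtain ⟨z, hz⟩ := hJ _ hmem
  have h1 : J (fun _ => (m : ℂ)) = m := by
    have h2 := classInner_irr_self hϑ
    simp only [classInner] at h2
    simp only [J]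
    rw [← Finset.sum_mul, ← mul_assoc, h2, one_mul]
  rw [h1] at hz
  apply hm
  have h3 : (m : ℤ) = p * z := by exact_mod_cast hz
  have h4 : (p : ℤ) ∣ m := ⟨z, h3⟩
  exact_mod_cast h4

/-- The equivalence of the two descriptions of the intersection. -/
def infEquiv (N E : Subgroup G) : ↥(E ⊓ N) ≃* ↥(N.subgroupOf E) where
  toFun x := ⟨⟨x.1, x.2.1⟩, x.2.2⟩
  invFun d := ⟨d.1.1, d.1.2, d.2⟩
  left_inv _ := rfl
  right_inv _ := rfl
  map_mul' _ _ := rfl

/-- The main theorem. -/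
theorem main_elem (hp : p.Prime) (N : Subgroup G) [hN : N.Normal] (hind : ∃ k : ℕ, N.index = p ^ k)
    (ϑ : N → ℂ) (hϑ : IsIrrCharacter N ϑ)
    (hinv : ∀ (g : G) (n : N), ϑ ⟨g * n * g⁻¹, hN.conj_mem (n : G) n.2 g⟩ = ϑ n) :
    ∃ (E : Subgroup G) (φ : ↥(E ⊓ N) → ℂ), IsElementary p E ∧ E ⊔ N = ⊤ ∧
      IsIrrCharacter ↥(E ⊓ N) φ ∧
      (∀ (g : G) (hg : g ∈ E) (x : ↥(E ⊓ N)),
        φ ⟨g * x * g⁻¹, ⟨(E.mul_mem (E.mul_mem hg x.2.1) (E.inv_mem hg)),
          hN.conj_mem (x : G) x.2.2 g⟩⟩ = φ x) ∧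
      ∃ m : ℕ, ¬ p ∣ m ∧
        (Nat.card ↥(E ⊓ N) : ℂ)⁻¹ * ∑ᶠ x : ↥(E ⊓ N), ϑ ⟨(x : G), x.2.2⟩ * conj (φ x) = (m : ℂ) := by
  classical
  haveI : Fact p.Prime := ⟨hp⟩
  obtain ⟨k, hk⟩ := hind
  obtain ⟨E, β, c, hE, htop, hβ, hc, hpc⟩ := exists_elem N hk ϑ hϑ hinv
  let D : Subgroup E := N.subgroupOf E
  haveI hDn : D.Normal := inferInstance
  have hj : ∃ j, D.index = p ^ j := by
    have h1 : D.index ∣ N.index := Subgroup.relIndex_dvd_index_of_normal N E
    rw [hk] at h1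
    obtain ⟨j, -, hj⟩ := (Nat.dvd_prime_pow hp).1 h1
    exact ⟨j, hj⟩
  obtain ⟨j, hj⟩ := hj
  have hθinv : ∀ g : E, twist D (resD N E ϑ) g = resD N E ϑ := by
    intro g
    funext d
    exact hinv g ⟨((d : E) : G), d.2⟩
  have hβinv : ∀ g : E, twist D (fun d : D => β d.1) g = fun d : D => β d.1 := by
    intro g
    funext d
    exact gen_isClass hβ d.1 g
  have hβ' : IsGeneralizedCharacter D (fun d : D => β d.1) := gen_restrict _ hβ
  obtain ⟨φ', hφ'inv, m, hm, hin⟩ := exists_inv_constituent D hj (resD N E ϑ)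
    (isCharacter_resD N E (isCharacter_of_irr hϑ)) _ hβ' hθinv hβinv c hc hpc
  let e := infEquiv N E
  refine ⟨E, φ'.1 ∘ e, hE, htop, isIrrCharacter_comp_of_surjective e.toMonoidHom e.surjective φ'.2,
    ?_, m, hm, ?_⟩
  · intro g hg x
    exact congrFun (hφ'inv ⟨g, hg⟩) (e x)
  · rw [← hin, finsum_eq_sum_of_fintype]
    simp only [classInner]
    rw [Nat.card_congr e.toEquiv]
    congr 1
    exact Fintype.sum_equiv e.toEquiv _ _ fun x => rfl

end Main

end Cfsg.Agent.H21.BrP
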