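import Cfsg.Agent.Lib.H21.ResCyc
import Cfsg.Agent.Lib.H23.PRatB
import Cfsg.Agent.Lib.H22.Degree
import Cfsg.Agent.Lib.H22.PLengthOne
import Cfsg.Agent.Lib.H06.Brauer4
import Cfsg.Agent.Lib.H23.Ito2

/-!
# Canonical extensions over a normal `p'`-subgroup with `p`-group quotient
-/

set_option autoImplicit false
set_option linter.unusedSectionVars false
set_option linter.style.haveILetI false
set_option linter.unusedSimpArgs false

namespace Cfsg.Agent.H21.FP

open scoped ComplexConjugate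
open Cfsg Module Cfsg.Agent.H22 Cfsg.Agent

universe u

section Ratio

variable {G : Type u} [Group G] [Finite G]

/-- Two extensions of an irreducible character differ by a linear character. -/
theorem exists_linear_ratio' (N : Subgroup G) [hN : N.Normal]
    (θ : IrrCharacter N) (χ₁ χ₂ : IrrCharacter G)
    (h₁ : ∀ n : N, χ₁.1 n = θ.1 n) (h₂ : ∀ n : N, χ₂.1 n = θ.1 n) :
    ∃ l : G →* ℂˣ, (∀ n ∈ N, l n = 1) ∧ ∀ g, χ₂.1 g = (l g : ℂ) * χ₁.1 g := by
  classical
  have hinv : ∀ (g : G) (n : N), θ.1 ⟨g * n * g⁻¹, hN.conj_mem (n : G) n.2 g⟩ = θ.1 n := by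
    intro g n
    rw [← h₁ n, ← h₁]
    exact isClassFunction_of_isCharacter (isCharacter_of_irr χ₁.2) n g
  have hone : (fun _ : N => (1 : ℂ)) * θ.1 = θ.1 := by
    funext n
    simp
  have hbij := H04.Cliff.gallagher_bij N (φ := fun _ : N => (1 : ℂ)) (ϑ := θ.1) (oneIrr N).2
    (by rw [hone]; exact θ.2) (H04.Cliff.twist_of_inv N (fun _ _ => rfl))
    (H04.Cliff.twist_of_inv N hinv) (isCharacter_of_irr χ₁.2) h₁
  have hmem : χ₂.1 ∈ {ψ : G → ℂ | IsIrrCharacter G ψ ∧
      classInner (indFun N ((fun _ : N => (1 : ℂ)) * θ.1)) ψ ≠ 0} := by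
    refine ⟨χ₂.2, ?_⟩
    rw [hone, frobenius_reciprocity N θ.1 χ₂.1
      (isClassFunction_of_isCharacter (isCharacter_of_irr χ₂.2))]
    have h3 : (fun h : N => χ₂.1 h) = θ.1 := funext h₂
    rw [h3, H06.classInner_irr_self θ.2]
    exact one_ne_zero
  obtain ⟨β, ⟨hβ, hβN⟩, hβχ⟩ := hbij.surjOn hmem
  have hβN' := hβN
  rw [frobenius_reciprocity N _ β (isClassFunction_of_isCharacter (isCharacter_of_irr hβ))] at hβN'
  have hβN2 : classInner (fun n : N => β n) (oneIrr N).1 ≠ 0 := by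
    intro h0
    apply hβN'
    have : classInner (fun _ : N => (1 : ℂ)) (fun h : N => β h) =
        conj (classInner (fun n : N => β n) (oneIrr N).1) := by
      rw [classInner_comm_conj]
      rfl
    rw [this, h0]
    simp
  have hker : ∀ n : N, β n = β 1 := over_one_ker₂ N ⟨β, hβ⟩ hβN2
  have hβ1 : β 1 = 1 := by
    have h1 := congrFun hβχ 1
    have h2 : χ₂.1 1 = χ₁.1 1 := by
      have h3 := h₁ 1
      have h4 := h₂ 1
      simp only [OneMemClass.coe_one] at h3 h4
      rw [h3, h4]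
    have h5 : χ₁.1 1 ≠ 0 := H06.irr_one_ne_zero' χ₁.2
    simp only [Pi.mul_apply] at h1
    rw [h2] at h1
    exact mul_right_cancel₀ h5 (by rw [h1, one_mul])
  refine ⟨H04.Cliff.linU β (isCharacter_of_irr hβ) hβ1, ?_, ?_⟩
  · intro n hn
    apply Units.ext
    rw [H04.Cliff.coe_linU]
    have := hker ⟨n, hn⟩
    rw [this, hβ1]
    rfl
  · intro g
    rw [H04.Cliff.coe_linU]
    have := congrFun hβχ g
    exact this.symm

end Ratio

section Canon

variable {G : Type u} [Group G] [Finite G] {p : ℕ} [hp : Fact p.Prime]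

/-- The canonical extension across a `p`-group quotient over a normal `p'`-subgroup. -/
theorem exists_canon_ext (N : Subgroup G) [hN : N.Normal] (hNp : (Nat.card N).Coprime p)
    {m : ℕ} (hm : N.index = p ^ m) (θ : IrrCharacter N)
    (hinv : ∀ (g : G) (n : N), θ.1 ⟨g * n * g⁻¹, hN.conj_mem (n : G) n.2 g⟩ = θ.1 n) :
    ∃ η : IrrCharacter G, (∀ n : N, η.1 n = θ.1 n) ∧
      ∀ k : ℕ, k.Coprime (Nat.card G) → (∀ n : N, n ^ k = n) → ∀ g, η.1 (g ^ k) = η.1 g := by
  classical
  have hpp : p.Prime := hp.out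
  obtain ⟨d, ρ, hirr, hρ⟩ := θ.2
  have hinv' := H04.Cliff.inv_of_char hρ hinv
  let φ : N →* ℂˣ := H04.Cliff.detU ρ
  have hφinv : ∀ (g : G) (n : N), φ ⟨g * n * g⁻¹, hN.conj_mem n n.2 g⟩ = φ n :=
    H04.Cliff.det_conj_inv hirr hinv'
  have hφord : orderOf φ ∣ Nat.card N := by
    apply orderOf_dvd_of_pow_eq_one
    ext n
    simp [← map_pow, pow_card_eq_one']
  have hcop : Nat.Coprime N.index (orderOf φ) := by
    rw [hm]
    exact Nat.Coprime.pow_left _ (Nat.Coprime.coprime_dvd_right hφord hNp.symm)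
  obtain ⟨μ, hμ, hμord, -⟩ := H04.Cliff.canon_ext N φ hφinv hcop
  have hdeg : charDegree θ.1 = d := by
    have h1 := one_eq_charDegree (isCharacter_of_irr θ.2)
    rw [← hρ] at h1
    have h3 : ρ.character 1 = (d : ℂ) := by
      simp [Representation.character, LinearMap.trace_one]
    rw [← hρ]
    rw [h3] at h1
    exact_mod_cast h1.symm
  have hdvd : d ∣ Nat.card N := hdeg ▸ charDegree_dvd_card θ
  have hpd : ¬ p ∣ d := fun h => by
    have := hNp
    rw [Nat.coprime_comm, Nat.Prime.coprime_iff_not_dvd hpp] at this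
    exact this (h.trans hdvd)
  have hfin : finrank ℂ (Fin d → ℂ) = d := by simp
  have hcopd : Nat.Coprime N.index (finrank ℂ (Fin d → ℂ)) := by
    rw [hfin, hm]
    exact Nat.Coprime.pow_left _ ((Nat.Prime.coprime_iff_not_dvd hpp).2 hpd)
  have hμ' : ∀ n : N, (μ n : ℂ) = LinearMap.det (ρ n) := by
    intro n
    rw [hμ]
    rfl
  obtain ⟨τ₀, -, hτ₀⟩ := H04.Cliff.extends_of_det hirr hinv' μ hμ' hcopd
  obtain ⟨τ, hτ, hτdet, -⟩ := H04.Cliff.det_ext_unique hirr τ₀ hτ₀ hcopd μ hμ'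
  obtain ⟨hηirr, hηN⟩ := H04.Cliff.char_of_ext hirr hτ
  let η : IrrCharacter G := ⟨τ.character, hηirr⟩
  have hηθ : ∀ n : N, η.1 n = θ.1 n := by
    intro n
    rw [← hρ]
    exact hηN n
  refine ⟨η, hηθ, fun k hk hkN g => ?_⟩
  set r := Nat.card N with hr
  have hrcard : Nat.card G = p ^ m * r := by
    rw [← hm, hr, mul_comm]
    exact (Subgroup.card_mul_index N).symm
  have hτdetr : ∀ g, (LinearMap.det (τ g)) ^ r = 1 := by
    intro g
    rw [← hτdet g]
    have h1 : (μ g) ^ r = 1 := by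
      have h2 : orderOf (μ g) ∣ orderOf μ := by
        apply orderOf_dvd_of_pow_eq_one
        rw [← MonoidHom.pow_apply, pow_orderOf_eq_one]
        rfl
      have h3 : orderOf (μ g) ∣ r := h2.trans (hμord ▸ hφord)
      exact orderOf_dvd_iff_pow_eq_one.1 h3
    have h3 := congrArg Units.val h1
    simpa using h3
  let χ₂ : IrrCharacter G := ⟨fun g => η.1 (g ^ k), H06.isIrrCharacter_comp_pow hk η.2⟩
  have hχ₂N : ∀ n : N, χ₂.1 n = θ.1 n := by
    intro n
    show η.1 ((n : G) ^ k) = _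
    have h1 : ((n : G) ^ k) = ((n ^ k : N) : G) := by simp
    rw [h1, hkN, hηθ]
  obtain ⟨l, hlN, hl⟩ := exists_linear_ratio' N θ η χ₂ hηθ hχ₂N
  obtain ⟨t, ht⟩ := H06.exists_galois_ringHom (n := Nat.card G) Nat.card_pos.ne' hk
  have hrep2 : (H06.ringTwist τ t).character = χ₂.1 := by
    funext g
    rw [ringTwist_character_pow τ t ht]
  have hrep1 : (H06.scalarTwist τ ((Units.coeHom ℂ).comp l)).character = χ₂.1 := by
    funext g
    rw [H06.scalarTwist_character, hl]
    rfl
  have hdetrel : ∀ g, ((l g : ℂ)) ^ d * LinearMap.det (τ g) = (LinearMap.det (τ g)) ^ k := by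
    intro g
    have h1 := H06.det_eq_of_character_eq _ _ (hrep1.trans hrep2.symm) g
    rw [H06.scalarTwist_det, ringTwist_det, hfin] at h1
    have h2 : t (LinearMap.det (τ g)) = (LinearMap.det (τ g)) ^ k := by
      apply ht
      rw [hrcard, mul_comm, pow_mul, hτdetr g, one_pow]
    rw [h2] at h1
    exact h1
  have hl1 : ∀ g, l g = 1 := by
    intro g
    have h1 : (l g) ^ (d * r) = 1 := by
      apply Units.ext
      have h2 := congrArg (fun z : ℂ => z ^ r) (hdetrel g)
      simp only [mul_pow] at h2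
      have h4 : (LinearMap.det (τ g) ^ k) ^ r = 1 := by
        rw [← pow_mul, mul_comm k r, pow_mul, hτdetr g, one_pow]
      rw [hτdetr g, mul_one, h4, ← pow_mul] at h2
      push_cast
      exact h2
    have h2 : (l g) ^ (p ^ m) = 1 := by
      have h3 : g ^ p ^ m ∈ N := by
        rw [← QuotientGroup.eq_one_iff, QuotientGroup.mk_pow, ← hm]
        rw [Subgroup.index_eq_card]
        exact pow_card_eq_one'
      rw [← map_pow, hlN _ h3]
    have hco : Nat.Coprime (d * r) (p ^ m) := by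
      apply Nat.Coprime.pow_right
      rw [Nat.coprime_comm, Nat.Prime.coprime_iff_not_dvd hpp, hpp.dvd_mul]
      intro h5
      rcases h5 with h5 | h5
      · exact hpd h5
      · rw [Nat.coprime_comm, Nat.Prime.coprime_iff_not_dvd hpp] at hNp
        exact hNp h5
    have h3 := pow_gcd_eq_one.2 ⟨h1, h2⟩
    rwa [hco.gcd_eq_one, pow_one] at h3
  have h1 := hl g
  rw [hl1 g] at h1
  simpa using h1

end Canon

end Cfsg.Agent.H21.FP
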