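import Cfsg.Agent.Lib.H21.FeitA

/-!
# A power-invariant character with the same kernel on the `p'`-part
-/

set_option autoImplicit false
set_option linter.unusedSectionVars false
set_option linter.style.haveILetI false
set_option linter.unusedSimpArgs false

namespace Cfsg.Agent.H21.FP

open scoped ComplexConjugate
open Cfsg Module Cfsg.Agent.H22 Cfsg.Agent Cfsg.Agent.H06

universe u

section Cliff

variable {N : Type u} [Group N] [Fintype N]

/-- Existence part of the Clifford correspondence, keeping track of the character below. -/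
theorem exists_clifford_ind' (H T : Subgroup N) [hN : H.Normal] [Fintype H] [Fintype T] (hHT : H ≤ T)
    {θ : H → ℂ} (hθ : IsIrrCharacter H θ)
    (hT : ∀ g : N, g ∈ T ↔ ∀ h : H, θ ⟨g * h * g⁻¹, hN.conj_mem h h.2 g⟩ = θ h)
    {χ : N → ℂ} (hχ : IsIrrCharacter N χ) (hc : classInner (fun h : H => χ h) θ ≠ 0) :
    ∃ ψ : T → ℂ, IsIrrCharacter T ψ ∧
      classInner (indFun (H.subgroupOf T) (subTheta H T θ)) ψ ≠ 0 ∧ χ = indFun T ψ := by
  classical
  haveI : Fintype (H.subgroupOf T) := Fintype.ofFinite _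
  haveI : Fintype (IrrCharacter T) := Fintype.ofFinite _
  haveI : Fintype (IrrCharacter N) := Fintype.ofFinite _
  have hχc := isCharacter_of_irr hχ
  have hχT : IsCharacter T (fun t : T => χ t) := isCharacter_restrict T hχc
  have hclT := isClassFunction_of_isCharacter hχT
  set θ' : H.subgroupOf T → ℂ := subTheta H T θ with hθ'
  have hcard : Nat.card (H.subgroupOf T) = Nat.card H :=
    Nat.card_congr (Subgroup.subgroupOfEquivOfLe hHT).toEquiv
  have h1 : classInner (fun h : H.subgroupOf T => χ ((h : T) : N)) θ' =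
      classInner (fun h : H => χ h) θ := by
    simp only [classInner]
    rw [hcard]
    congr 1
    refine Fintype.sum_equiv (Subgroup.subgroupOfEquivOfLe hHT).toEquiv _ _ fun h => ?_
    rfl
  have h2 : classInner (indFun (H.subgroupOf T) θ') (fun t : T => χ t) ≠ 0 := by
    rw [frobenius_reciprocity (H.subgroupOf T) θ' _ hclT]
    intro h3
    apply hc
    rw [← h1, ← classInner_comm_conj, h3, map_zero]
  have hind := isCharacter_indFun (H.subgroupOf T) (isCharacter_of_irr (subTheta_irr H T hHT hθ))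
  rw [classInner_parseval (isClassFunction_of_isCharacter hind) hclT] at h2
  obtain ⟨ψ, -, hψ⟩ := Finset.exists_ne_zero_of_sum_ne_zero h2
  have hψ1 := left_ne_zero_of_mul hψ
  have hψ2 : classInner (fun t : T => χ t) (ψ : T → ℂ) ≠ 0 := by
    intro h
    apply right_ne_zero_of_mul hψ
    rw [h, map_zero]
  obtain ⟨hirr, -⟩ := clifford_correspondence H T hHT hθ hT ψ.2 ψ.2 hψ1 hψ1
  refine ⟨ψ, ψ.2, hψ1, ?_⟩
  have h3 : classInner (indFun T (ψ : T → ℂ)) χ ≠ 0 := by
    rw [frobenius_reciprocity T _ _ (isClassFunction_of_isCharacter hχc)]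
    intro h
    apply hψ2
    rw [← classInner_comm_conj, h, map_zero]
  by_contra hne
  exact h3 (classInner_irr_ne hirr hχ (fun h => hne h.symm))

end Cliff

section Beta

variable {X : Type u} [Group X] [Fintype X] {p : ℕ} [hp : Fact p.Prime]

/-- The extension by zero is unchanged by coprime powers when the function is. -/
theorem extendByZero_pow (T : Subgroup X) (η : T → ℂ) {k : ℕ} (hk : k.Coprime (Nat.card X))
    (hη : ∀ t : T, η (t ^ k) = η t) (z : X) :
    extendByZero T η (z ^ k) = extendByZero T η z := by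
  by_cases hz : z ∈ T
  · have h1 := extendByZero_coe T η ⟨z, hz⟩
    have h2 := extendByZero_coe T η (⟨z, hz⟩ ^ k)
    simp only [SubmonoidClass.mk_pow] at h2
    rw [h2, h1, ← hη ⟨z, hz⟩]
    rfl
  · rw [extendByZero_of_not_mem T η hz, extendByZero_of_not_mem T η]
    intro h
    apply hz
    have hco : k.Coprime (orderOf z) := Nat.Coprime.coprime_dvd_right (orderOf_dvd_natCard z) hk
    obtain ⟨m, hm⟩ := exists_pow_eq_self_of_coprime hco
    rw [← hm]
    exact pow_mem h m

/-- One step: the constituent over the inertia group and the induced canonical extension. -/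
theorem exists_beta (K : Subgroup X) [hK : K.Normal] (hKp : (Nat.card K).Coprime p) {m : ℕ}
    (hm : K.index = p ^ m) {α : X → ℂ} (hα : IsIrrCharacter X α) :
    ∃ (β : X → ℂ) (e : ℕ), IsCharacter X β ∧ e ≠ 0 ∧ (∀ n ∈ K, α n = e * β n) ∧
      ∀ k : ℕ, k.Coprime (Nat.card X) → (∀ n : K, n ^ k = n) → ∀ g, β (g ^ k) = β g := by
  classical
  have hpp : p.Prime := hp.out
  haveI : Fintype K := Fintype.ofFinite _
  obtain ⟨θ, hθ, hc⟩ := H23.exists_constituent K hα
  let T : Subgroup X := H04.Cliff.inertG K θ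
  have hKT : K ≤ T := by
    intro n hn h
    exact isClassFunction_of_isCharacter (isCharacter_of_irr hθ) h ⟨n, hn⟩
  haveI : Fintype T := Fintype.ofFinite _
  obtain ⟨ψ, hψ, hψc, hαeq⟩ := exists_clifford_ind' K T hKT hθ (fun g => Iff.rfl) hα hc
  let K' : Subgroup T := K.subgroupOf T
  haveI hK'n : K'.Normal := inferInstance
  haveI : Fintype K' := Fintype.ofFinite _
  let θ' : K' → ℂ := subTheta K T θ
  have hθ' : IsIrrCharacter K' θ' := subTheta_irr K T hKT hθ
  have hinv' : ∀ (g : T) (n : K'), θ' ⟨g * n * g⁻¹, hK'n.conj_mem (n : T) n.2 g⟩ = θ' n := by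
    intro g n
    exact g.2 ⟨((n : T) : X), n.2⟩
  have htw : ∀ t : T, twist K' θ' t = θ' := by
    intro t
    funext n
    exact hinv' t n
  obtain ⟨e, he0, -, hres⟩ := clifford_restrict K' hθ' hψ htw hψc
  have hK'c : Nat.card K' = Nat.card K := Nat.card_congr (Subgroup.subgroupOfEquivOfLe hKT).toEquiv
  have hidx : ∃ m', K'.index = p ^ m' := by
    have h1 : K'.index ∣ K.index := Subgroup.relIndex_dvd_index_of_normal K T
    rw [hm] at h1
    obtain ⟨m', -, hm'⟩ := (Nat.dvd_prime_pow hpp).1 h1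
    exact ⟨m', hm'⟩
  obtain ⟨m', hm'⟩ := hidx
  obtain ⟨η, hηK, hηk⟩ := exists_canon_ext K' (hK'c ▸ hKp) hm' ⟨θ', hθ'⟩ hinv'
  refine ⟨indFun T η.1, e, isCharacter_indFun T (isCharacter_of_irr η.2), he0, ?_, ?_⟩
  · intro n hn
    rw [hαeq]
    simp only [indFun]
    rw [mul_left_comm]
    congr 1
    rw [Finset.mul_sum]
    refine Finset.sum_congr rfl fun x _ => ?_
    have hx : x⁻¹ * n * x ∈ K := by
      have := hK.conj_mem n hn x⁻¹
      rwa [inv_inv] at this
    have h1 := extendByZero_coe T ψ ⟨x⁻¹ * n * x, hKT hx⟩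
    have h2 := extendByZero_coe T η.1 ⟨x⁻¹ * n * x, hKT hx⟩
    simp only at h1 h2
    rw [h1, h2]
    have h3 := hres ⟨⟨x⁻¹ * n * x, hKT hx⟩, hx⟩
    have h4 := hηK ⟨⟨x⁻¹ * n * x, hKT hx⟩, hx⟩
    rw [h4] at *
    exact h3
  · intro k hk hkK g
    have hkT : k.Coprime (Nat.card T) :=
      Nat.Coprime.coprime_dvd_right (Subgroup.card_subgroup_dvd_card T) hk
    have hkK' : ∀ n : K', n ^ k = n := by
      intro n
      apply Subtype.ext
      apply Subtype.ext
      have := congrArg Subtype.val (hkK ⟨((n : T) : X), n.2⟩)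
      simpa using this
    have hηt : ∀ t : T, η.1 (t ^ k) = η.1 t := hηk k hkT hkK'
    simp only [indFun]
    congr 1
    refine Finset.sum_congr rfl fun x _ => ?_
    have h1 : x⁻¹ * g ^ k * x = (x⁻¹ * g * x) ^ k := by
      have h2 := conj_pow (a := x⁻¹) (b := g) (i := k)
      rw [inv_inv] at h2
      exact h2.symm
    rw [h1]
    exact extendByZero_pow T η.1 hk hηt _

/-- The power-invariant character attached to a character. -/
theorem exists_psi (K : Subgroup X) [hK : K.Normal] (hKp : (Nat.card K).Coprime p) {m : ℕ}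
    (hm : K.index = p ^ m) {χ : X → ℂ} (hχ : IsCharacter X χ) :
    ∃ ψ : X → ℂ, IsCharacter X ψ ∧ charDegree ψ ≤ charDegree χ ∧
      (∀ n ∈ K, ψ n = ψ 1 → χ n = χ 1) ∧
      ∀ k : ℕ, k.Coprime (Nat.card X) → (∀ n : K, n ^ k = n) → ∀ g, ψ (g ^ k) = ψ g := by
  classical
  haveI : Fintype (IrrCharacter X) := Fintype.ofFinite _
  obtain ⟨m₀, hχm, -⟩ := isCharacter_decomp hχ
  choose β e hβ he hαβ hk using fun α : IrrCharacter X => exists_beta K hKp hm α.2
  let s : Finset (IrrCharacter X) := Finset.univ.filter (fun α => m₀ α ≠ 0)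
  have hψc : IsCharacter X (∑ α ∈ s, β α) := isCharacter_sum s β fun α _ => hβ α
  have hχapp : ∀ g, χ g = ∑ α : IrrCharacter X, (m₀ α : ℂ) * α.1 g := by
    intro g
    rw [hχm]
    simp [Finset.sum_apply]
  have hβ1 : ∀ α, β α 1 = (charDegree (β α) : ℂ) := fun α => one_eq_charDegree (hβ α)
  have hα1 : ∀ α : IrrCharacter X, α.1 1 = (e α : ℂ) * (charDegree (β α) : ℂ) := by
    intro α
    rw [hαβ α 1 (one_mem _), hβ1]
  refine ⟨∑ α ∈ s, β α, hψc, ?_, ?_, ?_⟩
  · have h1 : ((charDegree (∑ α ∈ s, β α) : ℕ) : ℂ) = ((∑ α ∈ s, charDegree (β α) : ℕ) : ℂ) := by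
      rw [← one_eq_charDegree hψc, Finset.sum_apply]
      push_cast
      exact Finset.sum_congr rfl fun α _ => hβ1 α
    have h2 : ((charDegree χ : ℕ) : ℂ) =
        ((∑ α : IrrCharacter X, m₀ α * (e α * charDegree (β α)) : ℕ) : ℂ) := by
      rw [← one_eq_charDegree hχ, hχapp]
      push_cast
      exact Finset.sum_congr rfl fun α _ => by rw [hα1]
    have h3 : charDegree (∑ α ∈ s, β α) = ∑ α ∈ s, charDegree (β α) := by exact_mod_cast h1
    have h4 : charDegree χ = ∑ α : IrrCharacter X, m₀ α * (e α * charDegree (β α)) := by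
      exact_mod_cast h2
    rw [h3, h4]
    calc ∑ α ∈ s, charDegree (β α) ≤ ∑ α ∈ s, m₀ α * (e α * charDegree (β α)) := by
          refine Finset.sum_le_sum fun α hα => ?_
          have h5 : m₀ α ≠ 0 := (Finset.mem_filter.1 hα).2
          have h6 := he α
          calc charDegree (β α) = 1 * (1 * charDegree (β α)) := by ring
            _ ≤ m₀ α * (e α * charDegree (β α)) := by
                apply Nat.mul_le_mul (Nat.one_le_iff_ne_zero.2 h5)
                exact Nat.mul_le_mul_right _ (Nat.one_le_iff_ne_zero.2 h6)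
      _ ≤ _ := Finset.sum_le_sum_of_subset (Finset.filter_subset _ _)
  · intro n hn hψn
    have hsum : ∑ α ∈ s, ((1 : ℝ) : ℂ) * β α n =
        ∑ α ∈ s, ((1 : ℝ) : ℂ) * (((charDegree (β α) : ℕ) : ℝ) : ℂ) := by
      have h1 : (∑ α ∈ s, β α) n = ∑ α ∈ s, β α n := Finset.sum_apply _ _ _
      have h2 : (∑ α ∈ s, β α) 1 = ∑ α ∈ s, β α 1 := Finset.sum_apply _ _ _
      rw [h1, h2] at hψn
      simp only [Complex.ofReal_one, one_mul, Complex.ofReal_natCast]
      rw [hψn]
      exact Finset.sum_congr rfl fun α _ => hβ1 α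
    have heach := H22.eq_of_sum_eq_of_norm_le s (fun _ => (1 : ℝ))
      (fun α => ((charDegree (β α) : ℕ) : ℝ)) (fun α => β α n) (fun _ _ => one_pos)
      (fun α _ => isCharacter_norm_le (hβ α) n) hsum
    rw [hχapp, hχapp]
    refine Finset.sum_congr rfl fun α _ => ?_
    by_cases hα : m₀ α = 0
    · simp [hα]
    · have h1 := heach α (Finset.mem_filter.2 ⟨Finset.mem_univ _, hα⟩)
      congr 1
      rw [hαβ α n hn, hα1, h1]
      simp
  · intro k hk' hkK g
    rw [Finset.sum_apply, Finset.sum_apply]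
    exact Finset.sum_congr rfl fun α _ => hk α k hk' hkK g

/-- The abstract form of the main theorem. -/
theorem feit_abstract (K : Subgroup X) [hK : K.Normal] (hKp : (Nat.card K).Coprime p) {m : ℕ}
    (hm : K.index = p ^ m) {χ : X → ℂ} (hχ : IsCharacter X χ)
    (hfaith : ∀ n ∈ K, χ n = χ 1 → n = 1) (P₁ : Subgroup X) (hP₁ : IsPGroup p P₁) :
    Nat.card P₁ ≤ p ^ H23.FO.SS p (charDegree χ) (charDegree χ) *
      Nat.card (P₁ ⊓ Subgroup.centralizer (K : Set X) : Subgroup X) := by
  classical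
  have hpp : p.Prime := hp.out
  obtain ⟨ψ, hψ, hdeg, hker, hkinv⟩ := exists_psi K hKp hm hχ
  haveI : Fintype P₁ := Fintype.ofFinite _
  obtain ⟨a, ha⟩ := IsPGroup.iff_card.1 hP₁
  haveI hne : NeZero (Nat.card P₁) := ⟨Nat.card_pos.ne'⟩
  have hexp : ∀ g : P₁, g ^ Nat.card P₁ = 1 := fun g => pow_card_eq_one'
  have hres : IsCharacter P₁ (fun x : P₁ => ψ x) := isCharacter_restrict P₁ hψ
  have hcoPK : (Nat.card P₁).Coprime (Nat.card K) := by
    rw [ha]
    exact Nat.Coprime.pow_left _ hKp.symm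
  have hcardX : Nat.card X = p ^ m * Nat.card K := by
    rw [← hm, mul_comm]
    exact (Subgroup.card_mul_index K).symm
  have hinv : H23.FO.PInv (Nat.card P₁) (fun x : P₁ => ψ x) := by
    intro u
    funext x
    rw [H23.FO.tw_apply]
    by_cases hP1 : Nat.card P₁ = 1
    · haveI : Subsingleton P₁ := (Nat.card_eq_one_iff_unique.1 hP1).1
      rw [Subsingleton.elim (x ^ ((u : ZMod (Nat.card P₁)).val)) x]
    set v := (u : ZMod (Nat.card P₁)).val with hv
    have hvc : v.Coprime (Nat.card P₁) := H23.FO.val_coprime u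
    obtain ⟨k', hk1, hk2⟩ := Nat.chineseRemainder hcoPK v 1
    have h1 : k'.Coprime (Nat.card P₁) := by
      have := hk1.gcd_eq
      rw [Nat.Coprime, this]
      exact hvc
    have h2 : k'.Coprime (Nat.card K) := by
      have := hk2.gcd_eq
      rw [Nat.Coprime, this]
      simp
    have h3 : k'.Coprime p := by
      have ha0 : a ≠ 0 := by
        rintro rfl
        exact hP1 (by rw [ha, pow_zero])
      rw [ha] at h1
      exact Nat.Coprime.coprime_dvd_right (dvd_pow_self p ha0) h1
    have h4 : k'.Coprime (Nat.card X) := by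
      rw [hcardX]
      exact Nat.Coprime.mul_right (Nat.Coprime.pow_right _ h3) h2
    have h5 : ∀ n : K, n ^ k' = n := by
      intro n
      have h6 : n ^ k' = n ^ 1 := by
        rw [pow_eq_pow_iff_modEq]
        exact hk2.of_dvd (orderOf_dvd_natCard n)
      rwa [pow_one] at h6
    have h7 := hkinv k' h4 h5 (x : X)
    have h8 : x ^ k' = x ^ v := by
      rw [pow_eq_pow_iff_modEq]
      exact hk1.of_dvd (orderOf_dvd_natCard x)
    have h9 : ((x ^ v : P₁) : X) = (x : X) ^ k' := by
      rw [← h8]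
      simp
    show ψ ((x ^ v : P₁) : X) = ψ x
    rw [h9, h7]
  have hdeg2 : charDegree (fun x : P₁ => ψ x) = charDegree ψ := by
    have e1 := one_eq_charDegree hres
    have e2 := one_eq_charDegree hψ
    have e3 : ψ ((1 : P₁) : X) = (charDegree ψ : ℂ) := e2
    rw [e3] at e1
    exact_mod_cast e1.symm
  have hmain := H23.FO.main_pinv p a hpp ha rfl hexp (charDegree χ) _ _ hres rfl
    (by rw [hdeg2]; exact hdeg) hinv
  have hSS : H23.FO.SS p (charDegree χ) (charDegree (fun x : P₁ => ψ x)) ≤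
      H23.FO.SS p (charDegree χ) (charDegree χ) := by
    rw [hdeg2]
    unfold H23.FO.SS
    exact Finset.sum_le_sum fun i _ => Nat.div_le_div_right hdeg
  have hmain2 := hmain.trans (Nat.pow_le_pow_right hpp.pos hSS)
  have hcard := Subgroup.index_mul_card (charKer _ hres)
  have hcent : ∀ y : X, ψ y = ψ 1 → y ∈ Subgroup.centralizer (K : Set X) := by
    intro y hy
    rw [Subgroup.mem_centralizer_iff]
    intro c hc
    let L := charKer ψ hψ
    haveI hLn : L.Normal := charKer_normal ψ hψ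
    have hyL : y ∈ L := hy
    have h1 : y * c * y⁻¹ * c⁻¹ ∈ L := by
      have h6 := mul_mem hyL (hLn.conj_mem _ (inv_mem hyL) c)
      have h7 : y * (c * y⁻¹ * c⁻¹) = y * c * y⁻¹ * c⁻¹ := by group
      rwa [h7] at h6
    have h2 : y * c * y⁻¹ * c⁻¹ ∈ K := mul_mem (hK.conj_mem _ hc _) (inv_mem hc)
    have h3 := hfaith _ h2 (hker _ h2 h1)
    have h4 : y * c = c * y := by
      have h5 := mul_inv_eq_one.1 h3
      exact mul_inv_eq_iff_eq_mul.1 h5
    exact h4.symm
  have hle : Nat.card (charKer _ hres) ≤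
      Nat.card (P₁ ⊓ Subgroup.centralizer (K : Set X) : Subgroup X) := by
    let f : charKer _ hres → (P₁ ⊓ Subgroup.centralizer (K : Set X) : Subgroup X) :=
      fun y => ⟨y.1.1, Subgroup.mem_inf.2 ⟨y.1.2, hcent _ y.2⟩⟩
    apply Nat.card_le_card_of_injective f
    intro y y' h
    apply Subtype.ext
    apply Subtype.ext
    exact congrArg (fun z : (P₁ ⊓ Subgroup.centralizer (K : Set X) : Subgroup X) => (z : X)) h
  rw [← hcard]
  exact Nat.mul_le_mul hmain2 hle

end Beta

end Cfsg.Agent.H21.FP
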