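import Cfsg.Agent.Lib.H21.FongOne
import Cfsg.Agent.Lib.H26.QuadSL2
import Cfsg.Agent.Lib.H04.Cliff.Degree
import Cfsg.Agent.Lib.H04.Cliff.Gallagher
import Cfsg.Agent.Lib.H23.Ito2
import Cfsg.Agent.Lib.H23.RealDeg6

/-!
# Heights in blocks of `p`-solvable groups: `p ^ h ≤ |D : Z(D)|`
-/

set_option autoImplicit false
set_option linter.unusedSectionVars false
set_option linter.style.haveILetI false
set_option linter.unusedSimpArgs false
set_option linter.unusedVariables false

namespace Cfsg.Agent.H21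

open scoped ComplexConjugate
open Cfsg Module Cfsg.Agent.H22

universe u

variable {G : Type u} [Group G] [Finite G]

/-- `χ(1)/μ(1)` divides `|G : A|` for a constituent `μ` on a normal subgroup. -/
theorem degree_dvd_index_mul {χ : G → ℂ} (hχ : IsIrrCharacter G χ) (A : Subgroup G) [hA : A.Normal]
    {μ : A → ℂ} (hμ : IsIrrCharacter A μ) (hne : classInner (fun a : A => χ a) μ ≠ 0) :
    charDegree χ ∣ A.index * charDegree μ := by
  classical
  let T : Subgroup G := H06.inertiaSub A μ
  have hAT : A ≤ T := H06.le_inertiaSub A (isClassFunction_of_isCharacter (isCharacter_of_irr hμ))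
  have hT : ∀ g : G, g ∈ T ↔ ∀ h : A, μ ⟨g * h * g⁻¹, hA.conj_mem h h.2 g⟩ = μ h :=
    fun g => H06.mem_inertiaSub A
  let X : T → ℂ := indFun (A.subgroupOf T) (H06.subTheta A T μ)
  have hXc : IsCharacter T X := isCharacter_indFun _ (isCharacter_of_irr (H06.subTheta_irr A T hAT hμ))
  have hind : indFun T X = indFun A μ := H06.indFun_trans A T hAT μ
  have hcχ := isCharacter_of_irr hχ
  have hcls := isClassFunction_of_isCharacter hcχ
  have hin : classInner (indFun T X) χ ≠ 0 := by
    rw [hind, frobenius_reciprocity A μ χ hcls]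
    intro h0
    apply hne
    have := classInner_comm_conj (fun a : A => χ a) μ
    rw [h0] at this
    simpa using this
  have hexp : classInner (indFun T X) χ
      = ∑ ψ : IrrCharacter T, classInner X (ψ : T → ℂ) * classInner (indFun T (ψ : T → ℂ)) χ := by
    rw [frobenius_reciprocity T X χ hcls]
    conv_lhs => rw [classFunction_expansion X (isClassFunction_of_isCharacter hXc)]
    rw [classInner_sum_left]
    refine Finset.sum_congr rfl fun ψ _ => ?_
    rw [classInner_smul_left, frobenius_reciprocity T _ χ hcls]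
  obtain ⟨ψ, -, hψ⟩ : ∃ ψ ∈ (Finset.univ : Finset (IrrCharacter T)),
      classInner X (ψ : T → ℂ) * classInner (indFun T (ψ : T → ℂ)) χ ≠ 0 := by
    by_contra hcon
    push Not at hcon
    apply hin
    rw [hexp]
    exact Finset.sum_eq_zero hcon
  have hψ1 := left_ne_zero_of_mul hψ
  have hψ2 := right_ne_zero_of_mul hψ
  obtain ⟨e, he, -, hres⟩ := H06.restrict_of_inner_ne A T hAT hμ hT ψ.2 hψ1
  obtain ⟨hirr, -⟩ := H06.clifford_correspondence A T hAT hμ hT ψ.2 ψ.2 hψ1 hψ1
  have heq : indFun T (ψ : T → ℂ) = χ := by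
    by_contra hcon
    exact hψ2 (H06.classInner_irr_ne hirr hχ hcon)
  have hdeg : charDegree χ = T.index * charDegree (ψ : T → ℂ) := by
    rw [← heq]
    exact charDegree_indFun T (isCharacter_of_irr ψ.2)
  have hone : ((ψ : T → ℂ) 1) = e * μ 1 := hres 1
  have hdeg' : charDegree (ψ : T → ℂ) = e * charDegree μ := by
    have h1 := one_eq_charDegree (isCharacter_of_irr ψ.2)
    rw [hone, one_eq_charDegree (isCharacter_of_irr hμ)] at h1
    exact_mod_cast h1.symm
  -- `e` divides `|T : A|`
  haveI hn' : (A.subgroupOf T).Normal := Subgroup.Normal.subgroupOf hA T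
  have hinv' : ∀ t : T, H06.twist (A.subgroupOf T) (H06.subTheta A T μ) t = H06.subTheta A T μ := by
    intro t
    funext n
    have h1 := (hT t).1 t.2 ⟨(n : T), Subgroup.mem_subgroupOf.1 n.2⟩
    exact h1
  have hres' : ∀ n : A.subgroupOf T, (ψ : T → ℂ) n = e * H06.subTheta A T μ n := by
    intro n
    exact hres ⟨(n : T), Subgroup.mem_subgroupOf.1 n.2⟩
  have hed : e ∣ (A.subgroupOf T).index := H04.Cliff.multiplicity_dvd_index (A.subgroupOf T)
    (H06.subTheta_irr A T hAT hμ) hinv' ψ.2 hres'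
  rw [hdeg, hdeg', ← Subgroup.relIndex_mul_index hAT]
  have h2 : e * charDegree μ ∣ A.relIndex T * charDegree μ := mul_dvd_mul_right hed _
  calc T.index * (e * charDegree μ) ∣ T.index * (A.relIndex T * charDegree μ) := mul_dvd_mul_left _ h2
    _ = A.relIndex T * T.index * charDegree μ := by ring

theorem index_center_congr {A B : Type*} [Group A] [Group B] [Finite A] [Finite B] (e : A ≃* B) :
    (Subgroup.center A).index = (Subgroup.center B).index := by
  have h1 := Subgroup.card_mul_index (Subgroup.center A)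
  have h2 := Subgroup.card_mul_index (Subgroup.center B)
  have h3 : Nat.card A = Nat.card B := Nat.card_congr e.toEquiv
  have h4 : Nat.card (Subgroup.center A) = Nat.card (Subgroup.center B) :=
    Nat.card_congr (Subgroup.centerCongr e).toEquiv
  have h5 : 0 < Nat.card (Subgroup.center B) := Nat.card_pos
  rw [h3, ← h2, h4] at h1
  exact Nat.eq_of_mul_eq_mul_left h5 h1

variable {p : ℕ} [hp : Fact p.Prime] {M : Ideal AlgInt} [hMp : M.IsPrime]

/-- The bound on degrees over an invariant character of `O_{p'}(G)`. -/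
theorem val_degree_le_center (hsolv : IsPSolvable p G) (N : Subgroup G)
    [hN : N.Normal] (hNdef : N = pPrimeCore p G) (θ : IrrCharacter N)
    (hinv : ∀ (g : G) (n : N), θ.1 ⟨g * n * g⁻¹, hN.conj_mem n n.2 g⟩ = θ.1 n)
    (χ : IrrCharacter G) (hχ : ∑ n : N, conj (θ.1 n) * χ.1 n ≠ 0) (P : Sylow p G) :
    (charDegree χ.1).factorization p ≤
      (Subgroup.center (P : Subgroup G)).index.factorization p := by
  classical
  have hNc : (Nat.card N).Coprime p := by
    rw [hNdef]
    exact H06.coprime_card_pPrimeCore p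
  set H := upperP p N with hHdef
  have hNH : N ≤ H := le_upperP N
  haveI hHn : H.Normal := Subgroup.Normal.comap (Cfsg.Agent.H01.pCore_normal p) _
  obtain ⟨k, hk⟩ : ∃ k : ℕ, (N.subgroupOf H).index = p ^ k := exists_index_upperP N
  haveI hKn : (N.subgroupOf H).Normal := Subgroup.normal_subgroupOf
  have hKcard : Nat.card (N.subgroupOf H) = Nat.card N :=
    Nat.card_congr (phiN hNH).toEquiv
  have hKc : (Nat.card (N.subgroupOf H)).Coprime p := by rw [hKcard]; exact hNc
  -- the constituent on `H`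
  have hexp := sum_res_expand hNH χ θ
  rw [hexp] at hχ
  obtain ⟨ξ, -, hψ⟩ := Finset.exists_ne_zero_of_sum_ne_zero hχ
  have hψ1 : classInner (fun t : H => χ.1 t) ξ.1 ≠ 0 := left_ne_zero_of_mul hψ
  have hψ2 : cvr hNH ξ θ ≠ 0 := right_ne_zero_of_mul hψ
  -- the extension
  have hinvK : ∀ (x : H) (n : N.subgroupOf H), (thetaT hNH θ).1
      ⟨x * n * x⁻¹, hKn.conj_mem n n.2 x⟩ = (thetaT hNH θ).1 n := by
    intro x n
    rw [thetaT_apply, thetaT_apply]
    have := hinv x ⟨(n : H), Subgroup.mem_subgroupOf.mp n.2⟩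
    exact this
  have hcop : Nat.Coprime (N.subgroupOf H).index (Nat.card (N.subgroupOf H)) := by
    rw [hk]
    exact Nat.Coprime.pow_left _ hKc.symm
  obtain ⟨η, hη⟩ := exists_ext_coprime (N.subgroupOf H) hcop (thetaT hNH θ) hinvK
  have hηdeg : ¬ p ∣ charDegree η.1 := by
    have h1 : η.1 1 = (thetaT hNH θ).1 1 := hη 1
    have h2 : charDegree η.1 = charDegree (thetaT hNH θ).1 := by
      unfold charDegree
      rw [h1]
    rw [h2]
    intro h3
    have h4 := h3.trans (charDegree_dvd_card (thetaT hNH θ))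
    exact (Nat.Prime.coprime_iff_not_dvd hp.out).1 hKc.symm h4
  -- Gallagher
  have hone : IsIrrCharacter (N.subgroupOf H) (fun _ => (1 : ℂ)) := isIrrCharacter_one
  have hprod : ((fun _ => (1 : ℂ)) * (thetaT hNH θ).1 : N.subgroupOf H → ℂ) = (thetaT hNH θ).1 := by
    funext n
    simp
  have hG := H04.Cliff.gallagher_bij (N.subgroupOf H) hone (by rw [hprod]; exact (thetaT hNH θ).2)
    (fun t => by funext n; rfl) (fun t => by funext n; exact hinvK t n)
    (isCharacter_of_irr η.2) hη
  have hξmem : ξ.1 ∈ {ψ : H → ℂ | IsIrrCharacter H ψ ∧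
      classInner (indFun (N.subgroupOf H) ((fun _ => (1 : ℂ)) * (thetaT hNH θ).1)) ψ ≠ 0} := by
    refine ⟨ξ.2, ?_⟩
    rw [hprod, frobenius_reciprocity _ _ _ (isClassFunction_of_isCharacter (isCharacter_of_irr ξ.2))]
    rw [← classInner_comm_conj]
    intro h0
    have h1 := sum_thetaT hNH ξ θ
    apply hψ2
    rw [← h1]
    have h2 : classInner (fun n : N.subgroupOf H => ξ.1 n) (thetaT hNH θ).1 = 0 := by
      simpa using h0
    unfold classInner at h2
    have h3 : (Nat.card (N.subgroupOf H) : ℂ)⁻¹ ≠ 0 := by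
      simp [Nat.card_pos.ne']
    have h4 := (mul_eq_zero.1 h2).resolve_left h3
    rw [← h4]
    exact Finset.sum_congr rfl fun n _ => mul_comm _ _
  obtain ⟨β, ⟨hβ, hβin⟩, hβξ⟩ := hG.2.2 hξmem
  -- `β` has `N` in its kernel
  obtain ⟨e, he, -, hres⟩ := H06.clifford_restrict (N.subgroupOf H) hone hβ
    (fun t => by funext n; rfl) hβin
  have hβker : ∀ n : N.subgroupOf H, β n = β 1 := by
    intro n
    have h1 := hres n
    have h2 := hres 1
    simp only [mul_one] at h1 h2
    rw [h1]
    exact h2.symm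
  let f : H →* H ⧸ N.subgroupOf H := QuotientGroup.mk' _
  obtain ⟨β', hβ', hcomp⟩ := isIrrCharacter_descend f (QuotientGroup.mk'_surjective _) hβ (by
    intro x hx
    have : x ∈ N.subgroupOf H := (QuotientGroup.eq_one_iff x).1 hx
    exact hβker ⟨x, this⟩)
  -- the quotient of `G`
  have hO := pPrimeCore_quot_eq_bot (p := p) N hNdef
  have hs : IsPSolvable p (G ⧸ N) :=
    H03.isPSolvable_of_surjective (QuotientGroup.mk'_surjective N) hsolv
  have hcent := H03.centralizer_pCore_le_of_isPSolvable hs hO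
  have hFbn : (pCore p (G ⧸ N)).Normal := Cfsg.Agent.H01.pCore_normal p
  have hFb : IsPGroup p (pCore p (G ⧸ N)) := Cfsg.Agent.H01.pCore_isPGroup p
  let Pb : Sylow p (G ⧸ N) := P.mapSurjective (QuotientGroup.mk'_surjective N)
  have hFP : pCore p (G ⧸ N) ≤ (Pb : Subgroup (G ⧸ N)) := H23.normal_pgroup_le_sylow _ hFb Pb
  have hlift : ∀ f ∈ pCore p (G ⧸ N), ∃ q ∈ (P : Subgroup G), QuotientGroup.mk' N q = f := by
    intro f hf
    have h1 : f ∈ (Pb : Subgroup (G ⧸ N)) := hFP hf
    obtain ⟨q, hq, hq'⟩ := h1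
    exact ⟨q, hq, hq'⟩
  -- the centre of `P`
  let Z : Subgroup G := (Subgroup.center (P : Subgroup G)).map (P : Subgroup G).subtype
  have hZcomm : ∀ z ∈ Z, ∀ q ∈ (P : Subgroup G), z * q = q * z := by
    rintro _ ⟨z, hz, rfl⟩ q hq
    have h1 := (Subgroup.mem_center_iff.1 hz) ⟨q, hq⟩
    have h2 := congrArg Subtype.val h1
    exact h2.symm
  have hZcent : ∀ z ∈ Z, QuotientGroup.mk' N z ∈
      Subgroup.centralizer (pCore p (G ⧸ N) : Set (G ⧸ N)) := by
    intro z hz
    rw [Subgroup.mem_centralizer_iff]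
    intro f hf
    obtain ⟨q, hq, rfl⟩ := hlift f hf
    rw [← map_mul, ← map_mul, hZcomm z hz q hq]
  have hZH : Z ≤ H := fun z hz => hcent (hZcent z hz)
  let A : Subgroup (H ⧸ N.subgroupOf H) := (Z.subgroupOf H).map f
  have hAcent : ∀ a ∈ A, ∀ b : H ⧸ N.subgroupOf H, a * b = b * a := by
    rintro _ ⟨z, hz, rfl⟩ b
    obtain ⟨h, rfl⟩ := QuotientGroup.mk'_surjective _ b
    have h1 := Subgroup.mem_centralizer_iff.1 (hZcent z (Subgroup.mem_subgroupOf.1 hz))
      (QuotientGroup.mk' N (h : G)) h.2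
    have h2 : (h : G) * z * ((z : G) * h)⁻¹ ∈ N := by
      have h3 : QuotientGroup.mk' N ((h : G) * z * ((z : G) * h)⁻¹) = 1 := by
        rw [map_mul, map_inv, map_mul, map_mul, h1]
        simp
      exact (QuotientGroup.eq_one_iff _).1 h3
    change f z * f h = f h * f z
    rw [← map_mul, ← map_mul]
    apply (QuotientGroup.eq (s := N.subgroupOf H)).2
    rw [Subgroup.mem_subgroupOf]
    have h4 : (((z * h)⁻¹ * (h * z) : H) : G) =
        ((z : G) * h)⁻¹ * ((h : G) * z * ((z : G) * h)⁻¹) * ((z : G) * h) := by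
      push_cast
      group
    rw [h4]
    exact hN.conj_mem' _ h2 _
  haveI hAn : A.Normal := by
    constructor
    intro a ha g
    rw [← hAcent a ha g, mul_inv_cancel_right]
    exact ha
  have hAcomm : ∀ a ∈ A, ∀ b ∈ A, a * b = b * a := fun a ha b _ => hAcent a ha b
  have hito := H23.ito_dvd hβ' A hAcomm
  -- degrees
  have hdβ : charDegree β = charDegree β' := by
    unfold charDegree
    rw [← hcomp]
    simp
  have hβξ' : β * η.1 = ξ.1 := hβξ
  have hdξ : charDegree ξ.1 = charDegree β * charDegree η.1 := by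
    have h1 := one_eq_charDegree (isCharacter_of_irr ξ.2)
    have h2 : ξ.1 1 = β 1 * η.1 1 := by rw [← hβξ']; rfl
    rw [h2, one_eq_charDegree (isCharacter_of_irr hβ),
      one_eq_charDegree (isCharacter_of_irr η.2)] at h1
    exact_mod_cast h1.symm
  have hχdvd := degree_dvd_index_mul χ.2 H ξ.2 hψ1
  -- orders
  have hPcard : Nat.card (P : Subgroup G) = p ^ (Nat.card G).factorization p :=
    Sylow.card_eq_multiplicity P
  have hpgZ : IsPGroup p (Subgroup.center (P : Subgroup G)) :=
    IsPGroup.to_subgroup P.isPGroup' _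
  obtain ⟨z, hz⟩ := (IsPGroup.iff_card).1 hpgZ
  have hZcard : Nat.card Z = p ^ z := by
    rw [← hz]
    exact Nat.card_congr
      (Subgroup.equivMapOfInjective _ _ (Subgroup.subtype_injective _)).symm.toEquiv
  -- `A` is isomorphic to `Z`
  have hinj : Function.Injective (f.comp (Z.subgroupOf H).subtype) := by
    rw [injective_iff_map_eq_one]
    rintro ⟨x, hx⟩ hx1
    have hxK : x ∈ N.subgroupOf H := (QuotientGroup.eq_one_iff x).1 hx1
    have hxN : (x : G) ∈ N := Subgroup.mem_subgroupOf.1 hxK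
    have hxZ : (x : G) ∈ Z := Subgroup.mem_subgroupOf.1 hx
    have hpZ : IsPGroup p Z := by
      rw [IsPGroup.iff_card]
      exact ⟨z, hZcard⟩
    have hbot : (x : G) = 1 := by
      obtain ⟨j, hj⟩ := hpZ ⟨(x : G), hxZ⟩
      have hj' : (x : G) ^ p ^ j = 1 := by
        have := congrArg Subtype.val hj
        simpa using this
      have h1 : orderOf (x : G) ∣ p ^ j := _root_.orderOf_dvd_of_pow_eq_one hj'
      have h2 : orderOf (x : G) ∣ Nat.card N := by
        have h3 : orderOf (⟨(x : G), hxN⟩ : N) = orderOf (x : G) := Subgroup.orderOf_mk _ _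
        rw [← h3]
        exact orderOf_dvd_natCard _
      have h3 : Nat.Coprime (p ^ j) (Nat.card N) := Nat.Coprime.pow_left _ hNc.symm
      have h4 : orderOf (x : G) = 1 := Nat.eq_one_of_dvd_coprimes h3 h1 h2
      exact orderOf_eq_one_iff.1 h4
    exact Subtype.ext (Subtype.ext hbot)
  have hArange : A = (f.comp (Z.subgroupOf H).subtype).range := by
    rw [MonoidHom.range_comp, Subgroup.range_subtype]
  have hAcard : Nat.card A = p ^ z := by
    rw [← hZcard, hArange]
    rw [← Nat.card_congr (MonoidHom.ofInjective hinj).toEquiv]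
    exact Nat.card_congr (Subgroup.subgroupOfEquivOfLe hZH).toEquiv
  have hFcard : Nat.card (H ⧸ N.subgroupOf H) = p ^ k := by
    rw [← Subgroup.index_eq_card, hk]
  have hAi := Subgroup.index_mul_card A
  rw [hAcard, hFcard] at hAi
  obtain ⟨a, -, ha⟩ := (Nat.dvd_prime_pow hp.out).1 (Dvd.intro _ hAi)
  rw [ha, ← pow_add] at hAi
  have hak : a + z = k := Nat.pow_right_injective hp.out.two_le hAi
  -- valuations
  set v := (Nat.card G).factorization p with hv
  have hHi : (H.index).factorization p + k = v := by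
    have h1 : Nat.card G = Nat.card (N.subgroupOf H) * p ^ k * H.index := by
      rw [← hk, Subgroup.card_mul_index, mul_comm]
      exact (Subgroup.index_mul_card H).symm
    rw [hv, h1]
    have h0 : Nat.card (N.subgroupOf H) ≠ 0 := Nat.card_pos.ne'
    have h0' : H.index ≠ 0 := Subgroup.index_ne_zero_of_finite
    have h0'' : p ^ k ≠ 0 := (pow_pos hp.out.pos _).ne'
    rw [Nat.factorization_mul (mul_ne_zero h0 h0'') h0', Nat.factorization_mul h0 h0'']
    simp only [Finsupp.add_apply, Nat.factorization_pow, Finsupp.smul_apply, smul_eq_mul,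
      hp.out.factorization_self, mul_one]
    have := Nat.factorization_eq_zero_of_not_dvd
      ((Nat.Prime.coprime_iff_not_dvd hp.out).1 hKc.symm)
    omega
  have hci : (Subgroup.center (P : Subgroup G)).index.factorization p = v - z := by
    have h1 := Subgroup.index_mul_card (Subgroup.center (P : Subgroup G))
    rw [hz, hPcard] at h1
    obtain ⟨c, -, hc⟩ := (Nat.dvd_prime_pow hp.out).1 (Dvd.intro _ h1)
    rw [hc, ← pow_add] at h1
    have h2 : c + z = v := Nat.pow_right_injective hp.out.two_le h1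
    rw [hc, Nat.factorization_pow]
    simp only [Finsupp.smul_apply, smul_eq_mul, hp.out.factorization_self, mul_one]
    omega
  rw [hci]
  have hd0 : H.index * (p ^ a * charDegree η.1) ≠ 0 := by
    refine mul_ne_zero Subgroup.index_ne_zero_of_finite
      (mul_ne_zero (pow_pos hp.out.pos _).ne' (irr_charDegree_pos η.2).ne')
  have hχdvd' : charDegree χ.1 ∣ H.index * (p ^ a * charDegree η.1) := by
    refine hχdvd.trans (mul_dvd_mul_left _ ?_)
    rw [hdξ, hdβ]
    refine mul_dvd_mul_right ?_ _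
    rw [← ha]
    exact hito
  have hle := (Nat.factorization_le_iff_dvd (irr_charDegree_pos χ.2).ne' hd0).2 hχdvd' p
  rw [Nat.factorization_mul Subgroup.index_ne_zero_of_finite
    (mul_ne_zero (pow_pos hp.out.pos _).ne' (irr_charDegree_pos η.2).ne'),
    Nat.factorization_mul (pow_pos hp.out.pos _).ne' (irr_charDegree_pos η.2).ne'] at hle
  simp only [Finsupp.add_apply, Nat.factorization_pow, Finsupp.smul_apply, smul_eq_mul,
    hp.out.factorization_self, mul_one] at hle
  have hη0 := Nat.factorization_eq_zero_of_not_dvd hηdeg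
  omega

/-- **Fong's height bound** in `p`-solvable groups. -/
theorem height_le_center (hM : IsPModular p M) :
    ∀ (n : ℕ) (G : Type u) [Group G] [Finite G], Nat.card G = n → IsPSolvable p G →
      ∀ (B : Set (IrrCharacter G)), IsPBlock M B → ∀ (P : Subgroup G), IsDefectGroup p M B P →
      ∀ χ ∈ B, blockHeight p B χ.1 ≤ (Subgroup.center P).index.factorization p := by
  intro n
  induction n using Nat.strong_induction_on with
  | _ n ih =>
  intro G _ _ hn hsolv B hB P hP χ hχ
  classical
  have hNdef : pPrimeCore p G = pPrimeCore p G := rfl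
  set N := pPrimeCore p G with hNN
  haveI hN : N.Normal := pPrimeCore_normal p G
  have hNc : (Nat.card N).Coprime p := H06.coprime_card_pPrimeCore p
  have hNd : ¬ p ∣ Nat.card N := (Nat.Prime.coprime_iff_not_dvd hp.out).1 hNc.symm
  obtain ⟨θ, hθ⟩ := H22.exists_constituent N χ
  let b : Set (IrrCharacter N) := blockOf M θ.1
  have hb : IsPBlock M b := isBlock_blockOf θ
  have hθb : θ ∈ b := self_mem_blockOf θ
  have hbeq : ∀ θ' ∈ b, θ' = θ := by
    intro θ' hθ'
    refine eq_of_mem_block_of_defect_zero hM θ ?_ hθ'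
    intro h
    exact hNd (h.trans (Nat.div_dvd_of_dvd (charDegree_dvd_card θ)))
  set T := blockStab N b with hTdef
  have hNT : N ≤ T := fun n hn => mem_blockStab_of_mem b hn
  have hT := blockStab_iff b
  by_cases hTtop : T = ⊤
  · have hinv : ∀ (g : G) (n : N), θ.1 ⟨g * n * g⁻¹, hN.conj_mem n n.2 g⟩ = θ.1 n := by
      intro g n
      have hg : g ∈ T := by rw [hTtop]; trivial
      have h1 := (hT g).1 hg θ hθb (conjIrr N g θ) (fun n => conjIrr_apply N g θ n)
      have h2 := hbeq _ h1
      rw [← conjIrr_apply, h2]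
    obtain ⟨B₀, hB₀, h1, -, h3⟩ := fong_over_main hM hsolv N rfl θ hinv
    have hBB : B = B₀ := block_eq_of_inter hB hB₀ hχ ((h1 χ).2 hθ)
    subst hBB
    obtain ⟨χ₀, hχ₀, hχ₀d⟩ := exists_pprime_over N hNc θ hinv
    have hmin : minExp p B = 0 := by
      have h4 := minExp_le (p := p) ((h1 χ₀).2 hχ₀)
      have h5 := Nat.factorization_eq_zero_of_not_dvd hχ₀d
      omega
    obtain ⟨S, rfl⟩ := h3 P hP
    have h6 : blockHeight p B χ.1 = (charDegree χ.1).factorization p - minExp p B := rfl
    rw [h6, hmin, Nat.sub_zero]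
    exact val_degree_le_center hsolv N rfl θ hinv χ hθ S
  · have hlt : Nat.card T < n := by
      rw [← hn]
      refine lt_of_le_of_ne (Subgroup.card_le_card_group T) fun h => hTtop ?_
      exact Subgroup.eq_top_of_card_eq _ h
    have FR := fong_reynolds_main hM N b hb T hT hNT
    have hcov : ∃ χ ∈ B, ∃ θ ∈ b, classInner (fun n : N => (χ : G → ℂ) n) (θ : N → ℂ) ≠ 0 :=
      ⟨χ, hχ, θ, hθb, (inner_ne_iff _ _).2 hθ⟩
    obtain ⟨B', hB', hcov', hind⟩ := FR.2.2 B hB hcov
    obtain ⟨B₁, hind₁, -, -, hchar⟩ := FR.1 B' hB' hcov'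
    have hB₁ : B₁ = B := by
      obtain ⟨ξ, hξ⟩ := block_nonempty hB'
      obtain ⟨χ₁, hχ₁⟩ := block_nonempty hind₁.2.1
      refine block_eq_of_inter hind₁.2.1 hB hχ₁ ?_
      rw [block_eq_of_mem hB hχ]
      intro g
      have h1 := hind₁.2.2 ξ hξ χ₁ hχ₁ g
      have h2 := hind.2.2 ξ hξ χ hχ g
      have h3 := mli_sub h1 h2
      have h4 : inducedCentralChar T ξ.1 g - centralChar χ₁.1 g -
          (inducedCentralChar T ξ.1 g - centralChar χ.1 g) =
          centralChar χ.1 g - centralChar χ₁.1 g := by ring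
      rwa [h4] at h3
    obtain ⟨ψ, hψ, hψχ⟩ := (hchar χ).1 (hB₁ ▸ hχ)
    obtain ⟨hdef, hh⟩ := fong_reynolds_defect hM N b hb T hT hNT B' hB' hcov' B hind
    obtain ⟨χ', -, hχ'ind, hheight⟩ := hh ψ hψ
    have hχχ' : χ' = χ := Subtype.ext (hχ'ind.trans hψχ.symm)
    subst hχχ'
    obtain ⟨D₀, hD₀⟩ := isDefectGroup_exists (p := p) hB'
    have hD₁ := hdef D₀ hD₀
    obtain ⟨x, hx⟩ := exists_conj_defect hM hB hD₁ hP
    have IH := ih _ hlt T rfl (H26.QuadSL.isPSolvable_subgroup hsolv T) B' hB' D₀ hD₀ ψ hψ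
    rw [hheight]
    refine IH.trans (le_of_eq ?_)
    have hidx : (Subgroup.center D₀).index = (Subgroup.center P).index := by
      rw [← hx]
      refine index_center_congr ?_
      exact (Subgroup.equivMapOfInjective D₀ T.subtype (Subgroup.subtype_injective _)).trans
        (Subgroup.equivMapOfInjective _ _ (MulAut.conj x).injective)
    rw [hidx]

end Cfsg.Agent.H21
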