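import Cfsg.Agent.Lib.H23.SylAct2
import Cfsg.Agent.Lib.H06.CharGalois
import Cfsg.Agent.Lib.H06.CharExtend
import Cfsg.Agent.S0867
import Cfsg.Agent.Lib.H22.Brauer2

/-!
# The Glauberman correspondence for a cyclic group: preliminaries
-/

set_option autoImplicit false
set_option linter.unusedSectionVars false
set_option linter.style.haveILetI false
set_option linter.unusedSimpArgs false

namespace Cfsg.Agent.H21

open scoped ComplexConjugate
open Cfsg Module Cfsg.Agent.H22 Cfsg.Agent.H23 SemidirectProduct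

universe u

/-- A number that takes the same value at the primitive roots of unity is an integer. -/
theorem int_of_const_on_primitive {n : ℕ} (hn : 0 < n) (Q : Polynomial ℤ) (α : ℂ)
    (h : ∀ ζ : ℂ, IsPrimitiveRoot ζ n → Polynomial.aeval ζ Q = α) : ∃ m : ℤ, α = m := by
  classical
  haveI : NeZero n := ⟨hn.ne'⟩
  set Φ := Polynomial.cyclotomic n ℤ with hΦ
  have hmonic : Φ.Monic := Polynomial.cyclotomic.monic n ℤ
  set R := Q %ₘ Φ with hR
  have hQ : Q = R + Φ * (Q /ₘ Φ) := (Polynomial.modByMonic_add_div Q Φ).symm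
  have hroot : ∀ ζ : ℂ, IsPrimitiveRoot ζ n → Polynomial.aeval ζ Φ = 0 := by
    intro ζ hζ
    have h1 : Polynomial.aeval ζ Φ = Polynomial.eval ζ (Polynomial.cyclotomic n ℂ) := by
      rw [hΦ, Polynomial.aeval_def, Polynomial.eval₂_eq_eval_map, Polynomial.map_cyclotomic]
    rw [h1]
    exact (Polynomial.isRoot_cyclotomic_iff).mpr hζ
  have hRval : ∀ ζ : ℂ, IsPrimitiveRoot ζ n → Polynomial.aeval ζ R = α := by
    intro ζ hζ
    have h1 := h ζ hζ
    rw [hQ, map_add, map_mul, hroot ζ hζ, zero_mul, add_zero] at h1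
    exact h1
  obtain ⟨ζ, hζ⟩ : ∃ ζ : ℂ, IsPrimitiveRoot ζ n :=
    ⟨Complex.exp (2 * Real.pi * Complex.I / n), Complex.isPrimitiveRoot_exp n hn.ne'⟩
  have hcard : (primitiveRoots n ℂ).card = n.totient := hζ.card_primitiveRoots
  have hdegΦ : Φ.natDegree = n.totient := Polynomial.natDegree_cyclotomic n ℤ
  have hpos : 0 < n.totient := Nat.totient_pos.mpr hn
  have hne1 : Φ ≠ 1 := by
    intro he
    have := congrArg Polynomial.natDegree he
    rw [hdegΦ, Polynomial.natDegree_one] at this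
    omega
  have hdegR : R.natDegree < n.totient := by
    have := Polynomial.natDegree_modByMonic_lt Q hmonic hne1
    rwa [hdegΦ] at this
  set P : Polynomial ℂ := R.map (Int.castRingHom ℂ) - Polynomial.C α with hP
  have hPzero : P = 0 := by
    apply Polynomial.eq_zero_of_natDegree_lt_card_of_eval_eq_zero' P (primitiveRoots n ℂ)
    · intro z hz
      have hz' : IsPrimitiveRoot z n := (mem_primitiveRoots hn).mp hz
      rw [hP, Polynomial.eval_sub, Polynomial.eval_C, Polynomial.eval_map, sub_eq_zero]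
      have := hRval z hz'
      rw [Polynomial.aeval_def] at this
      exact this
    · rw [hcard]
      have h1 : P.natDegree ≤ max (R.map (Int.castRingHom ℂ)).natDegree (Polynomial.C α).natDegree :=
        Polynomial.natDegree_sub_le _ _
      have h2 : (R.map (Int.castRingHom ℂ)).natDegree ≤ R.natDegree := Polynomial.natDegree_map_le
      have h3 : (Polynomial.C α).natDegree = 0 := Polynomial.natDegree_C α
      omega
  have h1 : R.map (Int.castRingHom ℂ) = Polynomial.C α := sub_eq_zero.mp hPzero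
  refine ⟨R.coeff 0, ?_⟩
  have h2 := congrArg (fun p => Polynomial.coeff p 0) h1
  simp only [Polynomial.coeff_map, Polynomial.coeff_C_zero] at h2
  rw [← h2]
  simp

section Galois

variable {Γ : Type u} [Group Γ] [Finite Γ]

theorem ringTwist_char_pow {d k : ℕ} (ρ : Representation ℂ Γ (Fin d → ℂ)) {τ : ℂ →+* ℂ}
    (hτ : ∀ μ : ℂ, μ ^ Nat.card Γ = 1 → τ μ = μ ^ k) :
    (H06.ringTwist ρ τ).character = fun g => ρ.character (g ^ k) := by
  funext g
  rw [H06.ringTwist_character]
  obtain ⟨ι, _, b, μ, h1, h2, h3, -⟩ := exists_eigenbasis ρ g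
  have hμ : ∀ i, μ i ^ Nat.card Γ = 1 := by
    intro i
    obtain ⟨c, hc⟩ := orderOf_dvd_natCard g
    rw [hc, pow_mul, h2, one_pow]
  simp only [Representation.character]
  rw [h3, map_sum]
  have hpow : ∀ i, ρ (g ^ k) (b i) = μ i ^ k • b i := by
    intro i
    rw [map_pow]
    have : ∀ m : ℕ, ((ρ g) ^ m) (b i) = μ i ^ m • b i := by
      intro m
      induction m with
      | zero => simp
      | succ m ih =>
        rw [pow_succ, Module.End.mul_apply, h1, map_smul, ih, smul_smul, pow_succ, mul_comm]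
    exact this k
  rw [trace_of_eigenbasis _ b _ hpow]
  exact Finset.sum_congr rfl fun i _ => hτ _ (hμ i)

theorem detChar_comp_pow {k : ℕ} (hk : k.Coprime (Nat.card Γ)) {χ : Γ → ℂ} (hχ : IsCharacter Γ χ) :
    detChar (fun g => χ (g ^ k)) = (detChar χ) ^ k := by
  obtain ⟨d, ρ, rfl⟩ := hχ
  obtain ⟨τ, hτ⟩ := H06.exists_galois_ringHom (n := Nat.card Γ) Nat.card_pos.ne' hk
  rw [← ringTwist_char_pow ρ hτ]
  funext g
  rw [Pi.pow_apply, H04.Cliff.detChar_rep, H04.Cliff.detChar_rep]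
  have h1 : H06.ringTwist ρ τ g = Matrix.toLin' ((LinearMap.toMatrix' (ρ g)).map τ) := rfl
  rw [h1, LinearMap.det_toLin']
  have h2 : ((LinearMap.toMatrix' (ρ g)).map τ).det = τ (LinearMap.toMatrix' (ρ g)).det :=
    (RingHom.map_det τ _).symm
  rw [h2, LinearMap.det_toMatrix']
  apply hτ
  rw [← map_pow, ← map_pow, pow_card_eq_one', map_one, map_one]

theorem detOrder_comp_pow_dvd {k : ℕ} (hk : k.Coprime (Nat.card Γ)) {χ : Γ → ℂ}
    (hχ : IsCharacter Γ χ) : detOrder (fun g => χ (g ^ k)) ∣ detOrder χ := by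
  unfold detOrder
  rw [detChar_comp_pow hk hχ]
  apply _root_.orderOf_dvd_of_pow_eq_one
  rw [← pow_mul, mul_comm, pow_mul, pow_orderOf_eq_one, one_pow]

theorem detOrder_dvd_card {χ : Γ → ℂ} (hχ : IsCharacter Γ χ) : detOrder χ ∣ Nat.card Γ := by
  obtain ⟨d, ρ, rfl⟩ := hχ
  rw [H04.Cliff.detOrder_rep]
  apply _root_.orderOf_dvd_of_pow_eq_one
  ext g
  show ((H04.Cliff.detU ρ g : ℂˣ) ^ Nat.card Γ : ℂˣ).val = 1
  rw [← map_pow, pow_card_eq_one', map_one]
  rfl

end Galois

theorem sum_prod_finite {α β : Type*} [Finite α] [Finite β] (F : α × β → ℂ) :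
    ∑ g : α × β, F g = ∑ c : α, ∑ a : β, F (c, a) := by
  convert Fintype.sum_prod_type F

section Setup

variable {K A : Type u} [Group K] [Group A] [Finite K] [Finite A] (φ : A →* MulAut K)

theorem bot_stable : ∀ d, ∀ q ∈ (⊥ : Subgroup K), φ d q ∈ (⊥ : Subgroup K) := by
  intro d q hq
  rw [Subgroup.mem_bot] at hq ⊢
  rw [hq, map_one]

/-- The fixed points. -/
abbrev CF : Subgroup K := fixQ φ ⊥ (bot_stable φ)

theorem mem_CF {k : K} : k ∈ CF φ ↔ ∀ d, φ d k = k := by
  rw [mem_fixQ]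
  simp only [Subgroup.mem_bot, mul_inv_eq_one]

/-- The function on the fixed points attached to a function on the semidirect product. -/
def fC (ψ : K ⋊[φ] A → ℂ) (a : A) (c : CF φ) : ℂ := ψ (inl (c : K) * inr a)

theorem index_Nl : (Nl φ).index = Nat.card A := by
  unfold Nl
  rw [range_inl_eq_ker_rightHom, Subgroup.index_ker, MonoidHom.range_eq_top.mpr rightHom_surjective]
  exact Nat.card_congr Subgroup.topEquiv.toEquiv

theorem orderOf_gen {b : A} (hb : ∀ d : A, d ∈ Subgroup.zpowers b) : orderOf b = Nat.card A :=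
  orderOf_eq_card_of_forall_mem_zpowers hb

theorem cop_bot {b : A} (hb : ∀ d : A, d ∈ Subgroup.zpowers b)
    (hcop : (Nat.card K).Coprime (Nat.card A)) : (orderOf b).Coprime (⊥ : Subgroup K).index := by
  rw [orderOf_gen hb, Subgroup.index_bot]
  exact hcop.symm

theorem coset_mean {b : A} (hb : ∀ d : A, d ∈ Subgroup.zpowers b)
    (hcop : (Nat.card K).Coprime (Nat.card A)) (F : K ⋊[φ] A → ℂ) (hF : IsClassFunction _ F) :
    (Nat.card K : ℂ)⁻¹ * ∑ k : K, F (inl k * inr b)
      = (Nat.card (CF φ) : ℂ)⁻¹ * ∑ c : CF φ, F (inl (c : K) * inr b) :=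
  mean_eq (bot_stable φ) hb (cop_bot hb hcop) (fun k => F (inl k * inr b))
    (fun y k => by
      show F (inl (y * k * (φ b y)⁻¹) * inr b) = F (inl k * inr b)
      rw [twist_conj]
      exact hF _ _)

theorem classInner_fC {b : A} (hb : ∀ d : A, d ∈ Subgroup.zpowers b)
    (hcop : (Nat.card K).Coprime (Nat.card A)) {ψ ψ' : K ⋊[φ] A → ℂ}
    (hψ : IsClassFunction _ ψ) (hψ' : IsClassFunction _ ψ') :
    classInner (fC φ ψ b) (fC φ ψ' b) = classInner (cosetFn φ ψ b) (cosetFn φ ψ' b) := by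
  have h := coset_mean φ hb hcop (fun x => ψ x * conj (ψ' x)) (fun g k => by
    show ψ (k * g * k⁻¹) * conj (ψ' (k * g * k⁻¹)) = ψ g * conj (ψ' g)
    rw [hψ g k, hψ' g k])
  unfold classInner
  exact h.symm

theorem fC_isClass {b : A} {ψ : K ⋊[φ] A → ℂ} (hψ : IsClassFunction _ ψ) :
    IsClassFunction (CF φ) (fC φ ψ b) := by
  intro c c'
  have hfix : φ b (c' : K) = c' := (mem_CF φ).mp c'.2 b
  have h := cosetFn_twist φ hψ b (c' : K) (c : K)
  rw [hfix] at h
  exact h

/-- The product of the fixed points and the acting group. -/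
def jH : CF φ × A →* K ⋊[φ] A :=
  MonoidHom.noncommCoprod (((inl : K →* K ⋊[φ] A)).comp (CF φ).subtype) inr (by
    intro c a
    have h1 : (inl (φ a (c : K)) : K ⋊[φ] A) = inr a * inl (c : K) * (inr a)⁻¹ := by
      rw [inl_aut, map_inv]
    rw [(mem_CF φ).mp c.2 a] at h1
    show Commute (inl (c : K) : K ⋊[φ] A) (inr a)
    show inl (c : K) * inr a = inr a * inl (c : K)
    calc inl (c : K) * inr a = (inr a * inl (c : K) * (inr a)⁻¹) * inr a := by rw [← h1]
      _ = inr a * inl (c : K) := by group)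

@[simp] theorem jH_apply (x : CF φ × A) : jH φ x = inl (x.1 : K) * inr x.2 := rfl

theorem exists_mult {ψ : K ⋊[φ] A → ℂ} (hψ : IsCharacter _ ψ) (γ : IrrCharacter (CF φ))
    (l : IrrCharacter A) :
    ∃ m : ℕ, (Nat.card (CF φ) : ℂ)⁻¹ * (Nat.card A : ℂ)⁻¹ *
      ∑ c : CF φ, ∑ a : A, ψ (inl (c : K) * inr a) * conj (γ.1 c) * conj (l.1 a) = m := by
  have h1 : IsCharacter (CF φ × A) (ψ ∘ jH φ) := isCharacter_comp (jH φ) hψ
  have h2 : IsCharacter (CF φ × A) ((γ.1 ∘ (MonoidHom.fst _ _)) * (l.1 ∘ (MonoidHom.snd _ _))) :=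
    isCharacter_mul (isCharacter_comp _ (isCharacter_of_irr γ.2))
      (isCharacter_comp _ (isCharacter_of_irr l.2))
  obtain ⟨m, hm⟩ := classInner_isCharacter_nat h1 h2
  refine ⟨m, ?_⟩
  rw [← hm]
  unfold classInner
  rw [Nat.card_prod, sum_prod_finite]
  push_cast
  rw [mul_inv]
  congr 1
  refine Finset.sum_congr rfl fun c _ => Finset.sum_congr rfl fun a _ => ?_
  simp only [Function.comp, jH_apply, Pi.mul_apply, MonoidHom.coe_fst, MonoidHom.coe_snd, map_mul]
  ring

/-- The multiplicities on the product. -/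
noncomputable def mult {ψ : K ⋊[φ] A → ℂ} (hψ : IsCharacter _ ψ) (γ : IrrCharacter (CF φ))
    (l : IrrCharacter A) : ℕ := Classical.choose (exists_mult φ hψ γ l)

theorem mult_spec {ψ : K ⋊[φ] A → ℂ} (hψ : IsCharacter _ ψ) (γ : IrrCharacter (CF φ))
    (l : IrrCharacter A) :
    (Nat.card (CF φ) : ℂ)⁻¹ * (Nat.card A : ℂ)⁻¹ *
      ∑ c : CF φ, ∑ a : A, ψ (inl (c : K) * inr a) * conj (γ.1 c) * conj (l.1 a)
        = mult φ hψ γ l := Classical.choose_spec (exists_mult φ hψ γ l)

open Classical in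
theorem sum_irr_abelian (hA : ∀ x y : A, x * y = y * x) (a₀ a : A) :
    ∑ l : IrrCharacter A, l.1 a₀ * conj (l.1 a) = if a = a₀ then (Nat.card A : ℂ) else 0 := by
  classical
  by_cases h : a = a₀
  · subst h
    rw [if_pos rfl, column_orthogonality_of_isConj (IsConj.refl a)]
    have : Subgroup.centralizer ({a} : Set A) = ⊤ := by
      rw [eq_top_iff]
      intro x _
      rw [Subgroup.mem_centralizer_iff]
      intro h _
      exact hA _ _
    rw [this]
    exact_mod_cast Nat.card_congr Subgroup.topEquiv.toEquiv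
  · rw [if_neg h, column_orthogonality_of_not_isConj]
    intro hc
    obtain ⟨u, hu⟩ := isConj_iff.mp hc
    apply h
    rw [← hu, hA u a₀, mul_assoc, mul_inv_cancel, mul_one]

/-- Expansion over the characters of the acting group. -/
theorem coset_four (hA : ∀ x y : A, x * y = y * x) {ψ : K ⋊[φ] A → ℂ} (hψ : IsCharacter _ ψ)
    (γ : IrrCharacter (CF φ)) (a₀ : A) :
    classInner (fC φ ψ a₀) γ.1 = ∑ l : IrrCharacter A, (mult φ hψ γ l : ℂ) * l.1 a₀ := by
  classical
  simp only [← mult_spec φ hψ γ]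
  have hAc : (Nat.card A : ℂ) ≠ 0 := by exact_mod_cast Nat.card_pos.ne'
  have h1 : ∀ l : IrrCharacter A, (Nat.card (CF φ) : ℂ)⁻¹ * (Nat.card A : ℂ)⁻¹ *
      (∑ c : CF φ, ∑ a : A, ψ (inl (c : K) * inr a) * conj (γ.1 c) * conj (l.1 a)) * l.1 a₀
      = (Nat.card (CF φ) : ℂ)⁻¹ * (Nat.card A : ℂ)⁻¹ * ∑ c : CF φ, ∑ a : A,
        ψ (inl (c : K) * inr a) * conj (γ.1 c) * (l.1 a₀ * conj (l.1 a)) := by
    intro l
    rw [mul_assoc]
    congr 1
    rw [Finset.sum_mul]
    refine Finset.sum_congr rfl fun c _ => ?_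
    rw [Finset.sum_mul]
    refine Finset.sum_congr rfl fun a _ => ?_
    ring
  simp only [h1]
  rw [← Finset.mul_sum, Finset.sum_comm]
  simp only [Finset.sum_comm (s := (Finset.univ : Finset (IrrCharacter A))) (t := (Finset.univ : Finset A))]
  have h2 : ∀ c : CF φ, ∑ a : A, ∑ l : IrrCharacter A,
      ψ (inl (c : K) * inr a) * conj (γ.1 c) * (l.1 a₀ * conj (l.1 a))
      = (Nat.card A : ℂ) * (ψ (inl (c : K) * inr a₀) * conj (γ.1 c)) := by
    intro c
    simp only [← Finset.mul_sum, sum_irr_abelian hA]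
    rw [Finset.sum_eq_single a₀]
    · rw [if_pos rfl]
      ring
    · intro a _ ha
      rw [if_neg ha, mul_zero]
    · simp
  simp only [h2]
  unfold classInner
  rw [← Finset.mul_sum]
  simp only [fC]
  field_simp

end Setup

end Cfsg.Agent.H21
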