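import Cfsg.Agent.Lib.H21.GlaubCyc1

/-!
# The Glauberman correspondence for a cyclic group: integrality
-/

set_option autoImplicit false
set_option linter.unusedSectionVars false
set_option linter.style.haveILetI false
set_option linter.unusedSimpArgs false

namespace Cfsg.Agent.H21

open scoped ComplexConjugate
open Cfsg Module Cfsg.Agent.H22 Cfsg.Agent.H23 SemidirectProduct

universe u

variable {K A : Type u} [Group K] [Group A] [Finite K] [Finite A] (φ : A →* MulAut K)

theorem card_semidirect : Nat.card (K ⋊[φ] A) = Nat.card K * Nat.card A := by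
  rw [Nat.card_congr (SemidirectProduct.equivProd (φ := φ)), Nat.card_prod]

/-- Uniqueness of the canonical extension. -/
theorem canon_unique (hcop : (Nat.card K).Coprime (Nat.card A)) {ψ ψ' : K ⋊[φ] A → ℂ}
    (hψ : IsIrrCharacter _ ψ) (hψ' : IsIrrCharacter _ ψ')
    (hr : ∀ k, ψ (inl k) = ψ' (inl k)) (hirr : IsIrrCharacter K (fun k => ψ (inl k)))
    (hdet : (detOrder ψ).Coprime (Nat.card A)) (hdet' : (detOrder ψ').Coprime (Nat.card A)) :
    ψ = ψ' := by
  classical
  have hn1 : classInner (fun n : Nl φ => ψ n) (fun n : Nl φ => ψ n) = 1 := by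
    rw [classInner_Nl]
    exact H06.classInner_irr_self hirr
  have hϑ : IsIrrCharacter (Nl φ) (fun n : Nl φ => ψ n) :=
    isIrrCharacter_of_inner_self_eq_one (isCharacter_restrict _ (isCharacter_of_irr hψ)) hn1
  have hinv : ∀ (g : K ⋊[φ] A) (n : Nl φ),
      (fun n : Nl φ => ψ n) ⟨g * n * g⁻¹, (Nl_normal φ).conj_mem (n : K ⋊[φ] A) n.2 g⟩
        = (fun n : Nl φ => ψ n) n := fun g n =>
    isClassFunction_of_isCharacter (isCharacter_of_irr hψ) _ _
  have hd : (fun n : Nl φ => ψ n) 1 = ((charDegree (fun k => ψ (inl k)) : ℕ) : ℂ) := by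
    have h1 := one_eq_charDegree (isCharacter_of_irr hirr)
    have h2 : ψ (inl 1) = ψ 1 := by rw [map_one]
    rw [← h1, h2]
    rfl
  have hdvd1 : detOrder (fun n : Nl φ => ψ n) ∣ Nat.card K := by
    have := detOrder_dvd_card (isCharacter_of_irr hϑ)
    rwa [card_Nl] at this
  have hdvd2 : charDegree (fun k => ψ (inl k)) ∣ Nat.card K :=
    charDegree_dvd_card ⟨_, hirr⟩
  have hcop2 : ((Nl φ).index).Coprime
      (detOrder (fun n : Nl φ => ψ n) * charDegree (fun k => ψ (inl k))) := by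
    rw [index_Nl]
    exact Nat.Coprime.mul_right (Nat.Coprime.coprime_dvd_right hdvd1 hcop.symm)
      (Nat.Coprime.coprime_dvd_right hdvd2 hcop.symm)
  obtain ⟨χ₀, -, hu⟩ := S0867.result (Nl φ) (fun n : Nl φ => ψ n) hϑ hinv _ hd hcop2
  have h1 := hu ψ hψ (fun _ => rfl) (by rw [index_Nl]; exact hdet.symm)
  have hr' : ∀ n : Nl φ, ψ' n = ψ n := by
    rintro ⟨_, k, rfl⟩
    exact (hr k).symm
  have h2 := hu ψ' hψ' hr' (by rw [index_Nl]; exact hdet'.symm)
  rw [h1, h2]

/-- A canonical extension is invariant under power maps fixing `K`. -/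
theorem canon_pow_inv (hcop : (Nat.card K).Coprime (Nat.card A)) {ψ : K ⋊[φ] A → ℂ}
    (hψ : IsIrrCharacter _ ψ) (hirr : IsIrrCharacter K (fun k => ψ (inl k)))
    (hdet : (detOrder ψ).Coprime (Nat.card A)) {N : ℕ} (hN : N ≡ 1 [MOD Nat.card K])
    (hNA : N.Coprime (Nat.card A)) (x : K ⋊[φ] A) : ψ (x ^ N) = ψ x := by
  have hNK : N.Coprime (Nat.card K) := by
    have : Nat.gcd N (Nat.card K) = Nat.gcd 1 (Nat.card K) := hN.gcd_eq
    rw [Nat.gcd_one_left] at this
    exact this
  have hNc : N.Coprime (Nat.card (K ⋊[φ] A)) := by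
    rw [card_semidirect]
    exact Nat.Coprime.mul_right hNK hNA
  have hψ' := H06.isIrrCharacter_comp_pow hNc hψ
  have hdet' : (detOrder (fun g => ψ (g ^ N))).Coprime (Nat.card A) :=
    Nat.Coprime.coprime_dvd_left (detOrder_comp_pow_dvd hNc (isCharacter_of_irr hψ)) hdet
  have hr : ∀ k, ψ (inl k) = (fun g => ψ (g ^ N)) (inl k) := by
    intro k
    show ψ (inl k) = ψ ((inl k) ^ N)
    rw [← map_pow]
    congr 2
    have h2 : N % Nat.card K = 1 % Nat.card K := hN
    rw [← pow_mod_natCard k N, h2, pow_mod_natCard, pow_one]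
  have := canon_unique φ hcop hψ hψ' hr hirr hdet hdet'
  exact (congrFun this x).symm

theorem inl_commute_inr (c : CF φ) (a : A) : Commute (inl (c : K) : K ⋊[φ] A) (inr a) := by
  have h1 : (inl (φ a (c : K)) : K ⋊[φ] A) = inr a * inl (c : K) * (inr a)⁻¹ := by
    rw [inl_aut, map_inv]
  rw [(mem_CF φ).mp c.2 a] at h1
  show inl (c : K) * inr a = inr a * inl (c : K)
  calc inl (c : K) * inr a = (inr a * inl (c : K) * (inr a)⁻¹) * inr a := by rw [← h1]
    _ = inr a * inl (c : K) := by group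

/-- Expressing a generator power in the semidirect product. -/
theorem mul_pow_fix (c : CF φ) (a : A) (N : ℕ) :
    ((inl (c : K) * inr a : K ⋊[φ] A)) ^ N = inl ((c : K) ^ N) * inr (a ^ N) := by
  rw [(inl_commute_inr φ c a).mul_pow, map_pow, map_pow]

/-- A canonical extension takes the same values at all generators. -/
theorem fC_pow (hcop : (Nat.card K).Coprime (Nat.card A)) {ψ : K ⋊[φ] A → ℂ}
    (hψ : IsIrrCharacter _ ψ) (hirr : IsIrrCharacter K (fun k => ψ (inl k)))
    (hdet : (detOrder ψ).Coprime (Nat.card A)) (a : A) {k : ℕ} (hk : k.Coprime (Nat.card A)) :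
    fC φ ψ (a ^ k) = fC φ ψ a := by
  funext c
  -- the Chinese remainder theorem
  obtain ⟨N, hN1, hN2⟩ : ∃ N : ℕ, N ≡ 1 [MOD Nat.card K] ∧ N ≡ k [MOD Nat.card A] := by
    obtain ⟨N, hN⟩ := Nat.chineseRemainder hcop 1 k
    exact ⟨N, hN.1, hN.2⟩
  have hNA : N.Coprime (Nat.card A) := by
    have : Nat.gcd N (Nat.card A) = Nat.gcd k (Nat.card A) := hN2.gcd_eq
    rw [hk] at this
    exact this
  have h1 := canon_pow_inv φ hcop hψ hirr hdet hN1 hNA (inl (c : K) * inr a)
  rw [mul_pow_fix] at h1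
  have h2 : (c : K) ^ N = c := by
    have h3 : N % Nat.card K = 1 % Nat.card K := hN1
    rw [← pow_mod_natCard (c : K) N, h3, pow_mod_natCard, pow_one]
  have h3 : a ^ N = a ^ k := by
    have h4 : N % Nat.card A = k % Nat.card A := hN2
    rw [← pow_mod_natCard a N, h4, pow_mod_natCard]
  rw [h2, h3] at h1
  exact h1

section Int

variable {b : A} (hb : ∀ d : A, d ∈ Subgroup.zpowers b)
  (hcop : (Nat.card K).Coprime (Nat.card A))

include hb hcop in
/-- The coefficients of the function on the fixed points are integers. -/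
theorem inner_fC_int {ψ : K ⋊[φ] A → ℂ}
    (hψ : IsIrrCharacter _ ψ) (hirr : IsIrrCharacter K (fun k => ψ (inl k)))
    (hdet : (detOrder ψ).Coprime (Nat.card A)) (γ : IrrCharacter (CF φ)) :
    ∃ m : ℤ, classInner (fC φ ψ b) γ.1 = m := by
  classical
  have hA := comm_of_gen hb
  have hψc := isCharacter_of_irr hψ
  set n := Nat.card A with hn
  have hnpos : 0 < n := Nat.card_pos
  obtain ⟨ζ₀, hζ₀⟩ : ∃ ζ : ℂ, IsPrimitiveRoot ζ n :=
    ⟨Complex.exp (2 * Real.pi * Complex.I / n), Complex.isPrimitiveRoot_exp n hnpos.ne'⟩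
  have hlin : ∀ l : IrrCharacter A, charDegree l.1 = 1 := fun l =>
    irr_degree_one_of_comm hA l.2
  have hpow : ∀ (l : IrrCharacter A) (k : ℕ), l.1 (b ^ k) = l.1 b ^ k := by
    intro l k
    have hc := isCharacter_of_irr l.2
    induction k with
    | zero => simp [linear_one hc (hlin l)]
    | succ k ih => rw [pow_succ, linear_mul hc (hlin l), ih, pow_succ]
  have hroot : ∀ l : IrrCharacter A, l.1 b ^ n = 1 := by
    intro l
    rw [← hpow, hn, pow_card_eq_one', linear_one (isCharacter_of_irr l.2) (hlin l)]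
  have hexp : ∀ l : IrrCharacter A, ∃ e : ℕ, ζ₀ ^ e = l.1 b := by
    intro l
    obtain ⟨i, -, hi⟩ := hζ₀.eq_pow_of_pow_eq_one (hroot l)
    exact ⟨i, hi⟩
  choose e he using hexp
  let Q : Polynomial ℤ := ∑ l : IrrCharacter A,
    Polynomial.C ((mult φ hψc γ l : ℕ) : ℤ) * Polynomial.X ^ e l
  apply int_of_const_on_primitive hnpos Q
  intro ζ hζ
  obtain ⟨k, -, rfl⟩ := hζ₀.eq_pow_of_pow_eq_one hζ.pow_eq_one
  have hk : k.Coprime n := (hζ₀.pow_iff_coprime hnpos k).mp hζ
  have h1 : Polynomial.aeval (ζ₀ ^ k) Q = classInner (fC φ ψ (b ^ k)) γ.1 := by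
    rw [coset_four φ hA hψc γ]
    simp only [Q, map_sum, map_mul, map_pow, Polynomial.aeval_X, Polynomial.aeval_C]
    refine Finset.sum_congr rfl fun l _ => ?_
    rw [hpow, ← he l, ← pow_mul, ← pow_mul, mul_comm k]
    simp
  rw [h1, fC_pow φ hcop hψ hirr hdet b hk]

end Int

end Cfsg.Agent.H21
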