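import Cfsg.Agent.Lib.H21.GlaubCyc2

/-!
# The Glauberman correspondence for a cyclic group
-/

set_option autoImplicit false
set_option linter.unusedSectionVars false
set_option linter.style.haveILetI false
set_option linter.unusedSimpArgs false

namespace Cfsg.Agent.H21

open scoped ComplexConjugate
open Cfsg Module Cfsg.Agent.H22 Cfsg.Agent.H23 SemidirectProduct

universe u

variable {K A : Type u} [Group K] [Group A] [Finite K] [Finite A] (φ : A →* MulAut K)

section Main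

variable {b : A} (hb : ∀ d : A, d ∈ Subgroup.zpowers b)
  (hcop : (Nat.card K).Coprime (Nat.card A))

/-- A class function of norm one with integer coefficients is plus or minus an irreducible
character. -/
theorem sign_irr_of_norm_one {H : Type u} [Group H] [Finite H] {f : H → ℂ}
    (hf : IsClassFunction H f) (hn : classInner f f = 1)
    (hint : ∀ γ : IrrCharacter H, ∃ m : ℤ, classInner f γ.1 = m) :
    ∃ (β : IrrCharacter H) (ε : ℤ), (ε = 1 ∨ ε = -1) ∧ ∀ c, f c = (ε : ℂ) * β.1 c := by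
  classical
  choose m hm using hint
  have hexp := classFunction_expansion f hf
  have h1 : classInner f f = ∑ γ : IrrCharacter H, (m γ : ℂ) * (m γ : ℂ) := by
    have h0 : classInner (∑ γ : IrrCharacter H, classInner f γ.1 • γ.1) f
        = ∑ γ : IrrCharacter H, (m γ : ℂ) * (m γ : ℂ) := by
      rw [classInner_sum_left]
      refine Finset.sum_congr rfl fun γ _ => ?_
      rw [classInner_smul_left, hm γ, ← classInner_comm_conj, hm γ]
      simp
    rw [← hexp] at h0
    exact h0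
  rw [hn] at h1
  have h2 : ∑ γ : IrrCharacter H, m γ * m γ = 1 := by
    have : ((∑ γ : IrrCharacter H, m γ * m γ : ℤ) : ℂ) = ((1 : ℤ) : ℂ) := by
      push_cast
      exact h1.symm
    exact_mod_cast this
  obtain ⟨γ₀, -, hγ₀⟩ : ∃ γ ∈ (Finset.univ : Finset (IrrCharacter H)), m γ * m γ ≠ 0 := by
    by_contra hno
    push Not at hno
    rw [Finset.sum_eq_zero hno] at h2
    exact zero_ne_one h2
  have hnn : ∀ γ ∈ (Finset.univ : Finset (IrrCharacter H)), 0 ≤ m γ * m γ :=
    fun γ _ => mul_self_nonneg _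
  have h3 : m γ₀ * m γ₀ ≤ 1 := by
    rw [← h2]
    exact Finset.single_le_sum hnn (Finset.mem_univ γ₀)
  have h4 : m γ₀ * m γ₀ = 1 := by
    have := mul_self_nonneg (m γ₀)
    omega
  have hothers : ∀ γ, γ ≠ γ₀ → m γ = 0 := by
    intro γ hγ
    by_contra hne
    have h5 : 0 < m γ * m γ := mul_self_pos.mpr hne
    have h6 : m γ * m γ + m γ₀ * m γ₀ ≤ 1 := by
      rw [← h2]
      have h60 := Finset.sum_pair (f := fun γ => m γ * m γ) hγ
      rw [← h60]
      exact Finset.sum_le_sum_of_subset_of_nonneg (Finset.subset_univ _)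
        (fun i _ _ => mul_self_nonneg _)
    omega
  have hs : m γ₀ = 1 ∨ m γ₀ = -1 := Int.eq_one_or_neg_one_of_mul_eq_one' h4 |>.imp (·.1) (·.1)
  refine ⟨γ₀, m γ₀, hs, fun c => ?_⟩
  have h7 := congrFun hexp c
  simp only [Finset.sum_apply, Pi.smul_apply, smul_eq_mul] at h7
  rw [h7, Finset.sum_eq_single γ₀]
  · rw [hm]
  · intro γ _ hγ
    rw [hm, hothers γ hγ]
    simp
  · simp

include hb hcop in
theorem glaub_exists_cyc {ψ : K ⋊[φ] A → ℂ}
    (hψ : IsIrrCharacter _ ψ) (hirr : IsIrrCharacter K (fun k => ψ (inl k)))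
    (hdet : (detOrder ψ).Coprime (Nat.card A)) :
    ∃ (β : IrrCharacter (CF φ)) (ε : ℤ), (ε = 1 ∨ ε = -1) ∧
      ∀ c, fC φ ψ b c = (ε : ℂ) * β.1 c := by
  have hcl := isClassFunction_of_isCharacter (isCharacter_of_irr hψ)
  apply sign_irr_of_norm_one (fC_isClass φ hcl)
  · rw [classInner_fC φ hb hcop hcl hcl]
    exact coset_norm φ hψ (H06.classInner_irr_self hirr) b
  · exact inner_fC_int φ hb hcop hψ hirr hdet

/-- All generators give the same function. -/
theorem fC_gen (hcop : (Nat.card K).Coprime (Nat.card A)) {b b' : A}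
    (hb : ∀ d : A, d ∈ Subgroup.zpowers b) (hb' : ∀ d : A, d ∈ Subgroup.zpowers b')
    {ψ : K ⋊[φ] A → ℂ}
    (hψ : IsIrrCharacter _ ψ) (hirr : IsIrrCharacter K (fun k => ψ (inl k)))
    (hdet : (detOrder ψ).Coprime (Nat.card A)) : fC φ ψ b' = fC φ ψ b := by
  obtain ⟨k, rfl⟩ : ∃ k : ℕ, b ^ k = b' := by
    have := hb b'
    rw [← mem_powers_iff_mem_zpowers] at this
    exact this
  apply fC_pow φ hcop hψ hirr hdet
  have h1 := orderOf_gen hb'
  have h2 := orderOf_gen hb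
  rw [orderOf_pow, h2] at h1
  have hpos : 0 < Nat.card A := Nat.card_pos
  have h3 : Nat.gcd (Nat.card A) k = 1 := by
    have h4 : Nat.gcd (Nat.card A) k ∣ Nat.card A := Nat.gcd_dvd_left _ _
    have h5 := Nat.div_mul_cancel h4
    rw [h1] at h5
    have h6 : Nat.card A * 1 = Nat.card A * Nat.gcd (Nat.card A) k := by
      rw [mul_one]
      exact h5.symm
    exact (Nat.eq_of_mul_eq_mul_left hpos h6).symm
  exact (Nat.coprime_comm.mp h3)

include hb in
/-- The correspondent is a constituent of the restriction. -/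
theorem glaub_constituent_cyc {ψ : K ⋊[φ] A → ℂ} (hψ : IsCharacter _ ψ)
    {β : IrrCharacter (CF φ)} {ε : ℂ} (hε : ε ≠ 0) (hf : ∀ c, fC φ ψ b c = ε * β.1 c) :
    classInner (fun c : CF φ => ψ (inl (c : K))) β.1 ≠ 0 := by
  classical
  have hA := comm_of_gen hb
  have h1 : classInner (fC φ ψ b) β.1 = ε := by
    have h2 : fC φ ψ b = ε • β.1 := funext hf
    rw [h2, classInner_smul_left, H06.classInner_irr_self β.2, mul_one]
  have h3 := coset_four φ hA hψ β b
  rw [h1] at h3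
  obtain ⟨l, -, hl⟩ : ∃ l ∈ (Finset.univ : Finset (IrrCharacter A)), mult φ hψ β l ≠ 0 := by
    by_contra hno
    push Not at hno
    rw [Finset.sum_eq_zero (fun l hl => by rw [hno l hl]; simp)] at h3
    exact hε h3
  have h4 := coset_four φ hA hψ β 1
  have h5 : fC φ ψ 1 = fun c : CF φ => ψ (inl (c : K)) := by
    funext c
    simp [fC]
  rw [h5] at h4
  rw [h4]
  have h6 : ∀ l' : IrrCharacter A, l'.1 1 = 1 := fun l' =>
    linear_one (isCharacter_of_irr l'.2) (irr_degree_one_of_comm hA l'.2)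
  simp only [h6, mul_one]
  have h7 : (0 : ℕ) < ∑ l' : IrrCharacter A, mult φ hψ β l' :=
    lt_of_lt_of_le (Nat.pos_of_ne_zero hl) (Finset.single_le_sum (fun _ _ => Nat.zero_le _)
      (Finset.mem_univ l))
  have h8 : ((∑ l' : IrrCharacter A, mult φ hψ β l' : ℕ) : ℂ) ≠ 0 := by
    exact_mod_cast h7.ne'
  push_cast at h8
  exact h8

include hcop hb in
/-- Injectivity of the correspondence. -/
theorem glaub_inj_cyc {ψ ψ' : K ⋊[φ] A → ℂ} (hψ : IsCharacter _ ψ) (hψ' : IsCharacter _ ψ')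
    {χ χ' : IrrCharacter K} (hr : ∀ k, ψ (inl k) = χ.1 k) (hr' : ∀ k, ψ' (inl k) = χ'.1 k)
    {β : IrrCharacter (CF φ)} {ε ε' : ℂ} (hε : ε ≠ 0) (hε' : ε' ≠ 0)
    (hf : ∀ c, fC φ ψ b c = ε * β.1 c) (hf' : ∀ c, fC φ ψ' b c = ε' * β.1 c) : χ = χ' := by
  classical
  by_contra hne
  have h1 : classInner (fun c : K => ψ (inl c)) (fun c : K => ψ' (inl c)) = 0 := by
    have e1 : (fun c : K => ψ (inl c)) = χ.1 := funext hr
    have e2 : (fun c : K => ψ' (inl c)) = χ'.1 := funext hr'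
    rw [e1, e2, classInner_irr, if_neg hne]
  have h2 := coset_orth φ hψ hψ' h1 b
  rw [← classInner_fC φ hb hcop (isClassFunction_of_isCharacter hψ)
    (isClassFunction_of_isCharacter hψ')] at h2
  have e1 : fC φ ψ b = ε • β.1 := funext hf
  have e2 : fC φ ψ' b = ε' • β.1 := funext hf'
  rw [e1, e2, classInner_smul_left, ← classInner_comm_conj, classInner_smul_left,
    H06.classInner_irr_self β.2] at h2
  simp only [map_mul, map_one, mul_one] at h2
  rcases mul_eq_zero.mp h2 with h3 | h3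
  · exact hε h3
  · exact hε' ((map_eq_zero _).mp h3)

include hcop in
/-- Existence of the canonical extension. -/
theorem exists_canon (ξ : InvIrr φ) : ∃ ψ : K ⋊[φ] A → ℂ, IsIrrCharacter _ ψ ∧
    (∀ c, ψ (inl c) = ξ.1.1 c) ∧ (detOrder ψ).Coprime (Nat.card A) := by
  classical
  let e : Nl φ ≃* K := (MonoidHom.ofInjective (f := (inl : K →* K ⋊[φ] A)) inl_injective).symm
  have he : ∀ k : K, e ⟨inl k, ⟨k, rfl⟩⟩ = k := by
    intro k
    exact MulEquiv.symm_apply_apply
      (MonoidHom.ofInjective (f := (inl : K →* K ⋊[φ] A)) inl_injective) k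
  let ϑ : Nl φ → ℂ := fun n => ξ.1.1 (e n)
  have hϑ : IsIrrCharacter (Nl φ) ϑ :=
    isIrrCharacter_comp_of_surjective e.toMonoidHom e.surjective ξ.1.2
  have hinv : ∀ (g : K ⋊[φ] A) (n : Nl φ),
      ϑ ⟨g * n * g⁻¹, (Nl_normal φ).conj_mem (n : K ⋊[φ] A) n.2 g⟩ = ϑ n := by
    rintro g ⟨_, k, rfl⟩
    show ξ.1.1 (e _) = ξ.1.1 (e _)
    rw [he k]
    have h1 : g * inl k * g⁻¹ = inl (g.left * φ g.right k * g.left⁻¹) := by
      conv_lhs => rw [eq_inl_mul_inr φ g]
      rw [mul_inv_rev, map_mul, map_mul, map_inv, inl_aut]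
      simp only [map_inv]
      group
    have h2 : (⟨g * inl k * g⁻¹, (Nl_normal φ).conj_mem _ ⟨k, rfl⟩ g⟩ : Nl φ)
        = ⟨inl (g.left * φ g.right k * g.left⁻¹), ⟨_, rfl⟩⟩ := Subtype.ext h1
    rw [h2, he]
    have h3 := isClassFunction_of_isCharacter (isCharacter_of_irr ξ.1.2) (φ g.right k) g.left
    rw [h3]
    exact ξ.2 _ _
  have hd : ϑ 1 = ((charDegree ξ.1.1 : ℕ) : ℂ) := by
    show ξ.1.1 (e 1) = _
    rw [map_one]
    exact one_eq_charDegree (isCharacter_of_irr ξ.1.2)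
  have hdvd1 : detOrder ϑ ∣ Nat.card K := by
    have := detOrder_dvd_card (isCharacter_of_irr hϑ)
    rwa [card_Nl] at this
  have hdvd2 : charDegree ξ.1.1 ∣ Nat.card K := charDegree_dvd_card ξ.1
  have hcop2 : ((Nl φ).index).Coprime (detOrder ϑ * charDegree ξ.1.1) := by
    rw [index_Nl]
    exact Nat.Coprime.mul_right (Nat.Coprime.coprime_dvd_right hdvd1 hcop.symm)
      (Nat.Coprime.coprime_dvd_right hdvd2 hcop.symm)
  obtain ⟨χ₀, ⟨h1, h2, h3⟩, -⟩ := S0867.result (Nl φ) ϑ hϑ hinv _ hd hcop2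
  refine ⟨χ₀, h1, fun c => ?_, ?_⟩
  · have := h2 ⟨inl c, ⟨c, rfl⟩⟩
    simp only at this
    rw [this]
    show ξ.1.1 (e _) = _
    rw [he]
  · rw [h3]
    exact Nat.Coprime.coprime_dvd_left hdvd1 hcop

include hb hcop in
/-- Surjectivity of the correspondence. -/
theorem glaub_surj_cyc (β : IrrCharacter (CF φ)) :
    ∃ (ψ : K ⋊[φ] A → ℂ) (ε : ℤ), IsIrrCharacter _ ψ ∧ IsIrrCharacter K (fun k => ψ (inl k)) ∧
      (detOrder ψ).Coprime (Nat.card A) ∧ (ε = 1 ∨ ε = -1) ∧
      ∀ c, fC φ ψ b c = (ε : ℂ) * β.1 c := by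
  classical
  choose hat hhat hhat1 hhat2 using exists_canon φ hcop
  have hirrK : ∀ ξ : InvIrr φ, IsIrrCharacter K (fun k => hat ξ (inl k)) := by
    intro ξ
    have : (fun k => hat ξ (inl k)) = ξ.1.1 := funext (hhat1 ξ)
    rw [this]
    exact ξ.1.2
  choose β' ε' hε' hf' using fun ξ => glaub_exists_cyc φ hb hcop (hhat ξ) (hirrK ξ) (hhat2 ξ)
  obtain ⟨f, hf, hfE⟩ := exists_twist_ext (bot_stable φ) hb (cop_bot hb hcop) β.1 (by
    intro t c
    have h1 : ((resAct φ _ (fixQ_inv (bot_stable φ) (comm_of_gen hb)) b t : CF φ) : K) = t :=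
      (mem_CF φ).mp t.2 b
    have h2 : (resAct φ _ (fixQ_inv (bot_stable φ) (comm_of_gen hb)) b t) = t := Subtype.ext h1
    rw [h2]
    exact isClassFunction_of_isCharacter (isCharacter_of_irr β.2) _ _)
  have hexp := coset_expansion φ b hb f hf hat hhat hhat1
  by_contra hno
  have hne : ∀ ξ, β' ξ ≠ β := by
    intro ξ he
    apply hno
    refine ⟨hat ξ, ε' ξ, hhat ξ, hirrK ξ, hhat2 ξ, hε' ξ, fun c => ?_⟩
    rw [hf', he]
  have h1 : ∀ c : CF φ, β.1 c = ∑ ξ, classInner f (cosetFn φ (hat ξ) b) * ((ε' ξ : ℂ) * (β' ξ).1 c) := by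
    intro c
    rw [← hfE c, hexp]
    refine Finset.sum_congr rfl fun ξ _ => ?_
    rw [← hf']
    rfl
  have h2 : β.1 = ∑ ξ, (classInner f (cosetFn φ (hat ξ) b) * (ε' ξ : ℂ)) • (β' ξ).1 := by
    funext c
    rw [h1]
    simp only [Finset.sum_apply, Pi.smul_apply, smul_eq_mul]
    refine Finset.sum_congr rfl fun ξ _ => by ring
  have h3 : classInner (∑ ξ, (classInner f (cosetFn φ (hat ξ) b) * (ε' ξ : ℂ)) • (β' ξ).1) β.1 = 1 := by
    rw [← h2]
    exact H06.classInner_irr_self β.2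
  rw [classInner_sum_left] at h3
  rw [Finset.sum_eq_zero] at h3
  · exact zero_ne_one h3
  · intro ξ _
    rw [classInner_smul_left, classInner_irr, if_neg (hne ξ), mul_zero]

end Main

end Cfsg.Agent.H21
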