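import Cfsg.Agent.Lib.H21.GlaubCyc3
import Cfsg.Agent.Lib.H21.GlaubConj

/-!
# The Glauberman correspondence for a cyclic group: internal form
-/

set_option autoImplicit false
set_option linter.unusedSectionVars false
set_option linter.style.haveILetI false
set_option linter.unusedSimpArgs false

namespace Cfsg.Agent.H21

open scoped ComplexConjugate
open Cfsg Module Cfsg.Agent.H22 Cfsg.Agent.H23 SemidirectProduct

universe u

section DetHom

variable {H H' : Type u} [Group H] [Group H'] [Finite H] [Finite H']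

theorem detChar_comp_hom (f : H →* H') {χ : H' → ℂ} (hχ : IsCharacter H' χ) :
    detChar (fun g => χ (f g)) = fun g => detChar χ (f g) := by
  obtain ⟨n, ρ, rfl⟩ := hχ
  have h1 : (fun g => ρ.character (f g)) = Representation.character (ρ.comp f) := rfl
  funext g
  rw [h1, H04.Cliff.detChar_rep, H04.Cliff.detChar_rep]
  rfl

theorem detOrder_comp_hom_dvd (f : H →* H') {χ : H' → ℂ} (hχ : IsCharacter H' χ) :
    detOrder (fun g => χ (f g)) ∣ detOrder χ := by
  unfold detOrder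
  rw [detChar_comp_hom f hχ]
  apply _root_.orderOf_dvd_of_pow_eq_one
  funext g
  have h := congrFun (pow_orderOf_eq_one (detChar χ)) (f g)
  simpa using h

theorem classInner_comp_equiv (e : H ≃* H') (f g : H' → ℂ) :
    classInner (fun x => f (e x)) (fun x => g (e x)) = classInner f g := by
  unfold classInner
  rw [Nat.card_congr e.toEquiv]
  congr 1
  exact Fintype.sum_equiv e.toEquiv _ _ (fun x => rfl)

end DetHom

variable {Γ : Type u} [Group Γ] [Finite Γ]

section Lift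

variable (G S : Subgroup Γ) (hnorm : ∀ s ∈ S, ∀ g ∈ G, s * g * s⁻¹ ∈ G)

/-- The multiplication map from the abstract semidirect product. -/
noncomputable def liftE : G ⋊[conjHom G S hnorm] S →* Γ :=
  SemidirectProduct.lift G.subtype S.subtype (fun s => by
    ext g
    simp [conjHom_apply, MulAut.conj_apply])

@[simp] theorem liftE_inl (g : G) : liftE G S hnorm (inl g) = g := by
  simp [liftE]

@[simp] theorem liftE_inr (s : S) : liftE G S hnorm (inr s) = s := by
  simp [liftE]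

theorem liftE_surj (htop : G ⊔ S = ⊤) : Function.Surjective (liftE G S hnorm) := by
  have h1 : G ≤ (liftE G S hnorm).range := fun g hg => ⟨inl ⟨g, hg⟩, by simp⟩
  have h2 : S ≤ (liftE G S hnorm).range := fun g hg => ⟨inr ⟨g, hg⟩, by simp⟩
  have h3 := sup_le h1 h2
  rw [htop] at h3
  intro γ
  exact h3 (Subgroup.mem_top γ)

theorem inf_bot_of_coprime (hcop : (Nat.card G).Coprime (Nat.card S)) {x : Γ} (h1 : x ∈ G)
    (h2 : x ∈ S) : x = 1 := by
  have h3 : orderOf x ∣ Nat.card G := Subgroup.orderOf_dvd_natCard G h1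
  have h4 : orderOf x ∣ Nat.card S := Subgroup.orderOf_dvd_natCard S h2
  exact orderOf_eq_one_iff.mp (Nat.eq_one_of_dvd_coprimes hcop h3 h4)

theorem liftE_inj (hcop : (Nat.card G).Coprime (Nat.card S)) :
    Function.Injective (liftE G S hnorm) := by
  rw [injective_iff_map_eq_one]
  intro x hx
  have h1 : x = inl x.left * inr x.right := eq_inl_mul_inr _ x
  rw [h1, map_mul, liftE_inl, liftE_inr] at hx
  have h2 : (x.right : Γ) = (x.left : Γ)⁻¹ := eq_inv_of_mul_eq_one_right hx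
  have h3 : (x.right : Γ) = 1 :=
    inf_bot_of_coprime G S hcop (by rw [h2]; exact G.inv_mem x.left.2) x.right.2
  have h4 : (x.left : Γ) = 1 := by
    rw [h3, mul_one] at hx
    exact hx
  have h5 : x.right = 1 := Subtype.ext h3
  have h6 : x.left = 1 := Subtype.ext h4
  rw [h1, h5, h6]
  simp

/-- The isomorphism with the semidirect product. -/
noncomputable def liftEquiv (hcop : (Nat.card G).Coprime (Nat.card S)) (htop : G ⊔ S = ⊤) :
    G ⋊[conjHom G S hnorm] S ≃* Γ :=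
  MulEquiv.ofBijective (liftE G S hnorm) ⟨liftE_inj G S hnorm hcop, liftE_surj G S hnorm htop⟩

@[simp] theorem liftEquiv_apply (hcop : (Nat.card G).Coprime (Nat.card S)) (htop : G ⊔ S = ⊤)
    (x : G ⋊[conjHom G S hnorm] S) : liftEquiv G S hnorm hcop htop x = liftE G S hnorm x := rfl

theorem exists_gen_of_cyclic (hcyc : IsCyclic S) :
    ∃ a : S, (∀ d : S, d ∈ Subgroup.zpowers a) ∧ Subgroup.zpowers (a : Γ) = S := by
  obtain ⟨a, ha⟩ := hcyc.exists_generator
  refine ⟨a, ha, ?_⟩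
  apply le_antisymm
  · rw [Subgroup.zpowers_le]
    exact a.2
  · intro x hx
    obtain ⟨k, hk⟩ := ha ⟨x, hx⟩
    refine ⟨k, ?_⟩
    have := congrArg Subtype.val hk
    simpa using this

theorem gen_of_zpowers {s : Γ} (hs : Subgroup.zpowers s = S) :
    ∃ (h : s ∈ S), ∀ d : S, d ∈ Subgroup.zpowers (⟨s, h⟩ : S) := by
  have h : s ∈ S := by
    rw [← hs]
    exact Subgroup.mem_zpowers s
  refine ⟨h, fun d => ?_⟩
  have h1 : (d : Γ) ∈ Subgroup.zpowers s := by
    rw [hs]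
    exact d.2
  obtain ⟨k, hk⟩ := h1
  refine ⟨k, Subtype.ext ?_⟩
  simpa using hk

variable {C : Subgroup Γ} (hC : C = G ⊓ Subgroup.centralizer (S : Set Γ)) (hCG : C ≤ G)

include hC in
theorem mem_CF_of_mem {c : Γ} (hc : c ∈ C) (hcG : c ∈ G) :
    (⟨c, hcG⟩ : G) ∈ CF (conjHom G S hnorm) := by
  rw [mem_CF]
  intro d
  apply Subtype.ext
  rw [conjHom_apply]
  rw [hC] at hc
  have h1 := Subgroup.mem_centralizer_iff.mp hc.2 d.1 d.2
  simp only
  rw [h1, mul_inv_cancel_right]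

include hC in
theorem mem_of_mem_CF {k : G} (hk : k ∈ CF (conjHom G S hnorm)) : (k : Γ) ∈ C := by
  rw [hC]
  refine Subgroup.mem_inf.mpr ⟨k.2, ?_⟩
  rw [Subgroup.mem_centralizer_iff]
  intro s hs
  rw [mem_CF] at hk
  have h1 := congrArg Subtype.val (hk ⟨s, hs⟩)
  rw [conjHom_apply] at h1
  simp only at h1
  exact (mul_inv_eq_iff_eq_mul.mp h1)

/-- The identification of `C` with the abstract fixed-point group. -/
noncomputable def eqCF : C ≃* CF (conjHom G S hnorm) where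
  toFun c := ⟨⟨c.1, hCG c.2⟩, mem_CF_of_mem G S hnorm hC c.2 (hCG c.2)⟩
  invFun x := ⟨x.1.1, mem_of_mem_CF G S hnorm hC x.2⟩
  left_inv _ := rfl
  right_inv _ := rfl
  map_mul' _ _ := rfl

@[simp] theorem coe_eqCF (c : C) : (((eqCF G S hnorm hC hCG c : CF (conjHom G S hnorm)) : G) : Γ) = c :=
  rfl

@[simp] theorem coe_eqCF_symm (x : CF (conjHom G S hnorm)) :
    (((eqCF G S hnorm hC hCG).symm x : C) : Γ) = ((x : G) : Γ) := rfl

end Lift

section Main

variable (G S : Subgroup Γ) (hnorm : ∀ s ∈ S, ∀ g ∈ G, s * g * s⁻¹ ∈ G)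
  (hcop : (Nat.card G).Coprime (Nat.card S)) (htop : G ⊔ S = ⊤) (hcyc : IsCyclic S)
  {C : Subgroup Γ} (hC : C = G ⊓ Subgroup.centralizer (S : Set Γ)) (hCG : C ≤ G)

/-- Evaluating `fC` of a pull-back. -/
theorem fC_liftE (χh : Γ → ℂ) (a : S) (c : CF (conjHom G S hnorm)) :
    fC (conjHom G S hnorm) (fun x => χh (liftE G S hnorm x)) a c = χh (((c : G) : Γ) * a) := by
  show χh (liftE G S hnorm (inl (c : G) * inr a)) = _
  rw [map_mul, liftE_inl, liftE_inr]

theorem sign_eq_of_values {ε ε' : ℤ} (hε : ε = 1 ∨ ε = -1) (hε' : ε' = 1 ∨ ε' = -1)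
    {x y : ℂ} (hx : ∃ n : ℕ, 0 < n ∧ x = n) (hy : ∃ n : ℕ, 0 < n ∧ y = n)
    (h : (ε : ℂ) * x = (ε' : ℂ) * y) : ε = ε' := by
  obtain ⟨n, hn, rfl⟩ := hx
  obtain ⟨m, hm, rfl⟩ := hy
  have h1 : (ε * n : ℤ) = ε' * m := by exact_mod_cast h
  rcases hε with rfl | rfl <;> rcases hε' with rfl | rfl <;> first | rfl | omega

include hcop htop hcyc in
theorem glaub_cyc_pull {χ : IrrCharacter G} {χh : IrrCharacter Γ}
    (hext : ∀ g : G, χh.1 g = χ.1 g) (hdet : (detOrder χh.1).Coprime (Nat.card S)) :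
    ∃ (β : IrrCharacter (CF (conjHom G S hnorm))) (ε : ℤ), (ε = 1 ∨ ε = -1) ∧
      ∀ (c : CF (conjHom G S hnorm)) (s : Γ), Subgroup.zpowers s = S →
        χh.1 (((c : G) : Γ) * s) = (ε : ℂ) * β.1 c := by
  set φ := conjHom G S hnorm with hφ
  obtain ⟨a, hb, -⟩ := exists_gen_of_cyclic S hcyc
  set ψ : G ⋊[φ] S → ℂ := fun x => χh.1 (liftE G S hnorm x) with hψdef
  have hψ : IsIrrCharacter _ ψ :=
    isIrrCharacter_comp_of_surjective (liftE G S hnorm) (liftE_surj G S hnorm htop) χh.2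
  have hirr : IsIrrCharacter G (fun k => ψ (inl k)) := by
    have : (fun k => ψ (inl k)) = χ.1 := by
      funext k
      show χh.1 (liftE G S hnorm (inl k)) = _
      rw [liftE_inl]
      exact hext k
    rw [this]
    exact χ.2
  have hdet' : (detOrder ψ).Coprime (Nat.card S) :=
    Nat.Coprime.coprime_dvd_left (detOrder_comp_hom_dvd _ (isCharacter_of_irr χh.2)) hdet
  obtain ⟨β, ε, hε, hf⟩ := glaub_exists_cyc φ hb hcop hψ hirr hdet'
  refine ⟨β, ε, hε, fun c s hs => ?_⟩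
  obtain ⟨hsS, hb'⟩ := gen_of_zpowers S hs
  have h1 := fC_gen φ hcop hb hb' hψ hirr hdet'
  have h2 := fC_liftE G S hnorm χh.1 ⟨s, hsS⟩ c
  simp only at h2
  rw [← h2, h1, hf]

include hcop htop in
theorem glaub_cyc_isChar_pull (χh : IrrCharacter Γ) :
    IsCharacter _ (fun x : G ⋊[conjHom G S hnorm] S => χh.1 (liftE G S hnorm x)) :=
  isCharacter_comp _ (isCharacter_of_irr χh.2)

end Main

section Main2

variable (G S : Subgroup Γ) (hnorm : ∀ s ∈ S, ∀ g ∈ G, s * g * s⁻¹ ∈ G)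
  (hcop : (Nat.card G).Coprime (Nat.card S)) (htop : G ⊔ S = ⊤) (hcyc : IsCyclic S)
  {C : Subgroup Γ} (hC : C = G ⊓ Subgroup.centralizer (S : Set Γ)) (hCG : C ≤ G)

/-- Transport of an irreducible character of `C` to the abstract fixed-point group. -/
noncomputable def ofCIrr (β : IrrCharacter C) : IrrCharacter (CF (conjHom G S hnorm)) :=
  ⟨fun x => β.1 ((eqCF G S hnorm hC hCG).symm x),
    isIrrCharacter_comp_of_surjective (eqCF G S hnorm hC hCG).symm.toMonoidHom
      (eqCF G S hnorm hC hCG).symm.surjective β.2⟩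

/-- Transport of an irreducible character of the abstract fixed-point group to `C`. -/
noncomputable def toCIrr (β : IrrCharacter (CF (conjHom G S hnorm))) : IrrCharacter C :=
  ⟨fun x => β.1 (eqCF G S hnorm hC hCG x),
    isIrrCharacter_comp_of_surjective (eqCF G S hnorm hC hCG).toMonoidHom
      (eqCF G S hnorm hC hCG).surjective β.2⟩

theorem fC_ofC {χh : IrrCharacter Γ} {β : IrrCharacter C} {ε : ℂ} {a : S}
    (hs : Subgroup.zpowers (a : Γ) = S)
    (hf : ∀ (c : C) (s : Γ), Subgroup.zpowers s = S → χh.1 ((c : Γ) * s) = ε * β.1 c)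
    (c : CF (conjHom G S hnorm)) :
    fC (conjHom G S hnorm) (fun x => χh.1 (liftE G S hnorm x)) a c
      = ε * (ofCIrr G S hnorm hC hCG β).1 c := by
  rw [fC_liftE]
  exact hf ((eqCF G S hnorm hC hCG).symm c) a hs

include hnorm hC in
theorem glaub_cyc_constituent {χ : IrrCharacter G} {χh : IrrCharacter Γ}
    (hcyc : IsCyclic S) (hext : ∀ g : G, χh.1 g = χ.1 g) {β : IrrCharacter C} {ε : ℤ}
    (hε : ε = 1 ∨ ε = -1)
    (hf : ∀ (c : C) (s : Γ), Subgroup.zpowers s = S → χh.1 ((c : Γ) * s) = (ε : ℂ) * β.1 c) :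
    classInner (fun c : C => χ.1 ⟨c, hCG c.2⟩) β.1 ≠ 0 := by
  obtain ⟨a, hb, hs⟩ := exists_gen_of_cyclic S hcyc
  have hε0 : (ε : ℂ) ≠ 0 := by
    rcases hε with rfl | rfl <;> simp
  have h1 := glaub_constituent_cyc (conjHom G S hnorm) hb
    (isCharacter_comp (liftE G S hnorm) (isCharacter_of_irr χh.2))
    (β := ofCIrr G S hnorm hC hCG β) hε0 (fC_ofC G S hnorm hC hCG hs hf)
  have h2 := classInner_comp_equiv (eqCF G S hnorm hC hCG)
    (fun c : CF (conjHom G S hnorm) => χh.1 (liftE G S hnorm (inl (c : G))))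
    (ofCIrr G S hnorm hC hCG β).1
  have h3 : (fun x : C => χh.1 (liftE G S hnorm (inl ((eqCF G S hnorm hC hCG x : CF _) : G))))
      = fun c : C => χ.1 ⟨c, hCG c.2⟩ := by
    funext x
    rw [liftE_inl]
    exact hext _
  have h4 : (fun x : C => (ofCIrr G S hnorm hC hCG β).1 (eqCF G S hnorm hC hCG x)) = β.1 := by
    funext x
    show β.1 ((eqCF G S hnorm hC hCG).symm (eqCF G S hnorm hC hCG x)) = _
    rw [MulEquiv.symm_apply_apply]
  rw [h3, h4] at h2
  rw [h2]
  exact h1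

include hnorm hC hCG hcop in
theorem glaub_cyc_inj (hcyc : IsCyclic S) {χ χ' : IrrCharacter G} {χh χh' : IrrCharacter Γ}
    (hext : ∀ g : G, χh.1 g = χ.1 g) (hext' : ∀ g : G, χh'.1 g = χ'.1 g) {β : IrrCharacter C}
    {ε ε' : ℤ} (hε : ε = 1 ∨ ε = -1) (hε' : ε' = 1 ∨ ε' = -1)
    (hf : ∀ (c : C) (s : Γ), Subgroup.zpowers s = S → χh.1 ((c : Γ) * s) = (ε : ℂ) * β.1 c)
    (hf' : ∀ (c : C) (s : Γ), Subgroup.zpowers s = S → χh'.1 ((c : Γ) * s) = (ε' : ℂ) * β.1 c) :
    χ = χ' := by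
  obtain ⟨a, hb, hs⟩ := exists_gen_of_cyclic S hcyc
  have hε0 : (ε : ℂ) ≠ 0 := by
    rcases hε with rfl | rfl <;> simp
  have hε0' : (ε' : ℂ) ≠ 0 := by
    rcases hε' with rfl | rfl <;> simp
  refine glaub_inj_cyc (conjHom G S hnorm) hb hcop
    (isCharacter_comp (liftE G S hnorm) (isCharacter_of_irr χh.2))
    (isCharacter_comp (liftE G S hnorm) (isCharacter_of_irr χh'.2))
    (χ := χ) (χ' := χ') ?_ ?_ (β := ofCIrr G S hnorm hC hCG β) hε0 hε0'
    (fC_ofC G S hnorm hC hCG hs hf) (fC_ofC G S hnorm hC hCG hs hf')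
  · intro k
    show χh.1 (liftE G S hnorm (inl k)) = _
    rw [liftE_inl]
    exact hext k
  · intro k
    show χh'.1 (liftE G S hnorm (inl k)) = _
    rw [liftE_inl]
    exact hext' k

include hnorm hC hCG hcop htop in
theorem glaub_cyc_surj (hcyc : IsCyclic S) (β : IrrCharacter C) :
    ∃ (χ : IrrCharacter G) (χh : IrrCharacter Γ) (ε : ℤ),
      (∀ s ∈ S, ∀ g g' : G, (g' : Γ) = s * g * s⁻¹ → χ.1 g' = χ.1 g) ∧
      (∀ g : G, χh.1 g = χ.1 g) ∧ (detOrder χh.1).Coprime (Nat.card S) ∧ (ε = 1 ∨ ε = -1) ∧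
      ∀ (c : C) (s : Γ), Subgroup.zpowers s = S → χh.1 ((c : Γ) * s) = (ε : ℂ) * β.1 c := by
  obtain ⟨a, hb, hs⟩ := exists_gen_of_cyclic S hcyc
  obtain ⟨ψ, ε, hψ, hirr, hdet, hε, hf⟩ := glaub_surj_cyc (conjHom G S hnorm) hb hcop
    (ofCIrr G S hnorm hC hCG β)
  set E := liftEquiv G S hnorm hcop htop with hE
  have hsymm_inl : ∀ g : G, E.symm (g : Γ) = inl g := by
    intro g
    rw [MulEquiv.symm_apply_eq, hE, liftEquiv_apply, liftE_inl]
  have hsymm_inr : ∀ g : S, E.symm (g : Γ) = inr g := by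
    intro g
    rw [MulEquiv.symm_apply_eq, hE, liftEquiv_apply, liftE_inr]
  refine ⟨⟨fun k => ψ (inl k), hirr⟩,
    ⟨fun γ => ψ (E.symm γ), isIrrCharacter_comp_of_surjective E.symm.toMonoidHom
      E.symm.surjective hψ⟩, ε, ?_, ?_, ?_, hε, ?_⟩
  · rw [inv_iff G S hnorm]
    intro s g
    have h1 : (inl (conjHom G S hnorm s g) : G ⋊[conjHom G S hnorm] S)
        = inr s * inl g * (inr s)⁻¹ := by
      rw [inl_aut, map_inv]
    show ψ _ = ψ _
    rw [h1]
    exact isClassFunction_of_isCharacter (isCharacter_of_irr hψ) _ _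
  · intro g
    show ψ (E.symm (g : Γ)) = ψ (inl g)
    rw [hsymm_inl]
  · exact Nat.Coprime.coprime_dvd_left
      (detOrder_comp_hom_dvd E.symm.toMonoidHom (isCharacter_of_irr hψ)) hdet
  · intro c s hs'
    obtain ⟨hsS, hb'⟩ := gen_of_zpowers S hs'
    have h1 := fC_gen (conjHom G S hnorm) hcop hb hb' hψ hirr hdet
    have h2 : E.symm ((c : Γ) * s) = inl (⟨c.1, hCG c.2⟩ : G) * inr (⟨s, hsS⟩ : S) := by
      rw [map_mul, hsymm_inl (⟨c.1, hCG c.2⟩ : G), hsymm_inr (⟨s, hsS⟩ : S)]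
    show ψ (E.symm ((c : Γ) * s)) = _
    rw [h2]
    have h3 := congrFun h1 (eqCF G S hnorm hC hCG c)
    have h4 := hf (eqCF G S hnorm hC hCG c)
    have h5 : (ofCIrr G S hnorm hC hCG β).1 (eqCF G S hnorm hC hCG c) = β.1 c := by
      show β.1 ((eqCF G S hnorm hC hCG).symm (eqCF G S hnorm hC hCG c)) = _
      rw [MulEquiv.symm_apply_apply]
    rw [h5] at h4
    exact (h3.trans h4)

end Main2

end Cfsg.Agent.H21
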