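import Cfsg.Agent.Lib.H21.GlaubCyc4
import Cfsg.Agent.Lib.H21.PowCongr

/-!
# Characters of a cyclic group with values `±1` off the identity
-/

set_option autoImplicit false
set_option linter.unusedSectionVars false
set_option linter.style.haveILetI false
set_option linter.unusedSimpArgs false

namespace Cfsg.Agent.H21

open scoped ComplexConjugate
open Cfsg Module Cfsg.Agent.H22

universe u

/-- A finite sum of squares of integers equal to one. -/
theorem sum_sq_eq_one {X : Type*} [Fintype X] (f : X → ℤ) (h : ∑ x, f x * f x = 1) :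
    ∃ x₀, (f x₀ = 1 ∨ f x₀ = -1) ∧ ∀ x, x ≠ x₀ → f x = 0 := by
  classical
  obtain ⟨x₀, -, hx₀⟩ : ∃ x ∈ (Finset.univ : Finset X), f x * f x ≠ 0 := by
    by_contra hno
    push Not at hno
    rw [Finset.sum_eq_zero hno] at h
    exact zero_ne_one h
  have hnn : ∀ x ∈ (Finset.univ : Finset X), 0 ≤ f x * f x := fun x _ => mul_self_nonneg _
  have h3 : f x₀ * f x₀ ≤ 1 := by
    rw [← h]
    exact Finset.single_le_sum hnn (Finset.mem_univ x₀)
  have h4 : f x₀ * f x₀ = 1 := by
    have := mul_self_nonneg (f x₀)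
    omega
  refine ⟨x₀, ?_, ?_⟩
  · exact Int.eq_one_or_neg_one_of_mul_eq_one' h4 |>.imp (·.1) (·.1)
  · intro x hx
    by_contra hne
    have h5 : 0 < f x * f x := mul_self_pos.mpr hne
    have h6 : f x * f x + f x₀ * f x₀ ≤ 1 := by
      rw [← h]
      have h60 := Finset.sum_pair (f := fun x => f x * f x) hx
      rw [← h60]
      exact Finset.sum_le_sum_of_subset_of_nonneg (Finset.subset_univ _)
        (fun i _ _ => mul_self_nonneg _)
    omega

variable {A : Type u} [Group A] [Finite A]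

/-- In a cyclic group two elements of the same prime order generate the same subgroup. -/
theorem zpowers_eq_of_pow_prime (hcyc : IsCyclic A) {p : ℕ} (hp : p.Prime) {w w₀ : A}
    (hw : w ^ p = 1) (hw1 : w ≠ 1) (hw₀ : w₀ ^ p = 1) (hw₀1 : w₀ ≠ 1) :
    Subgroup.zpowers w = Subgroup.zpowers w₀ := by
  classical
  haveI := Fact.mk hp
  have ho : orderOf w = p := orderOf_eq_prime hw hw1
  have ho₀ : orderOf w₀ = p := orderOf_eq_prime hw₀ hw₀1
  have hle : (Finset.univ.filter (fun a : A => a ^ p = 1)).card ≤ p :=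
    IsCyclic.card_pow_eq_one_le hp.pos
  have hcard : ∀ u : A, orderOf u = p →
      (Finset.univ.filter (fun a : A => a ∈ Subgroup.zpowers u)) =
      (Finset.univ.filter (fun a : A => a ^ p = 1)) := by
    intro u hu
    apply Finset.eq_of_subset_of_card_le
    · intro a ha
      simp only [Finset.mem_filter, Finset.mem_univ, true_and] at ha ⊢
      obtain ⟨k, rfl⟩ := ha
      rw [← zpow_natCast, ← zpow_mul, mul_comm, zpow_mul, zpow_natCast, ← hu, pow_orderOf_eq_one,
        one_zpow]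
    · have h1 : (Finset.univ.filter (fun a : A => a ∈ Subgroup.zpowers u)).card = p := by
        rw [← hu, ← Nat.card_zpowers, Nat.card_eq_fintype_card, Fintype.card_subtype]
      rw [h1]
      exact hle
  ext a
  have h1 := Finset.ext_iff.mp ((hcard w ho).trans (hcard w₀ ho₀).symm) a
  simpa using h1

/-- The group of irreducible characters: orthogonality for abelian groups. -/
theorem sum_irr_ne_one (hA : ∀ x y : A, x * y = y * x) {x : A} (hx : x ≠ 1) :
    ∑ l : IrrCharacter A, l.1 x = 0 := by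
  classical
  have h := sum_irr_abelian hA x 1
  rw [if_neg (Ne.symm hx)] at h
  have h1 : ∀ l : IrrCharacter A, conj (l.1 1) = 1 := by
    intro l
    rw [linear_one (isCharacter_of_irr l.2) (irr_degree_one_of_comm hA l.2)]
    simp
  simpa [h1] using h

theorem card_irr_abelian (hA : ∀ x y : A, x * y = y * x) :
    (Fintype.card (IrrCharacter A) : ℂ) = Nat.card A := by
  classical
  have h := sum_irr_abelian hA 1 1
  rw [if_pos rfl] at h
  have h1 : ∀ l : IrrCharacter A, l.1 1 = 1 := fun l =>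
    linear_one (isCharacter_of_irr l.2) (irr_degree_one_of_comm hA l.2)
  simpa [h1] using h

section Core

variable (hcyc : IsCyclic A) (m : IrrCharacter A → ℕ) (e : A → ℤ)

/-- The function with coefficients `m`. -/
noncomputable def coefFn (g : A) : ℂ := ∑ l : IrrCharacter A, (m l : ℂ) * l.1 g

theorem coefFn_isCharacter : IsCharacter A (coefFn m) := by
  have : coefFn m = ∑ l : IrrCharacter A, (m l) • l.1 := by
    funext g
    simp [coefFn, Finset.sum_apply]
  rw [this]
  exact isCharacter_sum _ _ fun l _ => isCharacter_nsmul _ (isCharacter_of_irr l.2)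

theorem classInner_coefFn (l : IrrCharacter A) : classInner (coefFn m) l.1 = m l := by
  classical
  have : coefFn m = ∑ l : IrrCharacter A, (m l : ℂ) • l.1 := by
    funext g
    simp [coefFn, Finset.sum_apply]
  rw [this, classInner_sum_left, Finset.sum_eq_single l]
  · rw [classInner_smul_left, H06.classInner_irr_self l.2, mul_one]
  · intro l' _ hl'
    rw [classInner_smul_left, classInner_irr, if_neg hl', mul_zero]
  · simp

theorem classInner_coefFn_self : classInner (coefFn m) (coefFn m) = ∑ l, ((m l * m l : ℕ) : ℂ) := by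
  classical
  have : coefFn m = ∑ l : IrrCharacter A, (m l : ℂ) • l.1 := by
    funext g
    simp [coefFn, Finset.sum_apply]
  conv_lhs => arg 2; rw [this]
  rw [classInner_sum_right]
  refine Finset.sum_congr rfl fun l _ => ?_
  rw [classInner_smul_right, classInner_coefFn]
  simp

end Core

section Core2

variable (hcyc : IsCyclic A) (m : IrrCharacter A → ℕ) (e : A → ℤ)

/-- The Fourier step. -/
theorem fourier_step (hA : ∀ x y : A, x * y = y * x) {p : ℕ} (hp : p.Prime) {w₀ : A}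
    (hw₀ : w₀ ^ p = 1) (hw₀1 : w₀ ≠ 1)
    (hF : ∀ x, x ≠ 1 → coefFn m x = e x)
    (hZ : ∀ w, w ^ p = 1 → w ≠ 1 → coefFn m w = coefFn m w₀)
    (hconst : ∀ x, x ^ p ≠ 1 → coefFn m (x * w₀) = coefFn m x) :
    ∃ c : ℕ, ((∑ l, m l : ℕ) : ℤ) = Nat.card A * c + e w₀ := by
  classical
  -- a linear character nontrivial on `w₀`
  obtain ⟨l, hl⟩ : ∃ l : IrrCharacter A, l.1 w₀ ≠ 1 := by
    by_contra hno
    push Not at hno
    have h0 := sum_irr_ne_one hA hw₀1
    simp only [hno] at h0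
    have h1 := card_irr_abelian hA
    simp only [Finset.sum_const, Finset.card_univ, nsmul_eq_mul, mul_one] at h0
    rw [h0] at h1
    have : (Nat.card A : ℂ) ≠ 0 := by
      exact_mod_cast Nat.card_pos.ne'
    exact this h1.symm
  refine ⟨m l, ?_⟩
  have hlc := isCharacter_of_irr l.2
  have hdeg := irr_degree_one_of_comm hA l.2
  have hmul := linear_mul hlc hdeg
  have hone := linear_one hlc hdeg
  -- Fourier coefficient
  have h1 : (Nat.card A : ℂ) * (m l : ℂ) = ∑ x, coefFn m x * conj (l.1 x) := by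
    have := classInner_coefFn m l
    unfold classInner at this
    have hn : (Nat.card A : ℂ) ≠ 0 := by
      exact_mod_cast Nat.card_pos.ne'
    rw [← this, ← mul_assoc, mul_inv_cancel₀ hn, one_mul]
  set ζ : ℂ := conj (l.1 w₀) with hζ
  have hζ1 : ζ ≠ 1 := by
    intro h
    apply hl
    have := congrArg conj h
    simpa [hζ] using this
  -- the sum over the translation-stable set `T` of a `w₀`-invariant function vanishes
  have hvanish : ∀ (T : Finset A), (∀ x, x ∈ T ↔ x * w₀ ∈ T) → ∀ f : A → ℂ,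
      (∀ x ∈ T, f (x * w₀) = f x) → ∑ x ∈ T, f x * conj (l.1 x) = 0 := by
    intro T hT f hf
    have h2 : ∑ x ∈ T, f x * conj (l.1 x) = ∑ x ∈ T, f (x * w₀) * conj (l.1 (x * w₀)) := by
      symm
      refine Finset.sum_nbij (fun x => x * w₀) (fun x hx => (hT x).1 hx) ?_ ?_ (fun _ _ => rfl)
      · intro a _ b _ hab
        exact mul_right_cancel hab
      · intro y hy
        refine ⟨y * w₀⁻¹, ?_, by simp⟩
        rw [Finset.mem_coe] at hy ⊢
        rw [hT]
        simpa using hy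
    have h3 : ∑ x ∈ T, f (x * w₀) * conj (l.1 (x * w₀)) = ζ * ∑ x ∈ T, f x * conj (l.1 x) := by
      rw [Finset.mul_sum]
      refine Finset.sum_congr rfl fun x hx => ?_
      rw [hf x hx, hmul, map_mul]
      ring
    rw [h3] at h2
    have h4 : (1 - ζ) * ∑ x ∈ T, f x * conj (l.1 x) = 0 := by
      rw [sub_mul, one_mul, ← h2, sub_self]
    rcases mul_eq_zero.mp h4 with h5 | h5
    · exact absurd (sub_eq_zero.mp h5).symm hζ1
    · exact h5
  -- the decomposition
  set T : Finset A := Finset.univ.filter (fun x => x ^ p ≠ 1) with hT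
  set Z : Finset A := Finset.univ.filter (fun x => x ^ p = 1) with hZdef
  have hmulp : ∀ x : A, (x * w₀) ^ p = x ^ p := by
    intro x
    have hc : Commute x w₀ := hA x w₀
    rw [hc.mul_pow, hw₀, mul_one]
  have hTs : ∀ x, x ∈ T ↔ x * w₀ ∈ T := by
    intro x
    simp only [hT, Finset.mem_filter, Finset.mem_univ, true_and, hmulp]
  have hZs : ∀ x, x ∈ Z ↔ x * w₀ ∈ Z := by
    intro x
    simp only [hZdef, Finset.mem_filter, Finset.mem_univ, true_and, hmulp]
  have hout : ∑ x ∈ T, coefFn m x * conj (l.1 x) = 0 :=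
    hvanish T hTs _ (fun x hx => hconst x (Finset.mem_filter.mp hx).2)
  have hZsum : ∑ x ∈ Z, (1 : ℂ) * conj (l.1 x) = 0 := hvanish Z hZs _ (fun _ _ => rfl)
  have h1mem : (1 : A) ∈ Z := by
    simp [hZdef]
  have hsplit : ∑ x, coefFn m x * conj (l.1 x)
      = ∑ x ∈ Z, coefFn m x * conj (l.1 x) + ∑ x ∈ T, coefFn m x * conj (l.1 x) :=
    (Finset.sum_filter_add_sum_filter_not _ _ _).symm
  rw [hsplit, hout, add_zero] at h1
  have hin : ∑ x ∈ Z, coefFn m x * conj (l.1 x)
      = (∑ x ∈ Z, ((e w₀ : ℤ) : ℂ) * conj (l.1 x)) + (coefFn m 1 - (e w₀ : ℂ)) := by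
    rw [← Finset.add_sum_erase Z _ h1mem, ← Finset.add_sum_erase Z (fun x => ((e w₀ : ℤ) : ℂ) * conj (l.1 x)) h1mem]
    have h3 : ∑ x ∈ Z.erase 1, coefFn m x * conj (l.1 x)
        = ∑ x ∈ Z.erase 1, ((e w₀ : ℤ) : ℂ) * conj (l.1 x) := by
      refine Finset.sum_congr rfl fun x hx => ?_
      have hx1 := Finset.ne_of_mem_erase hx
      have hx2 : x ^ p = 1 := (Finset.mem_filter.mp (Finset.mem_of_mem_erase hx)).2
      rw [hZ x hx2 hx1, hF w₀ hw₀1]
    rw [h3, hone]
    simp
    ring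
  have hZsum' : ∑ x ∈ Z, ((e w₀ : ℤ) : ℂ) * conj (l.1 x) = 0 := by
    rw [← Finset.mul_sum]
    simp only [one_mul] at hZsum
    rw [hZsum, mul_zero]
  rw [hin, hZsum', zero_add] at h1
  have hone' : coefFn m (1 : A) = ((∑ l, m l : ℕ) : ℂ) := by
    unfold coefFn
    push_cast
    refine Finset.sum_congr rfl fun l' _ => ?_
    rw [linear_one (isCharacter_of_irr l'.2) (irr_degree_one_of_comm hA l'.2), mul_one]
  rw [hone'] at h1
  have h2 : (((∑ l, m l : ℕ) : ℤ) : ℂ) = (((Nat.card A : ℤ) * (m l : ℤ) + e w₀ : ℤ) : ℂ) := by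
    push_cast at h1 ⊢
    rw [h1]
    ring
  exact_mod_cast h2

/-- Translation by an element of prime order `p` odd. -/
theorem const_odd {p : ℕ} (hp : p.Prime) (hp2 : p ≠ 2) (hA : ∀ x y : A, x * y = y * x) {w₀ : A}
    (hw₀ : w₀ ^ p = 1) (hw₀1 : w₀ ≠ 1) (hF : ∀ x, x ≠ 1 → coefFn m x = e x)
    (he : ∀ x, x ≠ 1 → e x = 1 ∨ e x = -1) {x : A} (hx : x ^ p ≠ 1) :
    coefFn m (x * w₀) = coefFn m x := by
  have hc := coefFn_isCharacter m
  have hx1 : x ≠ 1 := by
    rintro rfl
    simp at hx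
  have hmulp : (x * w₀) ^ p = x ^ p := by
    have hc : Commute x w₀ := hA x w₀
    rw [hc.mul_pow, hw₀, mul_one]
  have hxw1 : x * w₀ ≠ 1 := by
    intro h
    rw [h, one_pow] at hmulp
    exact hx hmulp.symm
  obtain ⟨γ₁, hγ₁⟩ := character_pow_congr hc x hp 1
  obtain ⟨γ₂, hγ₂⟩ := character_pow_congr hc (x * w₀) hp 1
  simp only [pow_one] at hγ₁ hγ₂
  rw [hmulp] at hγ₂
  have hodd : Odd p := hp.odd_of_ne_two hp2
  have hpow : ∀ y, y ≠ 1 → (coefFn m y) ^ p = e y := by
    intro y hy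
    rw [hF y hy]
    rcases he y hy with h | h <;> rw [h]
    · simp
    · simp [hodd.neg_one_pow]
  rw [hpow x hx1] at hγ₁
  rw [hpow _ hxw1] at hγ₂
  have h3 : ((e (x * w₀) - e x : ℤ) : ℂ) = (p : ℂ) * ((γ₂ : ℂ) - (γ₁ : ℂ)) := by
    push_cast
    rw [mul_sub, ← hγ₂, ← hγ₁]
    ring
  have hint : IsIntegral ℤ ((γ₂ : ℂ) - (γ₁ : ℂ)) := by
    exact IsIntegral.sub γ₂.2 γ₁.2
  have h4 := p_dvd_of_eq_mul hp _ _ hint h3
  have h5 : e (x * w₀) = e x := by
    have hp3 : 3 ≤ p := by
      have := hp.two_le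
      omega
    obtain ⟨k, hk⟩ := h4
    rcases he _ hxw1 with h6 | h6 <;> rcases he _ hx1 with h7 | h7 <;> rw [h6, h7] at hk ⊢ <;>
      first
      | rfl
      | (exfalso
         have hk0 : k ≠ 0 := by
           rintro rfl
           simp at hk
         have hp3' : (3 : ℤ) ≤ p := by exact_mod_cast hp3
         rcases lt_or_gt_of_ne hk0 with hneg | hpos
         · nlinarith
         · nlinarith)
  rw [hF _ hxw1, hF _ hx1, h5]

/-- Translation by the involution in a cyclic `2`-group. -/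
theorem const_two (hcyc : IsCyclic A) (h2 : ∀ x : A, ∃ j, orderOf x = 2 ^ j)
    (hA : ∀ x y : A, x * y = y * x) {w₀ : A} (hw₀ : w₀ ^ 2 = 1) (hw₀1 : w₀ ≠ 1) {x : A}
    (hx : x ^ 2 ≠ 1) : Subgroup.zpowers (x * w₀) = Subgroup.zpowers x := by
  obtain ⟨j, hj⟩ := h2 x
  have hj2 : 2 ≤ j := by
    by_contra hlt
    have hle : j ≤ 1 := by omega
    apply hx
    have h3 : orderOf x ∣ 2 := by
      rw [hj]
      exact pow_dvd_pow 2 hle
    exact orderOf_dvd_iff_pow_eq_one.mp h3
  obtain ⟨i, rfl⟩ : ∃ i, j = i + 2 := ⟨j - 2, by omega⟩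
  set u := x ^ (2 ^ (i + 1)) with hu
  have hu2 : u ^ 2 = 1 := by
    rw [hu, ← pow_mul, ← pow_succ, ← hj, pow_orderOf_eq_one]
  have hu1 : u ≠ 1 := by
    intro h
    have h3 := orderOf_dvd_of_pow_eq_one h
    rw [hj] at h3
    have h4 := Nat.le_of_dvd (by positivity) h3
    have h5 : 2 ^ (i + 1) < 2 ^ (i + 2) := Nat.pow_lt_pow_right (by norm_num) (by omega)
    omega
  have hz := zpowers_eq_of_pow_prime hcyc Nat.prime_two hw₀ hw₀1 hu2 hu1
  have hw₀mem : w₀ ∈ Subgroup.zpowers x := by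
    have h3 : w₀ ∈ Subgroup.zpowers w₀ := Subgroup.mem_zpowers w₀
    rw [hz] at h3
    have h4 : Subgroup.zpowers u ≤ Subgroup.zpowers x := by
      rw [Subgroup.zpowers_le]
      exact Subgroup.npow_mem_zpowers x _
    exact h4 h3
  have hw₀u : w₀ = u := by
    obtain ⟨k, hk⟩ : w₀ ∈ Subgroup.zpowers u := by
      rw [← hz]
      exact Subgroup.mem_zpowers w₀
    simp only at hk
    rcases Int.even_or_odd k with hev | hodd
    · obtain ⟨r, rfl⟩ := hev
      have h5 : u ^ (r + r) = 1 := by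
        rw [← two_mul, zpow_mul, zpow_ofNat, hu2, one_zpow]
      exact absurd (hk.symm.trans h5) hw₀1
    · obtain ⟨r, rfl⟩ := hodd
      have h5 : u ^ (2 * r + 1) = u := by
        rw [zpow_add, zpow_mul, zpow_ofNat, hu2, one_zpow, one_mul, zpow_one]
      exact hk.symm.trans h5
  apply le_antisymm
  · rw [Subgroup.zpowers_le]
    exact Subgroup.mul_mem _ (Subgroup.mem_zpowers x) hw₀mem
  · rw [Subgroup.zpowers_le]
    -- `(x w₀) ^ (1 + 2^(i+1)) = x`
    refine ⟨((1 + 2 ^ (i + 1) : ℕ) : ℤ), ?_⟩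
    simp only [zpow_natCast]
    have hc : Commute x w₀ := hA x w₀
    rw [hc.mul_pow, pow_add, pow_one, ← hu, hw₀u]
    have h3 : u ^ (1 + 2 ^ (i + 1)) = u := by
      rw [pow_add, pow_one, pow_succ' 2 i, pow_mul, hu2, one_pow, mul_one]
    rw [h3, mul_assoc, ← sq, hu2, mul_one]

end Core2

section Core3

variable (m : IrrCharacter A → ℕ) (e : A → ℤ)

theorem coefFn_one (hA : ∀ x y : A, x * y = y * x) :
    coefFn m (1 : A) = ((∑ l, m l : ℕ) : ℂ) := by
  unfold coefFn
  push_cast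
  refine Finset.sum_congr rfl fun l' _ => ?_
  rw [linear_one (isCharacter_of_irr l'.2) (irr_degree_one_of_comm hA l'.2), mul_one]

/-- The congruence modulo `|A|`. -/
theorem cyc_cong (hcyc : IsCyclic A) (hF : ∀ x, x ≠ 1 → coefFn m x = e x)
    (he : ∀ x, x ≠ 1 → e x = 1 ∨ e x = -1)
    (hgen : ∀ x y, x ≠ 1 → Subgroup.zpowers x = Subgroup.zpowers y → coefFn m x = coefFn m y)
    (hne : ∃ l, m l ≠ 0) :
    ∃ (ε : ℤ) (c : ℕ), (ε = 1 ∨ ε = -1) ∧ ((∑ l, m l : ℕ) : ℤ) = Nat.card A * c + ε := by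
  classical
  obtain ⟨b, hb⟩ := hcyc.exists_generator
  have hA := H23.comm_of_gen hb
  by_cases hn1 : Nat.card A = 1
  · refine ⟨1, (∑ l, m l) - 1, Or.inl rfl, ?_⟩
    obtain ⟨l, hl⟩ := hne
    have hpos : 1 ≤ ∑ l, m l :=
      le_trans (Nat.pos_of_ne_zero hl) (Finset.single_le_sum (fun _ _ => Nat.zero_le _)
        (Finset.mem_univ l))
    rw [hn1]
    push_cast [Nat.cast_sub hpos]
    ring
  by_cases hodd : ∃ p : ℕ, p.Prime ∧ p ≠ 2 ∧ p ∣ Nat.card A
  · obtain ⟨p, hp, hp2, hd⟩ := hodd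
    haveI := Fact.mk hp
    obtain ⟨w₀, hw₀⟩ := exists_prime_orderOf_dvd_card' p hd
    have hw₀p : w₀ ^ p = 1 := by
      rw [← hw₀, pow_orderOf_eq_one]
    have hw₀1 : w₀ ≠ 1 := by
      rintro rfl
      rw [orderOf_one] at hw₀
      exact hp.one_lt.ne hw₀
    obtain ⟨c, hc⟩ := fourier_step m e hA hp hw₀p hw₀1 hF
      (fun w hw hw1 => hgen w w₀ hw1 (zpowers_eq_of_pow_prime hcyc hp hw hw1 hw₀p hw₀1))
      (fun x hx => const_odd m e hp hp2 hA hw₀p hw₀1 hF he hx)
    exact ⟨e w₀, c, he w₀ hw₀1, hc⟩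
  · push Not at hodd
    have h2d : 2 ∣ Nat.card A := by
      obtain ⟨q, hq, hqd⟩ := Nat.exists_prime_and_dvd hn1
      by_cases hq2 : q = 2
      · rwa [← hq2]
      · exact absurd hqd (hodd q hq hq2)
    have hpow : Nat.card A = 2 ^ (Nat.card A).primeFactorsList.length :=
      Nat.eq_prime_pow_of_unique_prime_dvd Nat.card_pos.ne' (fun {d} hd hdd => by
        by_contra hne'
        exact hodd d hd hne' hdd)
    have h2 : ∀ x : A, ∃ j, orderOf x = 2 ^ j := by
      intro x
      have h3 : orderOf x ∣ 2 ^ (Nat.card A).primeFactorsList.length := by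
        rw [← hpow]
        exact orderOf_dvd_natCard x
      obtain ⟨j, -, hj⟩ := (Nat.dvd_prime_pow Nat.prime_two).mp h3
      exact ⟨j, hj⟩
    haveI : Fact (Nat.Prime 2) := ⟨Nat.prime_two⟩
    obtain ⟨w₀, hw₀⟩ := exists_prime_orderOf_dvd_card' 2 h2d
    have hw₀p : w₀ ^ 2 = 1 := by
      rw [← hw₀, pow_orderOf_eq_one]
    have hw₀1 : w₀ ≠ 1 := by
      rintro rfl
      rw [orderOf_one] at hw₀
      omega
    obtain ⟨c, hc⟩ := fourier_step m e hA Nat.prime_two hw₀p hw₀1 hF
      (fun w hw hw1 => hgen w w₀ hw1 (zpowers_eq_of_pow_prime hcyc Nat.prime_two hw hw1 hw₀p hw₀1))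
      (fun x hx => by
        have hz := const_two hcyc h2 hA hw₀p hw₀1 hx
        refine hgen _ _ ?_ hz
        intro h0
        apply hx
        have h1 := (hA x w₀ ▸ rfl : (x * w₀) ^ 2 = (x * w₀) ^ 2)
        have hc : Commute x w₀ := hA x w₀
        have h3 := hc.mul_pow 2
        rw [h0, hw₀p, mul_one, one_pow] at h3
        exact h3.symm)
    exact ⟨e w₀, c, he w₀ hw₀1, hc⟩

/-- **The sign theorem for cyclic groups.** -/
theorem cyc_core (hcyc : IsCyclic A) (hF : ∀ x, x ≠ 1 → coefFn m x = e x)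
    (he : ∀ x, x ≠ 1 → e x = 1 ∨ e x = -1)
    (hgen : ∀ x y, x ≠ 1 → Subgroup.zpowers x = Subgroup.zpowers y → coefFn m x = coefFn m y)
    (hne : ∃ l, m l ≠ 0) :
    ∃ (δ : ℤ) (l₀ : IrrCharacter A) (c : ℕ), (δ = 1 ∨ δ = -1) ∧
      (∀ l, (m l : ℤ) = c + if l = l₀ then δ else 0) ∧
      ∀ x, x ≠ 1 → coefFn m x = (δ : ℂ) * l₀.1 x := by
  classical
  obtain ⟨b, hb⟩ := hcyc.exists_generator
  have hA := H23.comm_of_gen hb
  obtain ⟨ε, c, hε, hac⟩ := cyc_cong m e hcyc hF he hgen hne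
  set a : ℕ := ∑ l, m l with ha
  have hn0 : (Nat.card A : ℂ) ≠ 0 := by
    exact_mod_cast Nat.card_pos.ne'
  -- Parseval
  have h1 : ((Nat.card A : ℤ) * ∑ l, ((m l : ℤ) * (m l : ℤ))) = (a : ℤ) * a + Nat.card A - 1 := by
    have h2 := classInner_coefFn_self m
    unfold classInner at h2
    have h3 : ∑ x, coefFn m x * conj (coefFn m x) = (a : ℂ) * a + ((Nat.card A : ℂ) - 1) := by
      rw [← Finset.add_sum_erase Finset.univ _ (Finset.mem_univ (1 : A)), coefFn_one m hA]
      congr 1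
      · simp [ha]
      · have h4 : ∀ x ∈ (Finset.univ : Finset A).erase 1, coefFn m x * conj (coefFn m x) = 1 := by
          intro x hx
          have hx1 := Finset.ne_of_mem_erase hx
          rw [hF x hx1]
          rcases he x hx1 with h5 | h5 <;> rw [h5] <;> simp
        rw [Finset.sum_congr rfl h4]
        simp only [Finset.sum_const, nsmul_eq_mul, mul_one]
        rw [Finset.card_erase_of_mem (Finset.mem_univ _), Finset.card_univ,
          ← Nat.card_eq_fintype_card]
        have h1c : 1 ≤ Nat.card A := Nat.card_pos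
        push_cast [Nat.cast_sub h1c]
        ring
    rw [h3] at h2
    have h4 : ((Nat.card A : ℂ)) * ∑ l, ((m l * m l : ℕ) : ℂ) = (a : ℂ) * a + ((Nat.card A : ℂ) - 1) := by
      rw [← h2, ← mul_assoc, mul_inv_cancel₀ hn0, one_mul]
    have h5 : (((Nat.card A : ℤ) * ∑ l, ((m l : ℤ) * (m l : ℤ)) : ℤ) : ℂ)
        = (((a : ℤ) * a + Nat.card A - 1 : ℤ) : ℂ) := by
      push_cast at h4 ⊢
      rw [h4]
      ring
    exact_mod_cast h5
  have hcard : ((Fintype.card (IrrCharacter A) : ℕ) : ℤ) = Nat.card A := by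
    have := card_irr_abelian hA
    exact_mod_cast this
  -- the sum of squares
  set f : IrrCharacter A → ℤ := fun l => (m l : ℤ) - c with hf
  have h6 : ∑ l, f l * f l = 1 := by
    have h7 : ∑ l, f l * f l = ∑ l, ((m l : ℤ) * (m l : ℤ)) - 2 * c * a
        + c * c * Nat.card A := by
      have e1 : ∀ l, f l * f l = (m l : ℤ) * (m l : ℤ) - 2 * c * (m l : ℤ) + c * c := by
        intro l
        simp only [hf]
        ring
      simp only [e1]
      rw [Finset.sum_add_distrib, Finset.sum_sub_distrib, ← Finset.mul_sum]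
      simp only [Finset.sum_const, Finset.card_univ, nsmul_eq_mul]
      rw [hcard, ha]
      push_cast
      ring
    have hn' : (Nat.card A : ℤ) ≠ 0 := by
      exact_mod_cast Nat.card_pos.ne'
    apply mul_left_cancel₀ hn'
    rw [h7, mul_one, mul_add, mul_sub, h1, hac]
    have hεε : ε * ε = 1 := by
      rcases hε with rfl | rfl <;> norm_num
    have e2 : ((Nat.card A : ℤ) * c + ε) * ((Nat.card A : ℤ) * c + ε) = (Nat.card A : ℤ) * c * ((Nat.card A : ℤ) * c) + 2 * ((Nat.card A : ℤ) * c) * ε + ε * ε := by ring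
    rw [e2, hεε]
    ring
  obtain ⟨l₀, hl₀, hother⟩ := sum_sq_eq_one f h6
  refine ⟨f l₀, l₀, c, hl₀, ?_, ?_⟩
  · intro l
    by_cases hl : l = l₀
    · rw [if_pos hl, hl]
      simp only [hf]
      ring
    · rw [if_neg hl]
      have := hother l hl
      simp only [hf] at this
      omega
  · intro x hx
    have h8 : coefFn m x = ∑ l : IrrCharacter A, ((c : ℂ) * l.1 x + ((f l : ℤ) : ℂ) * l.1 x) := by
      unfold coefFn
      refine Finset.sum_congr rfl fun l _ => ?_
      simp only [hf]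
      push_cast
      ring
    rw [h8, Finset.sum_add_distrib, ← Finset.mul_sum, sum_irr_ne_one hA hx, mul_zero, zero_add,
      Finset.sum_eq_single l₀]
    · intro l _ hl
      rw [hother l hl]
      simp
    · simp

/-- If the function vanishes off the identity all multiplicities agree. -/
theorem cyc_zero (hA : ∀ x y : A, x * y = y * x) (hF : ∀ x, x ≠ 1 → coefFn m x = 0)
    (l : IrrCharacter A) : (Nat.card A : ℕ) * m l = ∑ l', m l' := by
  classical
  have h1 := classInner_coefFn m l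
  unfold classInner at h1
  have hn0 : (Nat.card A : ℂ) ≠ 0 := by
    exact_mod_cast Nat.card_pos.ne'
  have h2 : ∑ x, coefFn m x * conj (l.1 x) = coefFn m 1 := by
    rw [Finset.sum_eq_single (1 : A)]
    · rw [linear_one (isCharacter_of_irr l.2) (irr_degree_one_of_comm hA l.2)]
      simp
    · intro x _ hx
      rw [hF x hx, zero_mul]
    · simp
  rw [h2, coefFn_one m hA] at h1
  have h3 : ((∑ l', m l' : ℕ) : ℂ) = (Nat.card A : ℂ) * (m l : ℂ) := by
    rw [← h1, ← mul_assoc, mul_inv_cancel₀ hn0, one_mul]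
  have h4 : (((Nat.card A : ℕ) * m l : ℕ) : ℂ) = ((∑ l', m l' : ℕ) : ℂ) := by
    rw [h3]
    push_cast
    rfl
  exact_mod_cast h4

end Core3

end Cfsg.Agent.H21
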