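import Cfsg.Agent.Lib.H21.GlaubCyc5
import Cfsg.Agent.Lib.H04.Cliff.QP

/-!
# The cyclic Glauberman correspondence when all nontrivial elements have the same fixed points
-/

set_option autoImplicit false
set_option linter.unusedSectionVars false
set_option linter.style.haveILetI false
set_option linter.unusedSimpArgs false

namespace Cfsg.Agent.H21

open scoped ComplexConjugate
open Cfsg Module Cfsg.Agent.H22 Cfsg.Agent.H23 SemidirectProduct

universe u

variable {K A : Type u} [Group K] [Group A] [Finite K] [Finite A] (φ : A →* MulAut K)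

/-- A character of the semidirect product with irreducible restriction is irreducible. -/
theorem irr_of_inl_irr {ψ : K ⋊[φ] A → ℂ} (hc : IsCharacter _ ψ)
    (hirr : IsIrrCharacter K (fun k => ψ (inl k))) : IsIrrCharacter _ ψ := by
  classical
  refine H04.Cliff.QP.irr_of_res_irr (Nl φ) hc ?_
  let e : Nl φ ≃* K := (MonoidHom.ofInjective (f := (inl : K →* K ⋊[φ] A)) inl_injective).symm
  have he : ∀ k : K, e ⟨inl k, ⟨k, rfl⟩⟩ = k := by
    intro k
    exact MulEquiv.symm_apply_apply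
      (MonoidHom.ofInjective (f := (inl : K →* K ⋊[φ] A)) inl_injective) k
  have h1 := isIrrCharacter_comp_of_surjective e.toMonoidHom e.surjective hirr
  convert h1 using 1
  funext z
  obtain ⟨_, k, rfl⟩ := z
  show ψ (inl k) = ψ (inl (e ⟨inl k, ⟨k, rfl⟩⟩))
  rw [he]

section Sub

variable (x : A)

/-- The operators restricted to the cyclic group generated by `x`. -/
abbrev phiZ : Subgroup.zpowers x →* MulAut K := φ.comp (Subgroup.zpowers x).subtype

/-- The inclusion of the semidirect product for a cyclic subgroup. -/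
noncomputable def jZ : K ⋊[phiZ φ x] Subgroup.zpowers x →* K ⋊[φ] A :=
  SemidirectProduct.lift inl (inr.comp (Subgroup.zpowers x).subtype) (fun g => by
    refine MonoidHom.ext fun k => ?_
    show (inl (φ (g : A) k) : K ⋊[φ] A) = inr (g : A) * inl k * (inr (g : A))⁻¹
    rw [inl_aut, map_inv])

@[simp] theorem jZ_inl (k : K) : jZ φ x (inl k) = inl k := by
  simp [jZ]

@[simp] theorem jZ_inr (d : Subgroup.zpowers x) : jZ φ x (inr d) = inr (d : A) := by
  simp [jZ]

theorem gen_zpowers (y : A) (hy : Subgroup.zpowers y = Subgroup.zpowers x) :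
    ∃ h : y ∈ Subgroup.zpowers x, ∀ d : Subgroup.zpowers x, d ∈ Subgroup.zpowers (⟨y, h⟩ : Subgroup.zpowers x) := by
  have h : y ∈ Subgroup.zpowers x := by
    rw [← hy]
    exact Subgroup.mem_zpowers y
  refine ⟨h, fun d => ?_⟩
  have h1 : (d : A) ∈ Subgroup.zpowers y := by
    rw [hy]
    exact d.2
  obtain ⟨k, hk⟩ := h1
  refine ⟨k, Subtype.ext ?_⟩
  simpa using hk

variable {ψ : K ⋊[φ] A → ℂ} (hcop : (Nat.card K).Coprime (Nat.card A)) (hψ : IsIrrCharacter _ ψ)
  (hirr : IsIrrCharacter K (fun k => ψ (inl k))) (hdet : (detOrder ψ).Coprime (Nat.card A))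

include hcop in
theorem cop_zpowers : (Nat.card K).Coprime (Nat.card (Subgroup.zpowers x)) :=
  Nat.Coprime.coprime_dvd_right (Subgroup.card_subgroup_dvd_card _) hcop

include hirr in
theorem res_jZ : IsIrrCharacter K
    (fun k => ψ (jZ φ x (inl k : K ⋊[phiZ φ x] Subgroup.zpowers x))) := by
  simpa using hirr

include hψ hirr in
theorem irrchar_jZ : IsIrrCharacter _ (fun z => ψ (jZ φ x z)) :=
  irr_of_inl_irr (phiZ φ x) (isCharacter_comp (jZ φ x) (isCharacter_of_irr hψ)) (res_jZ φ x hirr)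

include hψ hdet in
theorem det_jZ : (detOrder (fun z => ψ (jZ φ x z))).Coprime (Nat.card (Subgroup.zpowers x)) :=
  Nat.Coprime.coprime_dvd_left (detOrder_comp_hom_dvd (jZ φ x) (isCharacter_of_irr hψ))
    (Nat.Coprime.coprime_dvd_right (Subgroup.card_subgroup_dvd_card _) hdet)

theorem CF_le_phiZ {k : K} (hk : k ∈ CF φ) : k ∈ CF (phiZ φ x) := by
  rw [mem_CF] at hk ⊢
  intro d
  exact hk _

include hcop hψ hirr hdet in
/-- Two generators of the same cyclic subgroup give the same function. -/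
theorem same_gen {y : A} (hy : Subgroup.zpowers y = Subgroup.zpowers x) (c : CF φ) :
    fC φ ψ y c = fC φ ψ x c := by
  obtain ⟨h, hb⟩ := gen_zpowers x y hy
  obtain ⟨h', hb'⟩ := gen_zpowers x x rfl
  have h1 := fC_gen (phiZ φ x) (cop_zpowers x hcop) hb' hb (irrchar_jZ φ x hψ hirr)
    (res_jZ φ x hirr) (det_jZ φ x hψ hdet)
  have h2 := congrFun h1 ⟨(c : K), CF_le_phiZ φ x c.2⟩
  have e1 : ∀ (a : Subgroup.zpowers x), fC (phiZ φ x) (fun z => ψ (jZ φ x z)) a
      ⟨(c : K), CF_le_phiZ φ x c.2⟩ = fC φ ψ (a : A) c := by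
    intro a
    show ψ (jZ φ x (inl (c : K) * inr a)) = ψ (inl (c : K) * inr (a : A))
    rw [map_mul, jZ_inl, jZ_inr]
  rw [e1, e1] at h2
  exact h2

include hcop hψ hirr hdet in
/-- The value of the correspondence at a nontrivial element with the right fixed points. -/
theorem pt_value (hfix : ∀ k, φ x k = k → k ∈ CF φ) :
    ∃ (β : IrrCharacter (CF φ)) (ε : ℤ), (ε = 1 ∨ ε = -1) ∧ ∀ c, fC φ ψ x c = (ε : ℂ) * β.1 c := by
  obtain ⟨h', hb'⟩ := gen_zpowers x x rfl
  obtain ⟨β', ε, hε, hf⟩ := glaub_exists_cyc (phiZ φ x) hb' (cop_zpowers x hcop)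
    (irrchar_jZ φ x hψ hirr) (res_jZ φ x hirr) (det_jZ φ x hψ hdet)
  have heq : CF φ = CF (phiZ φ x) := by
    ext k
    constructor
    · exact CF_le_phiZ φ x
    · intro hk
      apply hfix
      rw [mem_CF] at hk
      exact hk ⟨x, h'⟩
  let E : CF φ ≃* CF (phiZ φ x) := MulEquiv.subgroupCongr heq
  refine ⟨⟨fun c => β'.1 (E c), isIrrCharacter_comp_of_surjective E.toMonoidHom E.surjective β'.2⟩,
    ε, hε, fun c => ?_⟩
  have h2 := hf (E c)
  have e1 : fC (phiZ φ x) (fun z => ψ (jZ φ x z)) ⟨x, h'⟩ (E c) = fC φ ψ x c := by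
    show ψ (jZ φ x (inl (c : K) * inr ⟨x, h'⟩)) = ψ (inl (c : K) * inr x)
    rw [map_mul, jZ_inl, jZ_inr]
  rw [e1] at h2
  exact h2

end Sub

section Main

variable {φ} {b : A} (hb : ∀ d : A, d ∈ Subgroup.zpowers b) {ψ : K ⋊[φ] A → ℂ}
  (hcop : (Nat.card K).Coprime (Nat.card A)) (hψ : IsIrrCharacter _ ψ)
  (hirr : IsIrrCharacter K (fun k => ψ (inl k))) (hdet : (detOrder ψ).Coprime (Nat.card A))
  (hfix : ∀ x, x ≠ 1 → ∀ k, φ x k = k → k ∈ CF φ)

include hb in
theorem coef_eq (hc : IsCharacter _ ψ) (γ : IrrCharacter (CF φ)) (a : A) :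
    coefFn (mult φ hc γ) a = classInner (fC φ ψ a) γ.1 :=
  (coset_four φ (comm_of_gen hb) hc γ a).symm

include hb in
/-- The congruence step. -/
theorem step_p (hc : IsCharacter _ ψ) {p : ℕ} (hp : p.Prime) {y : A} {β γ : IrrCharacter (CF φ)}
    (hne : β ≠ γ) {ε ε' : ℤ} (hε' : ε' = 1 ∨ ε' = -1)
    (hy : ∀ c, fC φ ψ y c = (ε : ℂ) * β.1 c) (hx : ∀ c, fC φ ψ (y ^ p) c = (ε' : ℂ) * γ.1 c) :
    False := by
  have hF := coefFn_isCharacter (mult φ hc γ)
  obtain ⟨α, hα⟩ := character_pow_congr hF y hp 1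
  simp only [pow_one] at hα
  have e1 : coefFn (mult φ hc γ) y = 0 := by
    rw [coef_eq hb hc γ y]
    have : fC φ ψ y = (ε : ℂ) • β.1 := funext hy
    rw [this, classInner_smul_left, classInner_irr, if_neg hne, mul_zero]
  have e2 : coefFn (mult φ hc γ) (y ^ p) = ε' := by
    rw [coef_eq hb hc γ (y ^ p)]
    have : fC φ ψ (y ^ p) = (ε' : ℂ) • γ.1 := funext hx
    rw [this, classInner_smul_left, H06.classInner_irr_self γ.2, mul_one]
  rw [e1, e2, zero_pow hp.ne_zero, zero_sub] at hα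
  have h3 : ((-ε' : ℤ) : ℂ) = (p : ℂ) * (α : ℂ) := by
    push_cast
    exact hα
  have h4 := p_dvd_of_eq_mul hp _ _ α.2 h3
  have h5 : (p : ℤ) ∣ 1 := by
    rcases hε' with rfl | rfl
    · simpa using h4
    · simpa using h4
  have h6 : p ∣ 1 := by exact_mod_cast h5
  exact hp.one_lt.ne' (Nat.dvd_one.1 h6)

include hb hcop hψ hirr hdet hfix in
theorem claim_pow {β : IrrCharacter (CF φ)} {ε₀ : ℤ} (hε₀ : ε₀ = 1 ∨ ε₀ = -1)
    (hf : ∀ c, fC φ ψ b c = (ε₀ : ℂ) * β.1 c) (g : ℕ) :
    g ∣ Nat.card A → g ≠ Nat.card A →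
      ∃ ε : ℤ, (ε = 1 ∨ ε = -1) ∧ ∀ c, fC φ ψ (b ^ g) c = (ε : ℂ) * β.1 c := by
  induction g using Nat.strong_induction_on with
  | _ g ih =>
    intro hd hne
    have hn : 0 < Nat.card A := Nat.card_pos
    have hg0 : g ≠ 0 := by
      rintro rfl
      exact hn.ne' (Nat.zero_dvd.mp hd)
    by_cases hg1 : g = 1
    · subst hg1
      refine ⟨ε₀, hε₀, fun c => ?_⟩
      rw [pow_one]
      exact hf c
    set p := g.minFac with hp
    have hpp : p.Prime := Nat.minFac_prime hg1
    obtain ⟨g', hg'⟩ : p ∣ g := Nat.minFac_dvd g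
    have hg'0 : g' ≠ 0 := by
      rintro rfl
      exact hg0 (by simpa using hg')
    have hlt : g' < g := by
      rw [hg']
      have := hpp.two_le
      nlinarith [Nat.pos_of_ne_zero hg'0]
    have hle : g ≤ Nat.card A := Nat.le_of_dvd hn hd
    obtain ⟨ε, hε, hy⟩ := ih g' hlt (Dvd.dvd.trans ⟨p, by rw [hg', mul_comm]⟩ hd) (by omega)
    have hgx : b ^ g = (b ^ g') ^ p := by
      rw [← pow_mul, hg', mul_comm]
    have hord := orderOf_gen hb
    have hx1 : b ^ g ≠ 1 := by
      apply pow_ne_one_of_lt_orderOf hg0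
      rw [hord]
      omega
    obtain ⟨β', ε', hε', hx⟩ := pt_value φ (b ^ g) hcop hψ hirr hdet (hfix _ hx1)
    by_cases hββ : β' = β
    · subst hββ
      exact ⟨ε', hε', hx⟩
    · exfalso
      rw [hgx] at hx
      exact step_p hb (isCharacter_of_irr hψ) hpp (Ne.symm hββ) hε' hy hx

include hb hcop hψ hirr hdet hfix in
/-- All nontrivial elements give the same correspondent. -/
theorem claim_all {β : IrrCharacter (CF φ)} {ε₀ : ℤ} (hε₀ : ε₀ = 1 ∨ ε₀ = -1)
    (hf : ∀ c, fC φ ψ b c = (ε₀ : ℂ) * β.1 c) (x : A) (hx : x ≠ 1) :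
    ∃ ε : ℤ, (ε = 1 ∨ ε = -1) ∧ ∀ c, fC φ ψ x c = (ε : ℂ) * β.1 c := by
  obtain ⟨k, rfl⟩ : ∃ k : ℕ, b ^ k = x := by
    have := hb x
    rw [← mem_powers_iff_mem_zpowers] at this
    exact this
  set n := Nat.card A with hn
  set g := Nat.gcd k n with hg
  have hord : orderOf b = n := orderOf_gen hb
  have hgd : g ∣ n := Nat.gcd_dvd_right _ _
  have hgne : g ≠ n := by
    intro h
    apply hx
    have h1 : n ∣ k := by
      rw [← h]
      exact Nat.gcd_dvd_left _ _
    rw [← hord] at h1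
    exact orderOf_dvd_iff_pow_eq_one.mp h1
  obtain ⟨ε, hε, hv⟩ := claim_pow hb hcop hψ hirr hdet hfix hε₀ hf g hgd hgne
  refine ⟨ε, hε, fun c => ?_⟩
  have hz : Subgroup.zpowers (b ^ g) = Subgroup.zpowers (b ^ k) := by
    apply le_antisymm
    · rw [Subgroup.zpowers_le]
      refine ⟨Nat.gcdA k n, ?_⟩
      simp only
      have h1 : (g : ℤ) = k * Nat.gcdA k n + n * Nat.gcdB k n := Nat.gcd_eq_gcd_ab k n
      have h2 : b ^ (n : ℤ) = 1 := by
        rw [zpow_natCast, ← hord, pow_orderOf_eq_one]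
      rw [← zpow_natCast b k, ← zpow_mul, ← zpow_natCast b g, h1, zpow_add, zpow_mul b (n : ℤ), h2,
        one_zpow, mul_one]
    · rw [Subgroup.zpowers_le]
      obtain ⟨t, ht⟩ : g ∣ k := Nat.gcd_dvd_left _ _
      refine ⟨t, ?_⟩
      simp only [zpow_natCast]
      rw [← pow_mul, ← ht]
  have h3 := same_gen φ (b ^ k) hcop hψ hirr hdet hz c
  rw [← h3]
  exact hv c

include hb hcop hψ hirr hdet hfix in
/-- **The main theorem for fixed-point-free-like actions.** -/
theorem glaub_fpf {β : IrrCharacter (CF φ)} {ε₀ : ℤ} (hε₀ : ε₀ = 1 ∨ ε₀ = -1)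
    (hf : ∀ c, fC φ ψ b c = (ε₀ : ℂ) * β.1 c) :
    ∃ (δ : ℤ) (μ : IrrCharacter A) (ϑ : CF φ → ℂ), (δ = 1 ∨ δ = -1) ∧ IsCharacter _ ϑ ∧
      (∀ x, μ.1 x * μ.1 x = 1) ∧ (∀ x, x ≠ 1 → ∀ c, fC φ ψ x c = (δ : ℂ) * β.1 c * μ.1 x) ∧
      ∀ c : CF φ, ψ (inl (c : K)) = (Nat.card A : ℂ) * ϑ c + (δ : ℂ) * β.1 c := by
  classical
  have hA := comm_of_gen hb
  have hcyc : IsCyclic A := ⟨b, hb⟩
  have hc := isCharacter_of_irr hψ
  have hall := claim_all hb hcop hψ hirr hdet hfix hε₀ hf
  have hch : ∀ x : A, ∃ ε : ℤ, x ≠ 1 → (ε = 1 ∨ ε = -1) ∧ ∀ c, fC φ ψ x c = (ε : ℂ) * β.1 c := by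
    intro x
    by_cases hx : x = 1
    · exact ⟨1, fun h => absurd hx h⟩
    · obtain ⟨ε, h1, h2⟩ := hall x hx
      exact ⟨ε, fun _ => ⟨h1, h2⟩⟩
  choose e he using hch
  have hfun : ∀ x, x ≠ 1 → fC φ ψ x = (e x : ℂ) • β.1 := fun x hx => funext (he x hx).2
  set m := mult φ hc β with hm
  have hF : ∀ x, x ≠ 1 → coefFn m x = e x := by
    intro x hx
    rw [hm, coef_eq hb hc β x, hfun x hx, classInner_smul_left, H06.classInner_irr_self β.2, mul_one]
  have hgen : ∀ x y, x ≠ 1 → Subgroup.zpowers x = Subgroup.zpowers y → coefFn m x = coefFn m y := by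
    intro x y _ hz
    rw [hm, coef_eq hb hc β x, coef_eq hb hc β y]
    have : fC φ ψ x = fC φ ψ y := funext fun c => same_gen φ y hcop hψ hirr hdet hz c
    rw [this]
  have hne : ∃ l, m l ≠ 0 := by
    by_contra hno
    push Not at hno
    have h1 : coefFn m b = 0 := by
      unfold coefFn
      apply Finset.sum_eq_zero
      intro l _
      rw [hno l]
      simp
    rw [hm, coef_eq hb hc β b] at h1
    have e1 : fC φ ψ b = (ε₀ : ℂ) • β.1 := funext hf
    rw [e1, classInner_smul_left, H06.classInner_irr_self β.2, mul_one] at h1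
    rcases hε₀ with rfl | rfl <;> simp at h1
  obtain ⟨δ, l₀, c, hδ, hmv, hval⟩ := cyc_core m e hcyc hF (fun x hx => (he x hx).1) hgen hne
  have hδδ : (δ : ℂ) * δ = 1 := by
    rcases hδ with rfl | rfl <;> simp
  have hl₀1 : ∀ x, (l₀.1 x * l₀.1 x) = 1 := by
    intro x
    by_cases hx : x = 1
    · rw [hx, linear_one (isCharacter_of_irr l₀.2) (irr_degree_one_of_comm hA l₀.2), mul_one]
    · have h1 := hval x hx
      rw [hF x hx] at h1
      have h2 : (e x : ℂ) * e x = 1 := by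
        rcases (he x hx).1 with h | h <;> rw [h] <;> simp
      rw [h1] at h2
      calc l₀.1 x * l₀.1 x = ((δ : ℂ) * δ) * (l₀.1 x * l₀.1 x) := by rw [hδδ, one_mul]
        _ = _ := by rw [← h2]; ring
  -- the multiplicities over other constituents
  set t : IrrCharacter (CF φ) → ℕ := fun γ => if γ = β then c else mult φ hc γ (oneIrr A) with ht
  refine ⟨δ, l₀, coefFn t, hδ, coefFn_isCharacter t, hl₀1, ?_, ?_⟩
  · intro x hx c'
    rw [hfun x hx]
    show (e x : ℂ) * β.1 c' = _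
    rw [← hF x hx, hval x hx]
    ring
  · intro c'
    have hcl := fC_isClass φ (b := (1 : A)) (isClassFunction_of_isCharacter hc)
    have hexp := classFunction_expansion (fC φ ψ 1) hcl
    have h1 : ψ (inl (c' : K)) = fC φ ψ 1 c' := by
      show ψ (inl (c' : K)) = ψ (inl (c' : K) * inr 1)
      simp
    rw [h1, hexp]
    simp only [Finset.sum_apply, Pi.smul_apply, smul_eq_mul]
    have h2 : ∀ γ : IrrCharacter (CF φ), classInner (fC φ ψ 1) γ.1
        = (Nat.card A : ℂ) * (t γ : ℂ) + if γ = β then (δ : ℂ) else 0 := by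
      intro γ
      rw [← coef_eq hb hc γ 1, coefFn_one _ hA]
      by_cases hγ : γ = β
      · subst hγ
        have hsum : ((∑ l, mult φ hc γ l : ℕ) : ℤ) = (Nat.card A : ℤ) * c + δ := by
          push_cast
          have hcard : ((Fintype.card (IrrCharacter A) : ℕ) : ℤ) = Nat.card A := by
            have := card_irr_abelian hA
            exact_mod_cast this
          simp only [← hm, hmv]
          rw [Finset.sum_add_distrib]
          simp only [Finset.sum_const, Finset.card_univ, nsmul_eq_mul, Finset.sum_ite_eq',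
            Finset.mem_univ, if_true]
          rw [hcard]
        simp only [ht, if_true]
        have := congrArg (fun z : ℤ => (z : ℂ)) hsum
        push_cast at this ⊢
        exact this
      · simp only [ht, if_neg hγ, add_zero]
        have h0 : ∀ x, x ≠ 1 → coefFn (mult φ hc γ) x = 0 := by
          intro x hx
          rw [coef_eq hb hc γ x, hfun x hx, classInner_smul_left, classInner_irr,
            if_neg (Ne.symm hγ), mul_zero]
        have := cyc_zero (mult φ hc γ) hA h0 (oneIrr A)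
        rw [← this]
        push_cast
        rfl
    simp only [h2]
    have h3 : ∀ γ : IrrCharacter (CF φ), ((Nat.card A : ℂ) * (t γ : ℂ) + if γ = β then (δ : ℂ) else 0) * γ.1 c'
        = (Nat.card A : ℂ) * ((t γ : ℂ) * γ.1 c') + (if γ = β then (δ : ℂ) * β.1 c' else 0) := by
      intro γ
      by_cases hγ : γ = β
      · subst hγ
        simp
        ring
      · simp [hγ]
        ring
    simp only [h3]
    rw [Finset.sum_add_distrib, ← Finset.mul_sum]
    congr 1
    simp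

end Main

end Cfsg.Agent.H21
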