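import Cfsg.Agent.Lib.H21.GlaubRel3
import Cfsg.Agent.Lib.H01.Coprime2
import Cfsg.Agent.Lib.H23.RealDeg1

/-!
# Glauberman's lemma for permutation groups and invariant constituents below an invariant character
-/

set_option autoImplicit false
set_option linter.unusedSectionVars false
set_option linter.style.haveILetI false
set_option linter.unusedSimpArgs false

namespace Cfsg.Agent.H21

open scoped ComplexConjugate
open Cfsg Module Cfsg.Agent.H22

universe u

section Perm

variable {X : Type*} [Finite X]

/-- **Glauberman's lemma** for two groups of permutations, one normalising the other. -/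
theorem glaub_perm (K H : Subgroup (Equiv.Perm X))
    (hnorm : ∀ h ∈ H, ∀ k ∈ K, h * k * h⁻¹ ∈ K)
    (hcop : (Nat.card K).Coprime (Nat.card H))
    (hsolv : Group.IsSolvable K ∨ Group.IsSolvable H)
    (htrans : ∀ x y, ∃ k ∈ K, k x = y) (x₀ : X) : ∃ x, ∀ h ∈ H, h x = x := by
  classical
  set U : Subgroup (Equiv.Perm X) := K ⊔ H with hU
  have hKU : K ≤ U := le_sup_left
  have hHU : H ≤ U := le_sup_right
  set K' : Subgroup U := K.subgroupOf U with hK'
  set H' : Subgroup U := H.subgroupOf U with hH'
  have hUnorm : U ≤ Subgroup.normalizer (K : Set (Equiv.Perm X)) := by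
    refine sup_le Subgroup.le_normalizer ?_
    intro h hh
    rw [Subgroup.mem_normalizer_iff]
    intro k
    constructor
    · exact hnorm h hh k
    · intro hk
      have := hnorm h⁻¹ (H.inv_mem hh) _ hk
      simpa [mul_assoc] using this
  haveI hK'n : K'.Normal := (Subgroup.normal_subgroupOf_iff_le_normalizer hKU).mpr hUnorm
  have hcardK : Nat.card K' = Nat.card K := Nat.card_congr (Subgroup.subgroupOfEquivOfLe hKU).toEquiv
  have hcardH : Nat.card H' = Nat.card H := Nat.card_congr (Subgroup.subgroupOfEquivOfLe hHU).toEquiv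
  have hdisj : Disjoint K' H' := by
    rw [Subgroup.disjoint_def]
    intro x hx hy
    have h1 : orderOf x ∣ Nat.card K' := Subgroup.orderOf_dvd_natCard K' hx
    have h2 : orderOf x ∣ Nat.card H' := Subgroup.orderOf_dvd_natCard H' hy
    rw [hcardK] at h1
    rw [hcardH] at h2
    exact orderOf_eq_one_iff.mp (Nat.eq_one_of_dvd_coprimes hcop h1 h2)
  have hsup : K' ⊔ H' = ⊤ := by
    rw [eq_top_iff]
    rintro ⟨u, hu⟩ -
    have h1 : U ≤ (K' ⊔ H').map U.subtype := by
      refine sup_le ?_ ?_
      · intro k hk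
        refine ⟨⟨k, hKU hk⟩, ?_, rfl⟩
        exact Subgroup.mem_sup_left (Subgroup.mem_subgroupOf.mpr hk)
      · intro k hk
        refine ⟨⟨k, hHU hk⟩, ?_, rfl⟩
        exact Subgroup.mem_sup_right (Subgroup.mem_subgroupOf.mpr hk)
    obtain ⟨v, hv, hv'⟩ := h1 hu
    have : v = ⟨u, hu⟩ := Subtype.ext hv'
    rwa [← this]
  have hc : K'.IsComplement' H' := by
    refine Subgroup.isComplement'_of_disjoint_and_mul_eq_univ hdisj ?_
    have := Subgroup.normal_mul K' H'
    rw [← this, hsup]
    rfl
  have hidx : K'.index = Nat.card H' := hc.symm.index_eq_card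
  have hcop' : (Nat.card K').Coprime K'.index := by
    rw [hidx, hcardK, hcardH]
    exact hcop
  have hsolv' : Group.IsSolvable K' ∨ Group.IsSolvable H' := by
    rcases hsolv with h | h
    · left
      exact Group.isSolvable_of_surjective (f := (Subgroup.subgroupOfEquivOfLe hKU).symm.toMonoidHom)
        (MulEquiv.surjective _)
    · right
      exact Group.isSolvable_of_surjective (f := (Subgroup.subgroupOfEquivOfLe hHU).symm.toMonoidHom)
        (MulEquiv.surjective _)
  have htrans' : ∀ x y, ∃ k ∈ K', U.subtype k x = y := by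
    intro x y
    obtain ⟨k, hk, hky⟩ := htrans x y
    exact ⟨⟨k, hKU hk⟩, Subgroup.mem_subgroupOf.mpr hk, hky⟩
  obtain ⟨x, hx⟩ := H01.glauberman_fixed U.subtype K' H' hc hcop' hsolv' htrans' x₀
  refine ⟨x, fun h hh => ?_⟩
  exact hx ⟨h, hHU hh⟩ (Subgroup.mem_subgroupOf.mpr hh)

end Perm

section Res

variable {G A : Type*} [Group G] [Group A]

/-- Restriction of operators to a stable subgroup. -/
def resA (φ : A →* MulAut G) (N : Subgroup G) (hstab : ∀ a, ∀ x ∈ N, φ a x ∈ N) : A →* MulAut N :=
  MonoidHom.mk' (fun a =>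
    { toFun := fun x => ⟨φ a x, hstab a x x.2⟩
      invFun := fun x => ⟨φ a⁻¹ x, hstab a⁻¹ x x.2⟩
      left_inv := fun x => Subtype.ext (by simp)
      right_inv := fun x => Subtype.ext (by simp)
      map_mul' := fun x y => Subtype.ext (map_mul (φ a) _ _) })
    (fun a b => by
      ext x
      simp [MulAut.mul_apply])

@[simp] theorem resA_coe (φ : A →* MulAut G) (N : Subgroup G) (hstab : ∀ a, ∀ x ∈ N, φ a x ∈ N)
    (a : A) (x : N) : ((resA φ N hstab a x : N) : G) = φ a x := rfl

end Res

end Cfsg.Agent.H21
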