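import Cfsg.Agent.Lib.H21.GlaubPerm
import Cfsg.Agent.Lib.H01.CharA

/-!
# Invariant constituents of the restriction of an invariant character
-/

set_option autoImplicit false
set_option linter.unusedSectionVars false
set_option linter.style.haveILetI false
set_option linter.unusedSimpArgs false

namespace Cfsg.Agent.H21

open scoped ComplexConjugate
open Cfsg Module Cfsg.Agent.H22

universe u

section Stab

variable {N : Type u} [Group N] [Finite N]

/-- The stabiliser of a function in the automorphism group. -/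
def stabF (f : N → ℂ) : Subgroup (MulAut N) where
  carrier := {α | ∀ n, f (α n) = f n}
  mul_mem' := fun {a b} ha hb n => by rw [MulAut.mul_apply, ha, hb]
  one_mem' := fun n => rfl
  inv_mem' := fun {a} ha n => by
    have := ha (a⁻¹ n)
    rw [MulAut.apply_inv_self] at this
    exact this.symm

theorem classInner_comp_stab {f : N → ℂ} (α : MulAut N) (hα : ∀ n, f (α n) = f n) (g : N → ℂ) :
    classInner f (fun n => g (α n)) = classInner f g := by
  have := classInner_comp_equiv α f g
  simp only [hα] at this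
  exact this

/-- The irreducible constituents of a function. -/
abbrev Constit (f : N → ℂ) := {θ : IrrCharacter N // classInner f θ.1 ≠ 0}

/-- Action of the stabiliser on the constituents. -/
noncomputable instance constitAct (f : N → ℂ) : MulAction (stabF f) (Constit f) where
  smul α θ := ⟨irrComp α.1⁻¹ θ.1, by
    show classInner f (fun n => θ.1.1 (α.1⁻¹ n)) ≠ 0
    rw [classInner_comp_stab α.1⁻¹ ((stabF f).inv_mem α.2)]
    exact θ.2⟩
  one_smul θ := by
    apply Subtype.ext
    apply Subtype.ext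
    rfl
  mul_smul a b θ := by
    apply Subtype.ext
    apply Subtype.ext
    funext n
    show θ.1.1 ((a.1 * b.1)⁻¹ n) = θ.1.1 (b.1⁻¹ (a.1⁻¹ n))
    rw [mul_inv_rev, MulAut.mul_apply]

theorem constitAct_apply {f : N → ℂ} (α : stabF f) (θ : Constit f) (n : N) :
    (α • θ).1.1 n = θ.1.1 (α.1⁻¹ n) := rfl

end Stab

section Below

variable {G A : Type u} [Group G] [Group A] [Finite G] [Finite A] (φ : A →* MulAut G)
  (N : Subgroup G) [hN : N.Normal] (hstab : ∀ a, ∀ x ∈ N, φ a x ∈ N)

/-- Conjugation by `G` stabilises the restriction of a class function. -/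
def conjStab {χ : G → ℂ} (hχ : IsClassFunction G χ) : G →* stabF (fun n : N => χ n) :=
  (MulAut.conjNormal : G →* MulAut N).codRestrict _ (fun g n => by
    show χ ((MulAut.conjNormal g n : N) : G) = χ n
    rw [MulAut.conjNormal_apply]
    exact hχ _ _)

@[simp] theorem conjStab_coe {χ : G → ℂ} (hχ : IsClassFunction G χ) (g : G) (n : N) :
    (((conjStab N hχ g : MulAut N) n : N) : G) = g * n * g⁻¹ := MulAut.conjNormal_apply g n

/-- The operators stabilise the restriction of an invariant function. -/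
def opStab {χ : G → ℂ} (hinv : ∀ a g, χ (φ a g) = χ g) : A →* stabF (fun n : N => χ n) :=
  (resA φ N hstab).codRestrict _ (fun a n => hinv a n)

@[simp] theorem opStab_coe {χ : G → ℂ} (hinv : ∀ a g, χ (φ a g) = χ g) (a : A) (n : N) :
    (((opStab φ N hstab hinv a : MulAut N) n : N) : G) = φ a n := rfl

/-- **Invariant constituents** of the restriction of an invariant irreducible character. -/
theorem inv_constituent (hcop : N.index.Coprime (Nat.card A))
    (hsolv : Group.IsSolvable A ∨ Group.IsSolvable (G ⧸ N)) (χ : IrrCharacter G)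
    (hinv : ∀ a g, χ.1 (φ a g) = χ.1 g) :
    ∃ θ : IrrCharacter N, classInner (fun n : N => χ.1 n) θ.1 ≠ 0 ∧
      ∀ a (n : N), θ.1 (resA φ N hstab a n) = θ.1 n := by
  classical
  have hχc := isClassFunction_of_isCharacter (isCharacter_of_irr χ.2)
  set f : N → ℂ := fun n => χ.1 n with hf
  let r : stabF f →* Equiv.Perm (Constit f) := MulAction.toPermHom _ _
  let cG : G →* Equiv.Perm (Constit f) := r.comp (conjStab N hχc)
  let cA : A →* Equiv.Perm (Constit f) := r.comp (opStab φ N hstab hinv)
  -- nonempty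
  obtain ⟨θ₀, hθ₀⟩ := H01.exists_constituent (isCharacter_restrict N (isCharacter_of_irr χ.2)) (by
    show χ.1 ((1 : N) : G) ≠ 0
    rw [Subgroup.coe_one]
    exact irr_one_ne_zero' χ)
  let x₀ : Constit f := ⟨θ₀, hθ₀⟩
  -- `N` acts trivially
  have hNker : N ≤ cG.ker := by
    intro n hn
    rw [MonoidHom.mem_ker]
    ext θ m
    show θ.1.1 ((((conjStab N hχc n : stabF f) : MulAut N)⁻¹) m) = θ.1.1 m
    have hcl := isClassFunction_of_isCharacter (isCharacter_of_irr θ.1.2)
    have h1 : ((((conjStab N hχc n : stabF f) : MulAut N)⁻¹) m) = (⟨n, hn⟩ : N)⁻¹ * m * (⟨n, hn⟩ : N) := by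
      apply Subtype.ext
      have := conjStab_coe N hχc n⁻¹ m
      rw [map_inv] at this
      simpa using this
    rw [h1]
    simpa using hcl m (⟨n, hn⟩ : N)⁻¹
  have hcardK : Nat.card cG.range ∣ N.index := by
    rw [← Subgroup.index_ker]
    exact Subgroup.index_dvd_of_le hNker
  have hcardH : Nat.card cA.range ∣ Nat.card A := by
    rw [← Subgroup.index_ker]
    exact Subgroup.index_dvd_card _
  have hcop' : (Nat.card cG.range).Coprime (Nat.card cA.range) :=
    Nat.Coprime.coprime_dvd_left hcardK (Nat.Coprime.coprime_dvd_right hcardH hcop)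
  have hsolv' : Group.IsSolvable cG.range ∨ Group.IsSolvable cA.range := by
    rcases hsolv with h | h
    · right
      exact Group.isSolvable_of_surjective (f := cA.rangeRestrict) cA.rangeRestrict_surjective
    · left
      have hk : ∀ n ∈ N, cG.rangeRestrict n = 1 := by
        intro n hn
        apply Subtype.ext
        exact hNker hn
      refine Group.isSolvable_of_surjective (f := QuotientGroup.lift N cG.rangeRestrict hk) ?_
      rintro ⟨_, g, rfl⟩
      exact ⟨QuotientGroup.mk g, rfl⟩
  -- normalising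
  have hnorm : ∀ h ∈ cA.range, ∀ k ∈ cG.range, h * k * h⁻¹ ∈ cG.range := by
    rintro _ ⟨a, rfl⟩ _ ⟨g, rfl⟩
    refine ⟨φ a g, ?_⟩
    show r _ = r _ * r _ * (r _)⁻¹
    rw [← map_inv, ← map_mul, ← map_mul]
    congr 1
    apply Subtype.ext
    ext n
    show ((φ a g) * (n : G) * (φ a g)⁻¹ : G) = φ a (g * ((φ a⁻¹ (n : G)) : G) * g⁻¹)
    simp
  -- transitive
  have htrans : ∀ x y : Constit f, ∃ k ∈ cG.range, k x = y := by
    intro x y
    obtain ⟨g, hg⟩ := H23.over_conj N χ x.1 y.1 x.2 y.2
    refine ⟨cG g⁻¹, ⟨g⁻¹, rfl⟩, ?_⟩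
    apply Subtype.ext
    apply Subtype.ext
    rw [hg]
    funext m
    show x.1.1 ((((conjStab N hχc g⁻¹ : stabF f) : MulAut N)⁻¹) m) = _
    have h1 : ((((conjStab N hχc g⁻¹ : stabF f) : MulAut N)⁻¹) m) = ⟨g * m * g⁻¹, hN.conj_mem m m.2 g⟩ := by
      have e : ((conjStab N hχc g⁻¹ : stabF f).1)⁻¹ = (conjStab N hχc g : stabF f).1 := by
        rw [map_inv]
        exact inv_inv _
      rw [e]
      apply Subtype.ext
      exact conjStab_coe N hχc g m
    rw [h1]
    rfl
  obtain ⟨x, hx⟩ := glaub_perm cG.range cA.range hnorm hcop' hsolv' htrans x₀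
  refine ⟨x.1, x.2, fun a n => ?_⟩
  have h1 := hx (cA a⁻¹) ⟨a⁻¹, rfl⟩
  have h2 := congrFun (congrArg (fun y : Constit f => y.1.1) h1) n
  show x.1.1 (resA φ N hstab a n) = x.1.1 n
  have h3 : (cA a⁻¹ x).1.1 n = x.1.1 (((opStab φ N hstab hinv a⁻¹ : stabF f).1)⁻¹ n) := rfl
  rw [h3] at h2
  have h4 : ((opStab φ N hstab hinv a⁻¹ : stabF f).1)⁻¹ n = resA φ N hstab a n := by
    have : (opStab φ N hstab hinv a⁻¹ : stabF f).1 = (resA φ N hstab a)⁻¹ := by
      show resA φ N hstab a⁻¹ = _
      rw [map_inv]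
    rw [this, inv_inv]
  rw [h4] at h2
  exact h2

end Below

end Cfsg.Agent.H21
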