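import Cfsg.Agent.Lib.H21.GlaubPerm2
import Cfsg.Agent.Lib.H06.CharGallagher
import Cfsg.Agent.Lib.H23.AcdTwo

/-!
# Invariant characters above an invariant character, solvable quotient
-/

set_option autoImplicit false
set_option linter.unusedSectionVars false
set_option linter.style.haveILetI false
set_option linter.unusedSimpArgs false

namespace Cfsg.Agent.H21

open scoped ComplexConjugate
open Cfsg Module Cfsg.Agent.H22

universe u

section Linear

variable {L : Type u} [Group L] [Finite L] (N : Subgroup L) [hN : N.Normal]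

/-- The principal character of a finite group as an irreducible character. -/
theorem const_one_eq : (oneIrr N).1 = fun _ => 1 := rfl

/-- An irreducible character with the principal character of `N` below it has `N` in its kernel. -/
theorem over_one_ker (ψ : IrrCharacter L) (h : classInner (fun n : N => ψ.1 n) (oneIrr N).1 ≠ 0)
    (n : N) : ψ.1 n = ψ.1 1 := by
  classical
  obtain ⟨a, ha, ha'⟩ := isCharacter_decomp (isCharacter_restrict N (isCharacter_of_irr ψ.2))
  have h0 : ∀ μ : IrrCharacter N, μ ≠ oneIrr N → a μ = 0 := by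
    intro μ hμ
    by_contra hne
    have h1 : classInner (fun n : N => ψ.1 n) μ.1 ≠ 0 := by
      rw [ha' μ]
      exact_mod_cast hne
    obtain ⟨g, hg⟩ := H23.over_conj N ψ (oneIrr N) μ h h1
    apply hμ
    apply Subtype.ext
    rw [hg]
    rfl
  have hval : ∀ m : N, ψ.1 m = a (oneIrr N) := by
    intro m
    have := congrFun ha m
    rw [Finset.sum_apply] at this
    simp only [Pi.smul_apply, nsmul_eq_mul] at this
    rw [this, Finset.sum_eq_single (oneIrr N)]
    · show _ * (1 : ℂ) = _
      rw [mul_one]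
    · intro μ _ hμ
      rw [h0 μ hμ]
      simp
    · simp
  have h1 := hval n
  have h2 := hval 1
  rw [Subgroup.coe_one] at h2
  rw [h1, h2]

/-- A constituent over the principal character of `N` with `L/N` abelian is linear. -/
theorem over_one_linear (hab : ∀ x y : L, x * y * x⁻¹ * y⁻¹ ∈ N) (ψ : IrrCharacter L)
    (h : classInner (fun n : N => ψ.1 n) (oneIrr N).1 ≠ 0) : charDegree ψ.1 = 1 := by
  have hk : ∀ k, QuotientGroup.mk' N k = 1 → ψ.1 k = ψ.1 1 := by
    intro k hk
    have : k ∈ N := (QuotientGroup.eq_one_iff k).mp hk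
    exact over_one_ker N ψ h ⟨k, this⟩
  obtain ⟨ψ', hψ', hc⟩ := isIrrCharacter_descend (QuotientGroup.mk' N)
    (QuotientGroup.mk'_surjective N) ψ.2 hk
  have hcomm : ∀ a b : L ⧸ N, a * b = b * a := by
    intro a b
    induction a using QuotientGroup.induction_on with
    | H a =>
      induction b using QuotientGroup.induction_on with
      | H b =>
        have h1 : a * b * a⁻¹ * b⁻¹ ∈ N := hab a b
        have h2 : ((a * b : L) : L ⧸ N) = ((b * a : L) : L ⧸ N) := by
          rw [QuotientGroup.eq]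
          rw [mul_inv_rev]
          have h3 := hab b⁻¹ a⁻¹
          simp only [inv_inv] at h3
          have e : b⁻¹ * a⁻¹ * (b * a) = b⁻¹ * a⁻¹ * b * a := by group
          rw [e]
          exact h3
        exact h2
  have h1 := irr_degree_one_of_comm hcomm hψ'
  have h2 : ψ.1 1 = ψ' 1 := by
    rw [← hc]
    simp
  rw [H23.charDegree_congr (g := ψ') h2]
  exact h1

/-- A character over the principal character which is linear, as a homomorphism. -/
noncomputable def homOfLinear {ψ : L → ℂ} (hψ : IsCharacter L ψ) (h1 : charDegree ψ = 1) :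
    L →* ℂˣ :=
  MonoidHom.toHomUnits
    { toFun := ψ
      map_one' := linear_one hψ h1
      map_mul' := linear_mul hψ h1 }

@[simp] theorem coe_homOfLinear {ψ : L → ℂ} (hψ : IsCharacter L ψ) (h1 : charDegree ψ = 1) (x : L) :
    (homOfLinear hψ h1 x : ℂ) = ψ x := rfl

/-- Two irreducible characters above `θ`, `L/N` abelian, differ by a linear character. -/
theorem exists_linear_of_over (hab : ∀ x y : L, x * y * x⁻¹ * y⁻¹ ∈ N) (θ : IrrCharacter N)
    (ϑ₁ ϑ₂ : IrrCharacter L) (h₁ : classInner (fun n : N => ϑ₁.1 n) θ.1 ≠ 0)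
    (h₂ : classInner (fun n : N => ϑ₂.1 n) θ.1 ≠ 0) :
    ∃ l : L →* ℂˣ, (∀ n ∈ N, l n = 1) ∧ ∀ x, ϑ₂.1 x = (l x : ℂ) * ϑ₁.1 x := by
  classical
  have hc₁ := isCharacter_of_irr ϑ₁.2
  have hc₂ := isCharacter_of_irr ϑ₂.2
  set Y : L → ℂ := fun x => conj (ϑ₁.1 x) * ϑ₂.1 x with hY
  have hYc : IsCharacter L Y := isCharacter_mul (H23.isCharacter_conjFun hc₁) hc₂
  -- the restriction of `Y` to `N` contains the principal character
  have hinner : classInner (fun n : N => Y n) (oneIrr N).1 ≠ 0 := by
    have e1 : classInner (fun n : N => Y n) (oneIrr N).1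
        = classInner (fun n : N => ϑ₂.1 n) (fun n : N => ϑ₁.1 n) := by
      unfold classInner
      congr 1
      refine Finset.sum_congr rfl fun n _ => ?_
      show conj (ϑ₁.1 n) * ϑ₂.1 n * conj 1 = _
      simp [mul_comm]
    rw [e1]
    obtain ⟨m, n, hm, hn, hmn⟩ := classInner_chars_decomp
      (isCharacter_restrict N hc₂) (isCharacter_restrict N hc₁)
    rw [hmn]
    have hmθ : m θ ≠ 0 := by
      intro h0
      apply h₂
      rw [hm, h0]
      simp
    have hnθ : n θ ≠ 0 := by
      intro h0
      apply h₁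
      rw [hn, h0]
      simp
    have hpos : 0 < ∑ β, m β * n β :=
      lt_of_lt_of_le (Nat.mul_pos (Nat.pos_of_ne_zero hmθ) (Nat.pos_of_ne_zero hnθ))
        (Finset.single_le_sum (f := fun β => m β * n β) (fun _ _ => Nat.zero_le _) (Finset.mem_univ θ))
    exact_mod_cast hpos.ne'
  -- a constituent `ψ` of `Y` over the principal character
  have hexp := H06.inner_comp_expansion N.subtype hYc (oneIrr N).1
  have hex : ∃ ψ : IrrCharacter L, classInner Y ψ.1 ≠ 0 ∧
      classInner (fun n : N => ψ.1 n) (oneIrr N).1 ≠ 0 := by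
    by_contra hno
    push Not at hno
    apply hinner
    have e2 : (fun n : N => Y n) = Y ∘ N.subtype := rfl
    rw [e2, hexp]
    apply Finset.sum_eq_zero
    intro ψ _
    by_cases h0 : classInner Y ψ.1 = 0
    · rw [h0, zero_mul]
    · have := hno ψ h0
      have e3 : (ψ : L → ℂ) ∘ N.subtype = fun n : N => ψ.1 n := rfl
      rw [e3, this, mul_zero]
  obtain ⟨ψ, hψ1, hψ2⟩ := hex
  have hdeg := over_one_linear N hab ψ hψ2
  have hψc := isCharacter_of_irr ψ.2
  refine ⟨homOfLinear hψc hdeg, ?_, ?_⟩
  · intro n hn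
    apply Units.ext
    rw [coe_homOfLinear, Units.val_one, over_one_ker N ψ hψ2 ⟨n, hn⟩]
    exact linear_one hψc hdeg
  · -- `ϑ₂ = ψ ϑ₁`
    have hirr : IsIrrCharacter L (fun t => ψ.1 t * ϑ₁.1 t) :=
      H06.isIrr_linear_mul ϑ₁.2 hψc hdeg
    have e4 : classInner ϑ₂.1 (fun t => ψ.1 t * ϑ₁.1 t) = classInner Y ψ.1 := by
      unfold classInner
      congr 1
      refine Finset.sum_congr rfl fun n _ => ?_
      simp only [hY, map_mul]
      ring
    have h5 : classInner ϑ₂.1 (fun t => ψ.1 t * ϑ₁.1 t) ≠ 0 := by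
      rw [e4]
      exact hψ1
    rw [H06.classInner_irr_fun ϑ₂.2 hirr] at h5
    by_cases h6 : ϑ₂.1 = fun t => ψ.1 t * ϑ₁.1 t
    · intro x
      rw [h6]
      rfl
    · rw [if_neg h6] at h5
      exact absurd rfl h5

end Linear

end Cfsg.Agent.H21
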