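import Cfsg.Agent.Lib.H21.GlaubPerm3

/-!
# Invariant characters above an invariant character, solvable quotient (continued)
-/

set_option autoImplicit false
set_option linter.unusedSectionVars false
set_option linter.style.haveILetI false
set_option linter.unusedSimpArgs false

namespace Cfsg.Agent.H21

open scoped ComplexConjugate
open Cfsg Module Cfsg.Agent.H22

universe u

section Ab

variable {L A : Type u} [Group L] [Group A] [Finite L] [Finite A] (φ : A →* MulAut L)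
  (N : Subgroup L) [hN : N.Normal] (hstab : ∀ a, ∀ x ∈ N, φ a x ∈ N) (θ : IrrCharacter N)

/-- The irreducible characters above `θ`. -/
abbrev Above := {ϑ : IrrCharacter L // classInner (fun n : N => ϑ.1 n) θ.1 ≠ 0}

/-- The group of linear characters trivial on `N`. -/
def linGroup : Subgroup (L →* ℂˣ) where
  carrier := {l | ∀ n ∈ N, l n = 1}
  mul_mem' := fun {a b} ha hb n hn => by
    rw [MonoidHom.mul_apply, ha n hn, hb n hn, mul_one]
  one_mem' := fun n _ => rfl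
  inv_mem' := fun {a} ha n hn => by
    rw [MonoidHom.inv_apply, ha n hn, inv_one]

theorem hom_degree_one (l : L →* ℂˣ) : charDegree (fun x => (l x : ℂ)) = 1 := by
  have h1 := one_eq_charDegree (H23.isCharacter_hom l)
  simp only [map_one, Units.val_one] at h1
  exact_mod_cast h1.symm

/-- Linear characters act on the characters above `θ`. -/
noncomputable instance linAct : MulAction (linGroup N) (Above N θ) where
  smul l ϑ := ⟨⟨fun x => (l.1 x : ℂ) * ϑ.1.1 x,
    H06.isIrr_linear_mul ϑ.1.2 (H23.isCharacter_hom l.1) (hom_degree_one l.1)⟩, by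
      have e : (fun n : N => (l.1 n : ℂ) * ϑ.1.1 n) = fun n : N => ϑ.1.1 n := by
        funext n
        rw [l.2 n n.2]
        simp
      show classInner (fun n : N => (l.1 n : ℂ) * ϑ.1.1 n) θ.1 ≠ 0
      rw [e]
      exact ϑ.2⟩
  one_smul ϑ := by
    apply Subtype.ext
    apply Subtype.ext
    funext x
    show ((1 : L →* ℂˣ) x : ℂ) * ϑ.1.1 x = _
    simp
  mul_smul a b ϑ := by
    apply Subtype.ext
    apply Subtype.ext
    funext x
    show ((a.1 * b.1) x : ℂ) * ϑ.1.1 x = (a.1 x : ℂ) * ((b.1 x : ℂ) * ϑ.1.1 x)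
    simp [mul_assoc]

theorem linAct_apply (l : linGroup N) (ϑ : Above N θ) (x : L) :
    (l • ϑ).1.1 x = (l.1 x : ℂ) * ϑ.1.1 x := rfl

variable {N θ}

/-- The operators act on the characters above an invariant `θ`. -/
noncomputable def opAct (hθ : ∀ a n, θ.1 (resA φ N hstab a n) = θ.1 n) : MulAction A (Above N θ) where
  smul a ϑ := ⟨irrComp (φ a⁻¹) ϑ.1, by
    show classInner (fun n : N => ϑ.1.1 (φ a⁻¹ n)) θ.1 ≠ 0
    have h1 := classInner_comp_equiv (resA φ N hstab a⁻¹) (fun n : N => ϑ.1.1 n) θ.1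
    have h2 : (fun x : N => θ.1 (resA φ N hstab a⁻¹ x)) = θ.1 := funext (hθ a⁻¹)
    rw [h2] at h1
    have h3 : classInner (fun n : N => ϑ.1.1 (φ a⁻¹ n)) θ.1
        = classInner (fun n : N => ϑ.1.1 n) θ.1 := h1
    rw [h3]
    exact ϑ.2⟩
  one_smul ϑ := by
    apply Subtype.ext
    apply Subtype.ext
    funext x
    show ϑ.1.1 (φ 1⁻¹ x) = _
    simp
  mul_smul a b ϑ := by
    apply Subtype.ext
    apply Subtype.ext
    funext x
    show ϑ.1.1 (φ (a * b)⁻¹ x) = ϑ.1.1 (φ b⁻¹ (φ a⁻¹ x))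
    simp [mul_inv_rev, map_mul]

omit [Finite A] in
theorem exists_over (θ : IrrCharacter N) : ∃ χ : IrrCharacter L, classInner (fun n : N => χ.1 n) θ.1 ≠ 0 := by
  obtain ⟨χ, hχ⟩ := exists_above θ
  refine ⟨χ, ?_⟩
  unfold classInner
  have hne : (Nat.card N : ℂ)⁻¹ ≠ 0 := by
    simp [Nat.card_pos.ne']
  refine mul_ne_zero hne ?_
  have : ∑ g : N, χ.1 g * conj (θ.1 g) = ∑ n : N, conj (θ.1 n) * χ.1 n :=
    Finset.sum_congr rfl fun _ _ => mul_comm _ _
  rw [this]
  exact hχ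

/-- **The abelian step.** -/
theorem inv_over_abelian (hcop : N.index.Coprime (Nat.card A))
    (hab : ∀ x y : L, x * y * x⁻¹ * y⁻¹ ∈ N) (hθ : ∀ a n, θ.1 (resA φ N hstab a n) = θ.1 n) :
    ∃ ϑ : IrrCharacter L, classInner (fun n : N => ϑ.1 n) θ.1 ≠ 0 ∧ ∀ a x, ϑ.1 (φ a x) = ϑ.1 x := by
  classical
  obtain ⟨χ₀, hχ₀⟩ := exists_over θ
  let x₀ : Above N θ := ⟨χ₀, hχ₀⟩
  let r : linGroup N →* Equiv.Perm (Above N θ) := MulAction.toPermHom _ _
  letI := opAct φ hstab hθ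
  let s : A →* Equiv.Perm (Above N θ) := MulAction.toPermHom _ _
  have hr : ∀ (l : linGroup N) (ϑ : Above N θ) (x : L), (r l ϑ).1.1 x = (l.1 x : ℂ) * ϑ.1.1 x :=
    fun _ _ _ => rfl
  have hs : ∀ (a : A) (ϑ : Above N θ) (x : L), (s a ϑ).1.1 x = ϑ.1.1 (φ a⁻¹ x) :=
    fun _ _ _ => rfl
  have hsinv : ∀ (a : A) (ϑ : Above N θ) (x : L), ((s a)⁻¹ ϑ).1.1 x = ϑ.1.1 (φ a x) := by
    intro a ϑ x
    rw [← map_inv, hs, inv_inv]
  have hexp : ∀ k ∈ r.range, k ^ N.index = 1 := by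
    rintro _ ⟨l, rfl⟩
    rw [← map_pow]
    have : l ^ N.index = 1 := by
      apply Subtype.ext
      ext x
      show (((l.1 ^ N.index) x : ℂˣ) : ℂ) = 1
      rw [MonoidHom.pow_apply, ← map_pow, l.2 _ (Subgroup.pow_index_mem N x)]
      simp
    rw [this, map_one]
  have hcardH : Nat.card s.range ∣ Nat.card A := by
    rw [← Subgroup.index_ker]
    exact Subgroup.index_dvd_card _
  have hcop' : (Nat.card r.range).Coprime (Nat.card s.range) := by
    apply Nat.coprime_of_dvd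
    intro p hp hd1 hd2
    haveI := Fact.mk hp
    obtain ⟨x, hx⟩ := exists_prime_orderOf_dvd_card' p hd1
    have h1 : p ∣ N.index := by
      rw [← hx]
      apply _root_.orderOf_dvd_of_pow_eq_one
      apply Subtype.ext
      exact hexp x.1 x.2
    have h2 : p ∣ Nat.card A := hd2.trans hcardH
    have h3 := Nat.dvd_gcd h1 h2
    rw [Nat.Coprime.gcd_eq_one hcop] at h3
    exact hp.one_lt.ne' (Nat.dvd_one.1 h3)
  have hsolv' : Group.IsSolvable r.range ∨ Group.IsSolvable s.range := by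
    left
    apply Group.isSolvable_of_comm
    rintro ⟨_, a, rfl⟩ ⟨_, b, rfl⟩
    apply Subtype.ext
    show r a * r b = r b * r a
    rw [← map_mul, ← map_mul, mul_comm]
  have hnorm : ∀ h ∈ s.range, ∀ k ∈ r.range, h * k * h⁻¹ ∈ r.range := by
    rintro _ ⟨a, rfl⟩ _ ⟨l, rfl⟩
    refine ⟨⟨l.1.comp (φ a⁻¹).toMonoidHom, fun n hn => l.2 _ (hstab a⁻¹ n hn)⟩, ?_⟩
    ext ϑ x
    rw [hr]
    show _ = ((s a) (r l ((s a)⁻¹ ϑ))).1.1 x
    rw [hs, hr, hsinv]
    simp
  have htrans : ∀ x y : Above N θ, ∃ k ∈ r.range, k x = y := by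
    intro x y
    obtain ⟨l, hl, hxy⟩ := exists_linear_of_over N hab θ x.1 y.1 x.2 y.2
    refine ⟨r ⟨l, hl⟩, ⟨_, rfl⟩, ?_⟩
    apply Subtype.ext
    apply Subtype.ext
    funext t
    rw [hr]
    exact (hxy t).symm
  obtain ⟨x, hx⟩ := glaub_perm r.range s.range hnorm hcop' hsolv' htrans x₀
  refine ⟨x.1, x.2, fun a g => ?_⟩
  have h1 := hx (s a⁻¹) ⟨a⁻¹, rfl⟩
  have h2 := congrFun (congrArg (fun y : Above N θ => y.1.1) h1) g
  rw [hs, inv_inv] at h2
  exact h2

end Ab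

end Cfsg.Agent.H21
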