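import Cfsg.Agent.Lib.H21.GlaubPerm4

/-!
# Invariant characters above an invariant character, solvable quotient: the induction
-/

set_option autoImplicit false
set_option linter.unusedSectionVars false
set_option linter.style.haveILetI false
set_option linter.unusedSimpArgs false

namespace Cfsg.Agent.H21

open scoped ComplexConjugate
open Cfsg Module Cfsg.Agent.H22

universe u

section Trans

variable {G : Type u} [Group G] [Finite G]

/-- Transitivity of lying over. -/
theorem over_trans {N L : Subgroup G} (hNL : N ≤ L) (χ : IrrCharacter G) (ϑ : IrrCharacter L)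
    (θ : IrrCharacter N) (h1 : classInner (fun x : L => χ.1 x) ϑ.1 ≠ 0)
    (h2 : classInner (fun n : N => ϑ.1 ⟨n, hNL n.2⟩) θ.1 ≠ 0) :
    classInner (fun n : N => χ.1 n) θ.1 ≠ 0 := by
  classical
  have hX : IsCharacter L (fun x : L => χ.1 x) := isCharacter_restrict L (isCharacter_of_irr χ.2)
  have hexp := H06.inner_comp_expansion (Subgroup.inclusion hNL) hX θ.1
  have e0 : ((fun x : L => χ.1 x) ∘ Subgroup.inclusion hNL) = fun n : N => χ.1 n := rfl
  rw [e0] at hexp
  rw [hexp]
  choose a ha using fun ψ : IrrCharacter L => classInner_isNat hX ψ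
  choose b hb using fun ψ : IrrCharacter L =>
    classInner_isCharacter_nat (isCharacter_comp (Subgroup.inclusion hNL) (isCharacter_of_irr ψ.2))
      (isCharacter_of_irr θ.2)
  have e1 : ∀ ψ : IrrCharacter L, classInner (fun x : L => χ.1 x) ψ.1
      * classInner ((ψ : L → ℂ) ∘ Subgroup.inclusion hNL) θ.1 = ((a ψ * b ψ : ℕ) : ℂ) := by
    intro ψ
    have : classInner ((ψ : L → ℂ) ∘ Subgroup.inclusion hNL) θ.1 = b ψ := hb ψ
    rw [this, ha ψ]
    push_cast
    rfl
  simp only [e1]
  rw [← Nat.cast_sum]
  have ha' : a ϑ ≠ 0 := by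
    intro h0
    apply h1
    rw [ha, h0]
    simp
  have hb' : b ϑ ≠ 0 := by
    intro h0
    apply h2
    have : classInner (fun n : N => ϑ.1 ⟨n, hNL n.2⟩) θ.1 = b ϑ := hb ϑ
    rw [this, h0]
    simp
  have hpos : 0 < ∑ ψ, a ψ * b ψ :=
    lt_of_lt_of_le (Nat.mul_pos (Nat.pos_of_ne_zero ha') (Nat.pos_of_ne_zero hb'))
      (Finset.single_le_sum (f := fun ψ => a ψ * b ψ) (fun _ _ => Nat.zero_le _) (Finset.mem_univ ϑ))
  exact_mod_cast hpos.ne'

end Trans

section Main

variable {A : Type u} [Group A] [Finite A]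

/-- A commutator of elements of `N ⊔ D` lies in `N` if `⁅D, D⁆ ≤ N`. -/
theorem comm_mem_of_sup {G : Type u} [Group G] {N D : Subgroup G} [hN : N.Normal] (hD : ⁅D, D⁆ ≤ N)
    {x y : G} (hx : x ∈ N ⊔ D) (hy : y ∈ N ⊔ D) : x * y * x⁻¹ * y⁻¹ ∈ N := by
  have hmem : ∀ z ∈ N ⊔ D, ∃ d ∈ D, ((z : G) : G ⧸ N) = ((d : G) : G ⧸ N) := by
    intro z hz
    rw [← SetLike.mem_coe, Subgroup.normal_mul N D, Set.mem_mul] at hz
    obtain ⟨n, hn, d, hd, rfl⟩ := hz
    refine ⟨d, hd, ?_⟩
    rw [QuotientGroup.eq]
    have : (n * d)⁻¹ * d = d⁻¹ * n⁻¹ * d := by group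
    rw [this]
    have := hN.conj_mem n⁻¹ (N.inv_mem hn) d⁻¹
    simpa using this
  obtain ⟨d₁, hd₁, e₁⟩ := hmem x hx
  obtain ⟨d₂, hd₂, e₂⟩ := hmem y hy
  rw [← QuotientGroup.eq_one_iff]
  have h1 : ((x * y * x⁻¹ * y⁻¹ : G) : G ⧸ N) = ((d₁ * d₂ * d₁⁻¹ * d₂⁻¹ : G) : G ⧸ N) := by
    simp only [QuotientGroup.mk_mul, QuotientGroup.mk_inv, e₁, e₂]
  rw [h1, QuotientGroup.eq_one_iff]
  exact hD (Subgroup.commutator_mem_commutator hd₁ hd₂)

/-- **Invariant characters above an invariant character** when the quotient is solvable and its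
order is prime to that of the operators. -/
theorem inv_above (k : ℕ) : ∀ (G : Type u) [Group G] [Finite G] (φ : A →* MulAut G) (N : Subgroup G)
    [N.Normal] (hstab : ∀ a, ∀ x ∈ N, φ a x ∈ N), N.index ≤ k → N.index.Coprime (Nat.card A) →
    (∃ m, derivedSeries G m ≤ N) →
    ∀ θ : IrrCharacter N, (∀ a n, θ.1 (resA φ N hstab a n) = θ.1 n) →
    ∃ χ : IrrCharacter G, classInner (fun n : N => χ.1 n) θ.1 ≠ 0 ∧ ∀ a g, χ.1 (φ a g) = χ.1 g := by
  induction k with
  | zero =>
    intro G _ _ φ N _ hstab h0
    exact absurd (Nat.le_zero.mp h0) (Subgroup.index_ne_zero_of_finite)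
  | succ k ih =>
    intro G _ _ φ N hNn hstab hk hcop hder θ hθ
    classical
    by_cases htop : N = ⊤
    · -- the trivial case
      have hmem : ∀ g : G, g ∈ N := fun g => by
        rw [htop]
        exact Subgroup.mem_top g
      let E : G ≃* N :=
        { toFun := fun g => ⟨g, hmem g⟩
          invFun := Subtype.val
          left_inv := fun _ => rfl
          right_inv := fun _ => rfl
          map_mul' := fun _ _ => rfl }
      refine ⟨⟨fun g => θ.1 (E g), isIrrCharacter_comp_of_surjective E.toMonoidHom E.surjective θ.2⟩,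
        ?_, ?_⟩
      · have e : (fun n : N => θ.1 (E n)) = θ.1 := rfl
        show classInner (fun n : N => θ.1 (E n)) θ.1 ≠ 0
        rw [e, H06.classInner_irr_self θ.2]
        exact one_ne_zero
      · intro a g
        exact hθ a (E g)
    · -- a term of the derived series
      obtain ⟨m, hm⟩ := hder
      have hm0 : m ≠ 0 := by
        rintro rfl
        apply htop
        rw [eq_top_iff]
        simpa using hm
      obtain ⟨j, hj1, hj2⟩ : ∃ j, derivedSeries G (j + 1) ≤ N ∧ ¬ derivedSeries G j ≤ N := by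
        have hex : ∃ i, derivedSeries G i ≤ N := ⟨m, hm⟩
        have h0 : Nat.find hex ≠ 0 := by
          intro h0
          have := Nat.find_spec hex
          rw [h0] at this
          apply htop
          rw [eq_top_iff]
          simpa using this
        obtain ⟨j, hj⟩ := Nat.exists_eq_succ_of_ne_zero h0
        refine ⟨j, ?_, ?_⟩
        · have := Nat.find_spec hex
          rw [hj] at this
          exact this
        · exact Nat.find_min hex (by omega)
      set D := derivedSeries G j with hD
      haveI hDn : D.Normal := derivedSeries_normal G j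
      set L := N ⊔ D with hL
      have hNL : N ≤ L := le_sup_left
      have hstabL : ∀ a, ∀ x ∈ L, φ a x ∈ L := by
        intro a x hx
        have h1 : L ≤ L.comap (φ a).toMonoidHom := by
          refine sup_le ?_ ?_
          · intro y hy
            exact Subgroup.mem_sup_left (hstab a y hy)
          · intro y hy
            apply Subgroup.mem_sup_right
            have hc : D.Characteristic := derivedSeries_characteristic G j
            have h2 := hc.fixed ((φ a)⁻¹)
            rw [← h2]
            show (φ a)⁻¹ (φ a y) ∈ D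
            rw [MulAut.inv_apply_self]
            exact hy
        exact h1 hx
      set N₁ : Subgroup L := N.subgroupOf L with hN₁
      have hstab₁ : ∀ a, ∀ x ∈ N₁, resA φ L hstabL a x ∈ N₁ := by
        intro a x hx
        rw [hN₁, Subgroup.mem_subgroupOf] at hx ⊢
        exact hstab a x hx
      have hab : ∀ x y : L, x * y * x⁻¹ * y⁻¹ ∈ N₁ := by
        intro x y
        rw [hN₁, Subgroup.mem_subgroupOf]
        exact comm_mem_of_sup (by rw [← derivedSeries_succ]; exact hj1) x.2 y.2
      have hrel : N₁.index * L.index = N.index := Subgroup.relIndex_mul_index hNL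
      have hcop₁ : N₁.index.Coprime (Nat.card A) :=
        Nat.Coprime.coprime_dvd_left (Dvd.intro _ hrel) hcop
      have hcopL : L.index.Coprime (Nat.card A) :=
        Nat.Coprime.coprime_dvd_left (Dvd.intro_left _ hrel) hcop
      let E := Subgroup.subgroupOfEquivOfLe hNL
      let θ₁ : IrrCharacter N₁ := ⟨fun x => θ.1 (E x),
        isIrrCharacter_comp_of_surjective E.toMonoidHom E.surjective θ.2⟩
      have hθ₁ : ∀ a n, θ₁.1 (resA (resA φ L hstabL) N₁ hstab₁ a n) = θ₁.1 n := by
        intro a n
        exact hθ a (E n)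
      obtain ⟨ϑ, hϑ1, hϑ2⟩ := inv_over_abelian (resA φ L hstabL) hstab₁ hcop₁ hab hθ₁
      have hidx : L.index ≤ k := by
        have h1 : N₁.index ≠ 1 := by
          intro h
          apply hj2
          have h2 : L ≤ N := Subgroup.relIndex_eq_one.mp h
          exact le_trans le_sup_right h2
        have h2 : N₁.index ≠ 0 := Subgroup.index_ne_zero_of_finite
        have h3 : L.index ≠ 0 := Subgroup.index_ne_zero_of_finite
        have h4 : 2 ≤ N₁.index := by omega
        have h5 : 2 * L.index ≤ N.index := by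
          rw [← hrel]
          exact Nat.mul_le_mul_right _ h4
        omega
      obtain ⟨χ, hχ1, hχ2⟩ := ih G φ L hstabL hidx hcopL ⟨m, hm.trans hNL⟩ ϑ hϑ2
      refine ⟨χ, ?_, hχ2⟩
      refine over_trans hNL χ ϑ θ hχ1 ?_
      intro h0
      apply hϑ1
      have e2 := classInner_comp_equiv E (fun n : N => ϑ.1 ⟨n, hNL n.2⟩) θ.1
      exact e2.trans h0

/-- Solvability of the quotient as a condition on the derived series. -/
theorem derived_le_of_solvable {G : Type u} [Group G] (N : Subgroup G) [N.Normal]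
    (h : Group.IsSolvable (G ⧸ N)) : ∃ m, derivedSeries G m ≤ N := by
  obtain ⟨m, hm⟩ := (Group.isSolvable_def _).mp h
  refine ⟨m, fun x hx => ?_⟩
  have h1 := map_derivedSeries_eq (QuotientGroup.mk'_surjective N) m
  have h2 : QuotientGroup.mk' N x ∈ derivedSeries (G ⧸ N) m := by
    rw [← h1]
    exact ⟨x, hx, rfl⟩
  rw [hm, Subgroup.mem_bot] at h2
  exact (QuotientGroup.eq_one_iff x).mp h2

end Main

end Cfsg.Agent.H21
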