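import Cfsg.Agent.Lib.H21.GlaubSolv
import Cfsg.Agent.Lib.H21.GlaubCyc4
import Cfsg.Agent.Lib.H04.Cliff.Degree
import Cfsg.Agent.Lib.H06.TypeP

/-!
# The multiplicity `[χ|_N, θ]` divides the index of `N`.
-/

set_option autoImplicit false
set_option linter.unusedSectionVars false
set_option linter.style.haveILetI false
set_option linter.unusedSimpArgs false

namespace Cfsg.Agent.H21

open scoped ComplexConjugate
open Cfsg Module Cfsg.Agent.H22

universe u

variable {G : Type u} [Group G] [Finite G] (N : Subgroup G) [hN : N.Normal]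

/-- The multiplicity of an irreducible constituent of the restriction to a normal subgroup divides
the index. -/
theorem mult_dvd_index (χ : IrrCharacter G) (θ : IrrCharacter N) {e : ℕ} (he : e ≠ 0)
    (h : classInner (fun n : N => χ.1 n) θ.1 = e) : e ∣ N.index := by
  classical
  set T : Subgroup G := H06.inertiaSub N θ.1 with hTdef
  have hNT : N ≤ T := H06.le_inertiaSub N (isClassFunction_of_isCharacter (isCharacter_of_irr θ.2))
  have hmemT : ∀ g : G, g ∈ T ↔ ∀ h : N, θ.1 ⟨g * h * g⁻¹, hN.conj_mem h h.2 g⟩ = θ.1 h :=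
    fun g => Iff.rfl
  set E := Subgroup.subgroupOfEquivOfLe hNT with hE
  set θT := H06.subTheta N T θ.1 with hθTdef
  have hθT : IsIrrCharacter _ θT := H06.subTheta_irr N T hNT θ.2
  have hχT : IsCharacter T (fun t : T => χ.1 t) := isCharacter_restrict T (isCharacter_of_irr χ.2)
  obtain ⟨r, hr, hrr⟩ := isCharacter_decomp hχT
  -- transfer of inner products over the two copies of `N`
  have hinner : ∀ ξ : IrrCharacter T, classInner θT (fun x : N.subgroupOf T => ξ.1 x)
      = classInner θ.1 (fun n : N => ξ.1 ⟨n, hNT n.2⟩) := by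
    intro ξ
    exact classInner_comp_equiv E θ.1 (fun n : N => ξ.1 ⟨n, hNT n.2⟩)
  -- the expansion
  have h1 : classInner (fun n : N => χ.1 n) θ.1
      = ∑ ξ : IrrCharacter T, (r ξ : ℂ) * classInner (fun n : N => ξ.1 ⟨n, hNT n.2⟩) θ.1 := by
    have e1 : (fun n : N => χ.1 n) = ∑ ξ : IrrCharacter T, (r ξ : ℂ) • (fun n : N => ξ.1 ⟨n, hNT n.2⟩) := by
      funext n
      have := congrFun hr ⟨n, hNT n.2⟩
      simp only [Finset.sum_apply, Pi.smul_apply, smul_eq_mul, nsmul_eq_mul] at this ⊢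
      exact this
    rw [e1, classInner_sum_left]
    exact Finset.sum_congr rfl fun ξ _ => classInner_smul_left _ _ _
  -- a good constituent
  have h2 : ∃ ξ : IrrCharacter T, r ξ ≠ 0 ∧ classInner (fun n : N => ξ.1 ⟨n, hNT n.2⟩) θ.1 ≠ 0 := by
    by_contra hno
    push Not at hno
    have h3 : (e : ℂ) = 0 := by
      rw [← h, h1]
      apply Finset.sum_eq_zero
      intro ξ _
      by_cases h4 : r ξ = 0
      · simp [h4]
      · rw [hno ξ h4, mul_zero]
    exact he (by exact_mod_cast h3)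
  obtain ⟨ξ₀, hr0, hξ0⟩ := h2
  -- properties of a good constituent
  have hgood : ∀ ξ : IrrCharacter T,
      classInner (fun n : N => ξ.1 ⟨n, hNT n.2⟩) θ.1 ≠ 0 →
      classInner (indFun (N.subgroupOf T) θT) ξ.1 ≠ 0 := by
    intro ξ hξ
    rw [frobenius_reciprocity _ _ _ (isClassFunction_of_isCharacter (isCharacter_of_irr ξ.2)),
      hinner ξ, ← classInner_comm_conj]
    exact (map_ne_zero _).mpr hξ
  have hind : ∀ ξ : IrrCharacter T, r ξ ≠ 0 →
      classInner (fun n : N => ξ.1 ⟨n, hNT n.2⟩) θ.1 ≠ 0 → indFun T ξ.1 = χ.1 ∧ r ξ = 1 := by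
    intro ξ hrξ hξ
    have hc := hgood ξ hξ
    have hirr := (H06.clifford_correspondence N T hNT θ.2 hmemT ξ.2 ξ.2 hc hc).1
    have h3 : classInner (indFun T ξ.1) χ.1 = (r ξ : ℂ) := by
      rw [frobenius_reciprocity _ _ _ (isClassFunction_of_isCharacter (isCharacter_of_irr χ.2)),
        ← classInner_comm_conj, hrr ξ]
      simp
    rw [H06.classInner_irr_fun hirr χ.2] at h3
    by_cases h4 : indFun T ξ.1 = χ.1
    · rw [if_pos h4] at h3
      exact ⟨h4, by exact_mod_cast h3.symm⟩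
    · rw [if_neg h4] at h3
      exact absurd (by exact_mod_cast h3.symm) hrξ
  have huniq : ∀ ξ : IrrCharacter T, r ξ ≠ 0 →
      classInner (fun n : N => ξ.1 ⟨n, hNT n.2⟩) θ.1 ≠ 0 → ξ = ξ₀ := by
    intro ξ hrξ hξ
    apply Subtype.ext
    exact (H06.clifford_correspondence N T hNT θ.2 hmemT ξ.2 ξ₀.2 (hgood ξ hξ) (hgood ξ₀ hξ0)).2
      ((hind ξ hrξ hξ).1.trans (hind ξ₀ hr0 hξ0).1.symm)
  have h5 : classInner (fun n : N => χ.1 n) θ.1
      = classInner (fun n : N => ξ₀.1 ⟨n, hNT n.2⟩) θ.1 := by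
    rw [h1, Finset.sum_eq_single ξ₀]
    · rw [(hind ξ₀ hr0 hξ0).2]
      simp
    · intro ξ _ hne
      by_cases h6 : r ξ = 0
      · simp [h6]
      · by_cases h7 : classInner (fun n : N => ξ.1 ⟨n, hNT n.2⟩) θ.1 = 0
        · rw [h7, mul_zero]
        · exact absurd (huniq ξ h6 h7) hne
    · simp
  obtain ⟨e', -, -, hval⟩ := H06.restrict_of_inner_ne N T hNT θ.2 hmemT ξ₀.2 (hgood ξ₀ hξ0)
  have h6 : classInner (fun n : N => ξ₀.1 ⟨n, hNT n.2⟩) θ.1 = e' := by
    have e1 : (fun n : N => ξ₀.1 ⟨n, hNT n.2⟩) = (e' : ℂ) • θ.1 := by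
      funext n
      simpa using hval n
    rw [e1, classInner_smul_left, H06.classInner_irr_self θ.2, mul_one]
  have h7 : e = e' := by
    have : (e : ℂ) = e' := by
      rw [← h, h5, h6]
    exact_mod_cast this
  rw [h7]
  have hinv : ∀ t : T, H06.twist (N.subgroupOf T) θT t = θT := by
    intro t
    funext x
    simp only [H06.twist, θT, H06.subTheta]
    exact (hmemT t).mp t.2 ⟨(x : T), Subgroup.mem_subgroupOf.mp x.2⟩
  have h8 : e' ∣ (N.subgroupOf T).index := by
    refine H04.Cliff.multiplicity_dvd_index (N.subgroupOf T) hθT hinv ξ₀.2 (fun n => ?_)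
    exact hval ⟨(n : T), Subgroup.mem_subgroupOf.mp n.2⟩
  exact h8.trans (Dvd.intro _ (Subgroup.relIndex_mul_index hNT))

end Cfsg.Agent.H21
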