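import Cfsg.Agent.Lib.H21.GlaubRel1

/-!
# Compatibility of the Glauberman correspondence with lying-over.
-/

set_option autoImplicit false
set_option linter.unusedSectionVars false
set_option linter.style.haveILetI false
set_option linter.unusedSimpArgs false

namespace Cfsg.Agent.H21

open scoped ComplexConjugate
open Cfsg Module Cfsg.Agent.H22

universe u

section Equivariant

variable {G C A : Type u} [Group G] [Group C] [Group A] [Finite G] [Finite C] [Finite A]
  {φ : A →* MulAut G} {ι : C →* G} {p : ℕ} [hp : Fact p.Prime]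

/-- Uniqueness gives equivariance of the correspondent. -/
theorem corr_equivariant (h : CopSetup φ ι p) (χ : IrrCharacter G)
    (hinv : ∀ (a : A) g, χ.1 (φ a g) = χ.1 g) (α : MulAut G) (α' : MulAut C)
    (hα : ∀ c, α (ι c) = ι (α' c)) (hχα : ∀ g, χ.1 (α g) = χ.1 g) {β : IrrCharacter C} {m : ℕ}
    (hm : classInner (fun c => χ.1 (ι c)) β.1 = m) (hpm : ¬ p ∣ m) :
    ∀ c, β.1 (α' c) = β.1 c := by
  have h1 : classInner (fun c => χ.1 (ι c)) (irrComp α' β).1 = m := by
    rw [← hm, ← classInner_comp_equiv α' (fun c => χ.1 (ι c)) β.1]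
    congr 1
    funext c
    rw [← hα, hχα]
  have h2 := glaub_unique h χ hinv h1 hm hpm hpm
  intro c
  exact congrFun (congrArg Subtype.val h2) c

/-- The reverse equivariance. -/
theorem corr_equivariant_rev (h : CopSetup φ ι p) (χ : IrrCharacter G)
    (hinv : ∀ (a : A) g, χ.1 (φ a g) = χ.1 g) (α : MulAut G) (α' : MulAut C)
    (hα : ∀ c, α (ι c) = ι (α' c)) (hnorm : ∀ a g, ∃ a', α (φ a g) = φ a' (α g))
    {β : IrrCharacter C} {m : ℕ} (hβα : ∀ c, β.1 (α' c) = β.1 c)
    (hm : classInner (fun c => χ.1 (ι c)) β.1 = m) (hpm : ¬ p ∣ m) :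
    ∀ g, χ.1 (α g) = χ.1 g := by
  have hinv' : ∀ (a : A) g, (irrComp α χ).1 (φ a g) = (irrComp α χ).1 g := by
    intro a g
    obtain ⟨a', ha'⟩ := hnorm a g
    show χ.1 (α (φ a g)) = χ.1 (α g)
    rw [ha', hinv]
  have h1 : classInner (fun c => (irrComp α χ).1 (ι c)) β.1 = m := by
    rw [← hm, ← classInner_comp_equiv α' (fun c => χ.1 (ι c)) β.1]
    congr 1
    · funext c
      show χ.1 (α (ι c)) = _
      rw [hα]
    · funext c
      exact (hβα c).symm
  have h2 := glaub_inj h (irrComp α χ) χ hinv' hinv h1 hpm hm hpm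
  intro g
  exact congrFun (congrArg Subtype.val h2) g

end Equivariant

section Key

variable {G C N D A : Type u} [Group G] [Group C] [Group N] [Group D] [Group A]
  [Finite G] [Finite C] [Finite N] [Finite D] [Finite A]
  {φ : A →* MulAut G} {ι : C →* G} {φN : A →* MulAut N} {ιN : D →* N} {p : ℕ} [hp : Fact p.Prime]

/-- **Compatibility with lying over.**  If `β` lies over `θ'` then the corresponding `χ` lies over
the corresponding `θ`. -/
theorem over_of_over (j : N →* G) (k : D →* C) (hcomm : ∀ d, j (ιN d) = ι (k d))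
    (hφj : ∀ a n, j (φN a n) = φ a (j n))
    (hG : CopSetup φ ι p) (hN : CopSetup φN ιN p)
    (χ : IrrCharacter G) (hχ : ∀ a g, χ.1 (φ a g) = χ.1 g)
    (θ : IrrCharacter N) (hθ : ∀ a n, θ.1 (φN a n) = θ.1 n)
    (β : IrrCharacter C) (θ' : IrrCharacter D) {m m₀ e' : ℕ}
    (hm : classInner (fun c => χ.1 (ι c)) β.1 = m) (hpm : ¬ p ∣ m)
    (hm₀ : classInner (fun d => θ.1 (ιN d)) θ'.1 = m₀) (hpm₀ : ¬ p ∣ m₀)
    (he' : classInner (fun d => β.1 (k d)) θ'.1 = e') (hpe' : ¬ p ∣ e') :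
    classInner (fun n => χ.1 (j n)) θ.1 ≠ 0 := by
  classical
  intro hzero
  have hpp := hp.out
  have hχc := isCharacter_of_irr χ.2
  -- the character of `C` and its expansion
  have hXC : IsCharacter C (fun c => χ.1 (ι c)) := isCharacter_comp ι hχc
  have hXN : IsCharacter N (fun n => χ.1 (j n)) := isCharacter_comp j hχc
  have hf : IsCharacter D (fun d => χ.1 (ι (k d))) := isCharacter_comp (ι.comp k) hχc
  -- natural number coefficients
  choose mC hmC using fun γ : IrrCharacter C =>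
    classInner_isNat hXC (γ : IrrCharacter C)
  choose nC hnC using fun γ : IrrCharacter C =>
    classInner_isCharacter_nat (isCharacter_comp k (isCharacter_of_irr γ.2))
      (isCharacter_of_irr θ'.2)
  choose aN haN using fun ϑ : IrrCharacter N =>
    classInner_isNat hXN (ϑ : IrrCharacter N)
  choose bN hbN using fun ϑ : IrrCharacter N =>
    classInner_isCharacter_nat (isCharacter_comp ιN (isCharacter_of_irr ϑ.2))
      (isCharacter_of_irr θ'.2)
  obtain ⟨w, hw⟩ := classInner_isCharacter_nat hf (isCharacter_of_irr θ'.2)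
  -- expansion over `C`
  have e1 : w = ∑ γ : IrrCharacter C, mC γ * nC γ := by
    have h1 := H06.inner_comp_expansion k hXC θ'.1
    have h2 : ((fun c => χ.1 (ι c)) ∘ k) = fun d => χ.1 (ι (k d)) := rfl
    rw [h2, hw] at h1
    simp only [hmC] at h1
    have h3 : ∀ γ : IrrCharacter C, classInner ((γ : C → ℂ) ∘ k) θ'.1 = nC γ := hnC
    simp only [h3] at h1
    exact_mod_cast h1
  have hmβ : mC β = m := by
    have := hmC β
    rw [hm] at this
    exact_mod_cast this.symm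
  have hnβ : nC β = e' := by
    have : classInner (fun d => β.1 (k d)) θ'.1 = nC β := hnC β
    rw [he'] at this
    exact_mod_cast this.symm
  have hmγ : ∀ γ, γ ≠ β → p ∣ mC γ := by
    intro γ hγ
    by_contra hno
    exact hγ (glaub_unique hG χ hχ hm (hmC γ) hpm hno).symm
  -- expansion over `N`
  letI := irrAct φN
  have e2 : (w : ℂ) = ∑ ϑ : IrrCharacter N, (aN ϑ : ℂ) * (bN ϑ : ℂ) := by
    have h1 := H06.inner_comp_expansion ιN hXN θ'.1
    have h2 : ((fun n => χ.1 (j n)) ∘ ιN) = fun d => χ.1 (ι (k d)) := by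
      funext d
      show χ.1 (j (ιN d)) = _
      rw [hcomm]
    rw [h2, hw] at h1
    simp only [haN] at h1
    have h3 : ∀ ϑ : IrrCharacter N, classInner ((ϑ : N → ℂ) ∘ ιN) θ'.1 = bN ϑ := hbN
    simp only [h3] at h1
    exact h1
  have hTinv : ∀ (a : A) (ϑ : IrrCharacter N),
      (aN (a • ϑ) : ℂ) * (bN (a • ϑ) : ℂ) = (aN ϑ : ℂ) * (bN ϑ : ℂ) := by
    intro a ϑ
    have h1 : (aN (a • ϑ) : ℂ) = aN ϑ := by
      rw [← haN, ← haN]
      have e3 := classInner_comp_equiv (φN a⁻¹) (fun n => χ.1 (j n)) ϑ.1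
      have e4 : (fun x => χ.1 (j (φN a⁻¹ x))) = fun n => χ.1 (j n) := by
        funext n
        rw [hφj, hχ]
      rw [e4] at e3
      exact e3
    have h2 : (bN (a • ϑ) : ℂ) = bN ϑ := by
      rw [← hbN, ← hbN]
      have e4 : ((a • ϑ : IrrCharacter N) : N → ℂ) ∘ ιN = (ϑ : N → ℂ) ∘ ιN := by
        funext d
        show ϑ.1 (φN a⁻¹ (ιN d)) = _
        rw [hN.fix_ι]
        rfl
      rw [e4]
    rw [h1, h2]
  obtain ⟨w₂, hw₂, hsum⟩ := sum_eq_fixed_add (A := A) hN.pgrp
    (fun ϑ : IrrCharacter N => (aN ϑ : ℂ) * (bN ϑ : ℂ))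
    (fun ϑ => by
      have : (aN ϑ : ℂ) * (bN ϑ : ℂ) = ((aN ϑ * bN ϑ : ℕ) : ℂ) := by push_cast; ring
      rw [this]
      exact isIntegral_natCast _)
    hTinv
  rw [← e2] at hsum
  have hsum' : ∃ F : Finset (IrrCharacter N), (∀ ϑ ∈ F, ∀ a : A, a • ϑ = ϑ) ∧
      (w : ℂ) = ∑ ϑ ∈ F, (aN ϑ : ℂ) * (bN ϑ : ℂ) + p * w₂ :=
    ⟨_, fun ϑ hϑ => ((@Finset.mem_filter _ _ (fun _ => Classical.propDecidable _) _ _).mp hϑ).2,
      hsum⟩
  obtain ⟨F, hF, hsum⟩ := hsum'
  have hdvd : p ∣ ∑ ϑ ∈ F, aN ϑ * bN ϑ := by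
    apply Finset.dvd_sum
    intro ϑ hϑ
    have hfix := hF ϑ hϑ
    by_cases hϑθ : ϑ = θ
    · have h0 : aN θ = 0 := by
        have := haN θ
        rw [hzero] at this
        exact_mod_cast this.symm
      rw [hϑθ, h0, zero_mul]
      exact dvd_zero _
    · apply Dvd.dvd.mul_left
      by_contra hno
      apply hϑθ
      have hϑinv : ∀ a n, ϑ.1 (φN a n) = ϑ.1 n := by
        intro a n
        have := congrFun (congrArg Subtype.val (hfix a⁻¹)) n
        have h3 : (a⁻¹ • ϑ).1 n = ϑ.1 (φN a⁻¹⁻¹ n) := rfl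
        rw [h3, inv_inv] at this
        exact this
      exact glaub_inj hN ϑ θ hϑinv hθ (hbN ϑ) hno hm₀ hpm₀
  obtain ⟨c, hc⟩ := hdvd
  have hwp : (p : ℤ) ∣ (w : ℤ) := by
    refine p_dvd_of_eq_mul hpp (w : ℤ) ((c : ℂ) + w₂) ?_ ?_
    · exact (isIntegral_natCast _).add hw₂
    · have h3 : ∑ ϑ ∈ F, (aN ϑ : ℂ) * (bN ϑ : ℂ) = (p : ℂ) * c := by
        have := congrArg (fun n : ℕ => (n : ℂ)) hc
        simpa using this
      push_cast
      rw [hsum, h3]
      ring
  have hwp' : p ∣ w := by exact_mod_cast hwp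
  have hsplit := Finset.add_sum_erase Finset.univ (fun γ => mC γ * nC γ) (Finset.mem_univ β)
  have hrest : p ∣ ∑ γ ∈ Finset.univ.erase β, mC γ * nC γ :=
    Finset.dvd_sum fun γ hγ => Dvd.dvd.mul_right (hmγ γ (Finset.ne_of_mem_erase hγ)) _
  rw [← e1, hmβ, hnβ] at hsplit
  have hfin : p ∣ m * e' := by
    rw [← hsplit] at hwp'
    exact (Nat.dvd_add_left hrest).mp hwp'
  exact (hpp.dvd_mul.mp hfin).elim hpm hpe'

end Key

end Cfsg.Agent.H21
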