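import Cfsg.Agent.Lib.H21.GlaubRel2
import Cfsg.Agent.Lib.H21.NormalBlocks

/-!
# Invariant constituents of induced characters under solvable coprime operator groups.
-/

set_option autoImplicit false
set_option linter.unusedSectionVars false
set_option linter.style.haveILetI false
set_option linter.unusedSimpArgs false

namespace Cfsg.Agent.H21

open scoped ComplexConjugate
open Cfsg Module Cfsg.Agent.H22

universe u

section Res

variable {G : Type u} [Group G] {B : Subgroup (MulAut G)} (N : Subgroup G)
  (hNB : ∀ b : B, ∀ x ∈ N, b.1 x ∈ N)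

/-- Restriction of the operators to a stable subgroup. -/
def resN : B →* MulAut N :=
  MonoidHom.mk' (fun b =>
    { toFun := fun x => ⟨b.1 x, hNB b x x.2⟩
      invFun := fun x => ⟨b.1⁻¹ x, hNB b⁻¹ x x.2⟩
      left_inv := fun x => Subtype.ext (MulAut.inv_apply_self _ _ _)
      right_inv := fun x => Subtype.ext (MulAut.apply_inv_self _ _ _)
      map_mul' := fun x y => Subtype.ext (map_mul b.1 _ _) })
    (fun a b => by
      ext x
      rfl)

@[simp] theorem resN_coe (b : B) (x : N) : ((resN N hNB b x : N) : G) = b.1 x := rfl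

/-- The inclusion of `N ∩ F` in `N`. -/
def iotaN (F N : Subgroup G) : N.subgroupOf F →* N where
  toFun d := ⟨d.1.1, Subgroup.mem_subgroupOf.mp d.2⟩
  map_one' := rfl
  map_mul' _ _ := rfl

@[simp] theorem iotaN_coe (F N : Subgroup G) (d : N.subgroupOf F) :
    ((iotaN F N d : N) : G) = d.1.1 := rfl

end Res

section Step

variable {G : Type u} [Group G] [Finite G] {B : Subgroup (MulAut G)} (T : Subgroup B)
  [hTn : T.Normal] (N : Subgroup G) (hNB : ∀ b : B, ∀ x ∈ N, b.1 x ∈ N)

/-- The setup for the subgroup. -/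
theorem copSetup_resN {p : ℕ} [hp : Fact p.Prime] (hT : IsPGroup p T) (hG : ¬ p ∣ Nat.card G) :
    CopSetup ((resN N hNB).comp T.subtype) (iotaN (fixT T) N) p := by
  refine ⟨?_, ?_, hT, ?_⟩
  · intro a b h
    apply Subtype.ext
    apply Subtype.ext
    exact congrArg (fun x : N => (x : G)) h
  · intro x
    constructor
    · intro h
      have hx : x.1 ∈ fixT T := by
        rintro _ ⟨t, ht, rfl⟩
        exact congrArg Subtype.val (h ⟨t, ht⟩)
      exact ⟨⟨⟨x.1, hx⟩, Subgroup.mem_subgroupOf.mpr x.2⟩, rfl⟩
    · rintro ⟨d, rfl⟩ a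
      apply Subtype.ext
      exact d.1.2 _ ⟨a.1, a.2, rfl⟩
  · intro hd
    exact hG (hd.trans (Subgroup.card_subgroup_dvd_card N))

include hNB in
/-- The image of `B` in the automorphism group of the fixed points. -/
theorem stable_image (b : (toFixT T).range) (x : fixT T) (hx : x ∈ N.subgroupOf (fixT T)) :
    b.1 x ∈ N.subgroupOf (fixT T) := by
  obtain ⟨_, b', rfl⟩ := b
  rw [Subgroup.mem_subgroupOf] at hx ⊢
  exact hNB b' _ hx

end Step

/-- The main existence theorem by induction on the order of `B`. -/
theorem rel_main (n : ℕ) : ∀ (G : Type u) [Group G] [Finite G] (B : Subgroup (MulAut G))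
    (N : Subgroup G) [N.Normal] (hNB : ∀ b : B, ∀ x ∈ N, b.1 x ∈ N),
    Group.IsSolvable B → (Nat.card B).Coprime (Nat.card G) → Nat.card B ≤ n →
    ∀ θ : IrrCharacter N, (∀ (b : B) (x : N), θ.1 (resN N hNB b x) = θ.1 x) →
    ∃ χ : IrrCharacter G, classInner (fun x : N => χ.1 x) θ.1 ≠ 0 ∧
      ∀ (b : B) g, χ.1 (b.1 g) = χ.1 g := by
  induction n with
  | zero =>
    intro G _ _ B N _ hNB _ _ h0
    exact absurd h0 (by
      have : 0 < Nat.card B := Nat.card_pos
      omega)
  | succ n ih =>
    intro G _ _ B N _ hNB hsolv hcop hle θ hθ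
    classical
    by_cases hB : Nontrivial B
    · -- a normal elementary abelian subgroup
      obtain ⟨T, p, hTn, hTne, hp, _, hTexp⟩ := H01.exists_elementary_abelian_normal (G := B)
      haveI := Fact.mk hp
      have hTp : IsPGroup p T := by
        intro x
        refine ⟨1, ?_⟩
        apply Subtype.ext
        simpa using hTexp x.1 x.2
      have hpB : p ∣ Nat.card B := by
        obtain ⟨k, hk⟩ := IsPGroup.iff_card.1 hTp
        have h1 : Nat.card T ≠ 1 := fun h => hTne (Subgroup.eq_bot_of_card_eq _ h)
        have hk0 : k ≠ 0 := by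
          rintro rfl
          exact h1 (by simpa using hk)
        have h2 : p ∣ Nat.card T := by
          rw [hk]
          exact dvd_pow_self p hk0
        exact h2.trans (Subgroup.card_subgroup_dvd_card T)
      have hG : ¬ p ∣ Nat.card G := by
        intro hd
        have := Nat.dvd_gcd hpB hd
        rw [Nat.Coprime.gcd_eq_one hcop] at this
        exact hp.one_lt.ne' (Nat.dvd_one.1 this)
      have hset := copSetup_fixT T hTp hG
      set N' := N.subgroupOf (fixT T) with hN'
      have hsetN : CopSetup ((resN N hNB).comp T.subtype) (iotaN (fixT T) N) p :=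
        copSetup_resN T N hNB hTp hG
      -- the image of `B` in `Aut C`
      let ψ := toFixT T
      let B' : Subgroup (MulAut (fixT T)) := ψ.range
      have hsolv' : Group.IsSolvable B' := by
        haveI := hsolv
        exact Group.isSolvable_of_surjective (f := ψ.rangeRestrict) ψ.rangeRestrict_surjective
      have hTker : T ≤ ψ.ker := by
        intro t ht
        rw [MonoidHom.mem_ker]
        ext c
        show t.1 c.1 = c.1
        exact c.2 _ ⟨t, ht, rfl⟩
      have hcard1 : Nat.card B' * Nat.card ψ.ker = Nat.card B := by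
        have e1 : Nat.card B' = ψ.ker.index := (Subgroup.index_ker ψ).symm
        rw [e1, mul_comm]
        exact Subgroup.card_mul_index _
      have hlt : Nat.card B' ≤ n := by
        have h1 : Nat.card T ≤ Nat.card ψ.ker := Subgroup.card_le_of_le hTker
        have h2 : 2 ≤ Nat.card T := by
          have h3 : Nat.card T ≠ 1 := fun h => hTne (Subgroup.eq_bot_of_card_eq _ h)
          have h4 : 0 < Nat.card T := Nat.card_pos
          omega
        have h5 : Nat.card B' * 2 ≤ Nat.card B := by
          rw [← hcard1]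
          exact Nat.mul_le_mul_left _ (h2.trans h1)
        have h6 : 0 < Nat.card B' := Nat.card_pos
        omega
      have hcop' : (Nat.card B').Coprime (Nat.card (fixT T)) := by
        have h1 : Nat.card B' ∣ Nat.card B := Dvd.intro _ hcard1
        have h2 : Nat.card (fixT T) ∣ Nat.card G := Subgroup.card_subgroup_dvd_card _
        exact Nat.Coprime.coprime_dvd_left h1 (Nat.Coprime.coprime_dvd_right h2 hcop)
      -- the correspondent of `θ`
      have hθT : ∀ (a : T) (x : N), θ.1 (((resN N hNB).comp T.subtype) a x) = θ.1 x :=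
        fun a x => hθ a.1 x
      obtain ⟨θ', m₀, hm₀, hpm₀⟩ := glaub_exists hsetN θ hθT
      have hNB' : ∀ b : B', ∀ x ∈ N', b.1 x ∈ N' := fun b x hx => stable_image T N hNB b x hx
      have hαN : ∀ (b : B) (d : N'), resN N hNB b (iotaN (fixT T) N d)
          = iotaN (fixT T) N (resN N' hNB' ⟨ψ b, b, rfl⟩ d) := fun b d => rfl
      have hθ' : ∀ (b : B') (x : N'), θ'.1 (resN N' hNB' b x) = θ'.1 x := by
        rintro ⟨_, b, rfl⟩ x
        exact corr_equivariant hsetN θ hθT (resN N hNB b) (resN N' hNB' ⟨ψ b, b, rfl⟩)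
          (hαN b) (hθ b) hm₀ hpm₀ x
      obtain ⟨χ', hχ'ne, hχ'inv⟩ := ih (fixT T) B' N' hNB' hsolv' hcop' hlt θ' hθ'
      -- the correspondent of `χ'`
      obtain ⟨χ, hχT, m, hm, hpm⟩ := glaub_surj hset χ'
      have hχB : ∀ (b : B) g, χ.1 (b.1 g) = χ.1 g := by
        intro b
        refine corr_equivariant_rev hset χ hχT b.1 (ψ b) (fun c => rfl) ?_
          (fun c => hχ'inv ⟨ψ b, b, rfl⟩ c) hm hpm
        intro a g
        refine ⟨⟨b * a.1 * b⁻¹, hTn.conj_mem a.1 a.2 b⟩, ?_⟩
        show b.1 (a.1.1 g) = (b.1 * a.1.1 * b.1⁻¹) (b.1 g)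
        simp [MulAut.mul_apply]
      refine ⟨χ, ?_, hχB⟩
      obtain ⟨e', he'⟩ := classInner_isNat (isCharacter_restrict N' (isCharacter_of_irr χ'.2)) θ'
      have he'0 : e' ≠ 0 := by
        rintro rfl
        apply hχ'ne
        rw [he']
        simp
      have hpe' : ¬ p ∣ e' := by
        intro hd
        have h1 : e' ∣ N'.index := mult_dvd_index N' χ' θ' he'0 he'
        have h2 : N'.index ∣ Nat.card (fixT T) := Subgroup.index_dvd_card N'
        have h3 : Nat.card (fixT T) ∣ Nat.card G := Subgroup.card_subgroup_dvd_card _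
        exact hG (hd.trans (h1.trans (h2.trans h3)))
      exact over_of_over N.subtype N'.subtype (fun d => rfl) (fun a n => rfl) hset hsetN χ hχT θ hθT
        χ' θ' hm hpm hm₀ hpm₀ he' hpe'
    · -- trivial `B`
      rw [not_nontrivial_iff_subsingleton] at hB
      have h1 : ∀ b : B, b.1 = 1 := fun b => by
        have := Subsingleton.elim b 1
        rw [this]
        rfl
      obtain ⟨χ, hχ⟩ := exists_above θ
      refine ⟨χ, ?_, ?_⟩
      · unfold classInner
        have hne : (Nat.card N : ℂ)⁻¹ ≠ 0 := by
          simp [Nat.card_pos.ne']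
        refine mul_ne_zero hne ?_
        have : ∑ g : N, χ.1 g * conj (θ.1 g) = ∑ n : N, conj (θ.1 n) * χ.1 n :=
          Finset.sum_congr rfl fun _ _ => mul_comm _ _
        rw [this]
        exact hχ
      · intro b g
        rw [h1]
        rfl

end Cfsg.Agent.H21
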