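import Cfsg.Agent.Lib.H21.KnorrCover

/-!
# Defect groups as intersections of Sylow subgroups (Green)
-/

set_option autoImplicit false
set_option linter.unusedSectionVars false
set_option linter.style.haveILetI false
set_option linter.unusedSimpArgs false

namespace Cfsg.Agent.H21

open scoped ComplexConjugate
open Cfsg Module Cfsg.Agent.H22

universe u

variable {G : Type u} [Group G] [Finite G]
variable {p : ℕ} [hp : Fact p.Prime] {M : Ideal AlgInt} [hMp : M.IsPrime]

section Matrix

variable {K : Type*} [Group K] [Finite K]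

open scoped Classical in
/-- The idempotent `a` acting on the permutation module on cosets of `T`. -/
noncomputable def cosetMat (T : Subgroup K) (a : K → ℂ) : Matrix (K ⧸ T) (K ⧸ T) ℂ :=
  Matrix.of fun x y => ∑ h : K, a h * if h • y = x then 1 else 0

theorem cosetMat_mul (T : Subgroup K) {a : K → ℂ} (ha : conv a a = a) :
    cosetMat T a * cosetMat T a = cosetMat T a := by
  classical
  ext x y
  simp only [Matrix.mul_apply, cosetMat, Matrix.of_apply]
  have h1 : ∀ z : K ⧸ T, (∑ g : K, a g * if g • z = x then 1 else 0) *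
      (∑ h : K, a h * if h • y = z then 1 else 0) =
      ∑ g : K, ∑ h : K, (a g * a h) * ((if g • z = x then 1 else 0) * (if h • y = z then 1 else 0)) := by
    intro z
    rw [Finset.sum_mul_sum]
    refine Finset.sum_congr rfl fun g _ => Finset.sum_congr rfl fun h _ => ?_
    ring
  simp only [h1]
  rw [Finset.sum_comm]
  simp only [Finset.sum_comm (s := (Finset.univ : Finset (K ⧸ T)))]
  have h2 : ∀ g h : K, ∑ z : K ⧸ T, (a g * a h) *
      ((if g • z = x then (1 : ℂ) else 0) * (if h • y = z then 1 else 0)) =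
      (a g * a h) * if (g * h) • y = x then 1 else 0 := by
    intro g h
    rw [Finset.sum_eq_single (h • y)]
    · rw [if_pos rfl, mul_one, mul_smul]
    · intro z _ hz
      have h0 : (if h • y = z then (1 : ℂ) else 0) = 0 := if_neg (fun e => hz e.symm)
      rw [h0, mul_zero, mul_zero]
    · intro hc
      exact absurd (Finset.mem_univ _) hc
  simp only [h2]
  have h3 : ∀ g : K, ∑ h : K, (a g * a h) * (if (g * h) • y = x then (1 : ℂ) else 0) =
      ∑ k : K, (a g * a (g⁻¹ * k)) * (if k • y = x then 1 else 0) := by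
    intro g
    have h0 := Equiv.sum_comp (Equiv.mulLeft g)
      (fun k => (a g * a (g⁻¹ * k)) * (if k • y = x then (1 : ℂ) else 0))
    rw [← h0]
    refine Finset.sum_congr rfl fun k _ => ?_
    simp only [Equiv.coe_mulLeft, inv_mul_cancel_left]
    congr
  simp only [h3]
  rw [Finset.sum_comm]
  refine Finset.sum_congr rfl fun k _ => ?_
  rw [← Finset.sum_mul]
  congr 1
  have := congrFun ha k
  unfold conv at this
  exact this

/-- A nonzero exact idempotent with local coefficients has an entry in the first column off the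
ideal: the coset sums of `a`. -/
theorem exists_coset_sum {S : Set (IrrCharacter K)} (hne : S.Nonempty) (hsat : BlockSat M S)
    (hsing : ∀ h : K, p ∣ orderOf h → blockCoeff S h = 0)
    (T : Subgroup K) (hT : IsPGroup p T) :
    ∃ x : K ⧸ T, ¬ MemLocalIdeal M (cosetMat T (blockCoeff S) x ((1 : K) : K ⧸ T)) := by
  classical
  by_contra hcon
  push Not at hcon
  set a := blockCoeff S with ha
  have haR : ∀ h, MemLocalRing M (a h) := fun h => blockCoeff_mlr' hsat h
  have hacl : ∀ g k, a (k * g * k⁻¹) = a g := fun g k => blockCoeff_isClass S g k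
  have hconv : conv a a = a := blockCoeff_conv_self S
  set E := cosetMat T a with hE
  have hEI : IsIm M E := by
    intro x y
    obtain ⟨β, rfl⟩ := QuotientGroup.mk_surjective y
    have h1 := hcon ((β⁻¹ : K) • x)
    have h2 : E x ((β : K) : K ⧸ T) = E ((β⁻¹ : K) • x) ((1 : K) : K ⧸ T) := by
      simp only [hE, cosetMat, Matrix.of_apply]
      rw [← Equiv.sum_comp (MulAut.conj β).toEquiv]
      refine Finset.sum_congr rfl fun h _ => ?_
      have h3 : (MulAut.conj β).toEquiv h = β * h * β⁻¹ := rfl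
      rw [h3, hacl]
      congr 1
      have h4 : ((β * h * β⁻¹) • (((β : K) : K ⧸ T)) = x) ↔ (h • (((1 : K) : K ⧸ T)) = (β⁻¹ : K) • x) := by
        have h5 : (β * h * β⁻¹) • (((β : K) : K ⧸ T)) = (β : K) • (h • (((1 : K) : K ⧸ T))) := by
          rw [← mul_smul]
          rw [MulAction.Quotient.smul_mk]
          simp [MulAction.Quotient.smul_mk]
        rw [h5]
        exact ⟨fun h6 => by rw [← h6, inv_smul_smul], fun h6 => by rw [h6, smul_inv_smul]⟩
      simp only [h4]
    rw [h2]
    exact h1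
  have hE2 : E * E = E := cosetMat_mul T hconv
  -- `1 - E` is invertible
  have hD : IsRm M (1 - E) := isRm_one.sub hEI.isRm
  have hD1 : IsIm M ((1 - E) - 1) := by
    have : (1 - E) - 1 = 0 - E := by abel
    rw [this]
    intro i j
    rw [Matrix.sub_apply]
    exact mli_sub (by simpa using mli_zero) (hEI i j)
  have hdet := det_ne_zero_of_congr_one hD hD1
  have hunit : IsUnit (1 - E).det := isUnit_iff_ne_zero.mpr hdet
  have hE0 : E = 0 := by
    have h1 : E * (1 - E) = 0 := by
      rw [mul_sub, mul_one, hE2, sub_self]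
    have h2 := Matrix.mul_nonsing_inv (1 - E) hunit
    calc E = E * ((1 - E) * (1 - E)⁻¹) := by rw [h2, mul_one]
      _ = (E * (1 - E)) * (1 - E)⁻¹ := by rw [mul_assoc]
      _ = 0 := by rw [h1, zero_mul]
  -- the trace
  have htr : Matrix.trace E = a 1 * (Nat.card (K ⧸ T) : ℂ) := by
    simp only [Matrix.trace, Matrix.diag, hE, cosetMat, Matrix.of_apply]
    rw [Finset.sum_comm, Finset.sum_eq_single (1 : K)]
    · simp only [one_smul, if_true, mul_one, Finset.sum_const, Finset.card_univ, nsmul_eq_mul]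
      rw [Nat.card_eq_fintype_card]
      ring
    · intro h _ hh
      by_cases hs : p ∣ orderOf h
      · have : a h = 0 := hsing h hs
        simp [this]
      · refine Finset.sum_eq_zero fun x _ => ?_
        rw [if_neg, mul_zero]
        intro hx
        apply hh
        obtain ⟨α, rfl⟩ := QuotientGroup.mk_surjective x
        have h1 : α⁻¹ * h * α ∈ T := by
          have : (h • ((α : K) : K ⧸ T)) = ((h * α : K) : K ⧸ T) := rfl
          rw [this, QuotientGroup.eq] at hx
          rw [show α⁻¹ * h * α = (α⁻¹ * h⁻¹ * α)⁻¹ by group]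
          refine T.inv_mem ?_
          simpa [mul_assoc] using hx
        obtain ⟨k, hk⟩ := hT ⟨_, h1⟩
        have h2 : (α⁻¹ * h * α) ^ (p ^ k) = 1 := by
          have := congrArg Subtype.val hk
          simpa using this
        have h3 : h ^ (p ^ k) = 1 := by
          have h4 : (α⁻¹ * h * α) ^ (p ^ k) = α⁻¹ * h ^ (p ^ k) * α := by
            simpa using ((MulAut.conj α⁻¹).toMonoidHom.map_pow h (p ^ k)).symm
          rw [h4] at h2
          have h5 : h ^ (p ^ k) = α * (α⁻¹ * h ^ (p ^ k) * α) * α⁻¹ := by group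
          rw [h5, h2]
          group
        obtain ⟨j, -, hj⟩ := (Nat.dvd_prime_pow hp.out).mp (orderOf_dvd_of_pow_eq_one h3)
        rcases Nat.eq_zero_or_pos j with rfl | hj0
        · rw [pow_zero] at hj
          exact orderOf_eq_one_iff.mp hj
        · exact absurd (hj ▸ dvd_pow_self p hj0.ne') hs
    · intro hc
      exact absurd (Finset.mem_univ _) hc
  rw [hE0, Matrix.trace_zero] at htr
  have h1 : a 1 ≠ 0 := blockCoeff_one_ne_zero' hne
  have h2 : (Nat.card (K ⧸ T) : ℂ) ≠ 0 := by exact_mod_cast Nat.card_pos.ne'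
  exact mul_ne_zero h1 h2 htr.symm

end Matrix

/-- If a `p`-subgroup `W` of `N(D)` not inside `D` permutes `Y ⊆ C(D)` by conjugation, the sum of
the block coefficients on `Y` is in the ideal. -/
theorem coset_sum_mem (hM : IsPModular p M) {B : Set (IrrCharacter G)} (hB : IsPBlock M B)
    {D : Subgroup G} (hD : IsDefectGroup p M B D) {P : Subgroup G} (hP : IsPGroup p P) (hDP : D ≤ P)
    {W : Subgroup G} (hWP : W ≤ P) (hWD : ¬ W ≤ D) (Y : Finset G)
    (hY : ∀ h ∈ Y, h ∈ Subgroup.centralizer (D : Set G))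
    (hst : ∀ q ∈ W, ∀ h ∈ Y, q * h * q⁻¹ ∈ Y) :
    MemLocalIdeal M (∑ h ∈ Y, blockCoeff B h) := by
  classical
  have hWp : IsPGroup p W := hP.to_le hWP
  let σ : W → Y → Y := fun q h => ⟨(q : G) * h * (q : G)⁻¹, hst q q.2 h h.2⟩
  have h1 := mli_sum_sub_fixed hM hWp σ (fun x => Subtype.ext (by simp [σ]))
    (fun q r x => Subtype.ext (by simp [σ, mul_assoc])) (fun h : Y => blockCoeff B h)
    (fun h => blockCoeff_mlr hB _) (fun q x => blockCoeff_isClass B _ _)
  have h2 : MemLocalIdeal M (∑ x ∈ Finset.univ.filter (fun x : Y => ∀ q, σ q x = x),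
      blockCoeff B (x : G)) := by
    refine mli_sum _ _ fun x hx => ?_
    by_contra hn
    have hfix := (Finset.mem_filter.mp hx).2
    have hle : D ⊔ W ≤ Subgroup.centralizer ({(x : G)} : Set G) := by
      refine sup_le ?_ ?_
      · intro d hd
        rw [Subgroup.mem_centralizer_singleton_iff]
        exact Subgroup.mem_centralizer_iff.mp (hY x x.2) d hd
      · intro q hq
        rw [Subgroup.mem_centralizer_singleton_iff]
        have h3 := congrArg Subtype.val (hfix ⟨q, hq⟩)
        have h4 : q * (x : G) * q⁻¹ = x := h3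
        calc q * (x : G) = q * x * q⁻¹ * q := by group
          _ = x * q := by rw [h4]
    have hSp : IsPGroup p (D ⊔ W : Subgroup G) := hP.to_le (sup_le hDP hWP)
    have hsub := subConj_defect_of_coeff hM hB hD hn hSp hle
    have hcard := card_le_of_subConj hsub
    have heq : D = D ⊔ W := Subgroup.eq_of_le_of_card_ge le_sup_left hcard
    exact hWD (heq ▸ le_sup_right)
  have h3 := mli_add h1 h2
  rw [sub_add_cancel] at h3
  rwa [sum_coe_sort_any Y (fun h => blockCoeff B h)] at h3

/-- **Green's theorem**: a defect group is an intersection `P ∩ P^x` with `x` a `p`-regular element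
such that `D` is a Sylow subgroup of the centralizer of `x`. -/
theorem green_main (hM : IsPModular p M) {B : Set (IrrCharacter G)} (hB : IsPBlock M B)
    {D : Subgroup G} (hD : IsDefectGroup p M B D) (P : Sylow p G) (hDP : D ≤ P) :
    ∃ x : G, ¬ p ∣ orderOf x ∧
      (∃ S : Sylow p (Subgroup.centralizer ({x} : Set G)),
        (S : Subgroup (Subgroup.centralizer ({x} : Set G))).map
          (Subgroup.centralizer ({x} : Set G)).subtype = D) ∧
      (P : Subgroup G) ⊓ (P : Subgroup G).map (MulAut.conj x).toMonoidHom = D := by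
  classical
  have hpp := hp.out
  set C := Subgroup.centralizer (D : Set G) with hC
  let T' : Subgroup C := (P : Subgroup G).subgroupOf C
  have hPp : IsPGroup p (P : Subgroup G) := P.2
  have hT' : IsPGroup p T' := by
    intro x
    have hx : ((x : C) : G) ∈ (P : Subgroup G) := Subgroup.mem_subgroupOf.mp x.2
    obtain ⟨k, hk⟩ := hPp ⟨((x : C) : G), hx⟩
    refine ⟨k, ?_⟩
    apply Subtype.ext
    apply Subtype.ext
    simpa using congrArg Subtype.val hk
  have hDp := defect_isPGroup hD
  have hR : ∀ g, MemLocalRing M (blockCoeff B g) := blockCoeff_mlr hB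
  have hAdD : Ad D (blockCoeff B) := blockCoeff_Ad B D
  have hAdC : Ad C (blockCoeff B) := blockCoeff_Ad B C
  have hid : ∀ g, MemLocalIdeal M (conv (blockCoeff B) (blockCoeff B) g - blockCoeff B g) := by
    intro g
    rw [blockCoeff_conv_self, sub_self]
    exact mli_zero
  set s := brSet M D (blockCoeff B) with hs
  have hsat : BlockSat M s := brSet_sat hAdC hR
  have hcong : ∀ c : C, MemLocalIdeal M (blockCoeff B (c : G) - blockCoeff s c) :=
    brT_congr_blockCoeff hM hDp hR hAdD hAdC hid
  obtain ⟨e, hmax⟩ := exists_maximal_on_defect hM hD hB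
  have hes := isBrauerPairOf_iff.mp hmax.1
  have hne : s.Nonempty := by
    obtain ⟨ξ, hξ⟩ := block_nonempty hes.1.2
    exact ⟨ξ, hes.2.2 hξ⟩
  have hsing : ∀ h : C, p ∣ orderOf h → blockCoeff s h = 0 := by
    intro h hh
    rw [blockCoeff_eq_ofOm]
    exact ofOm_eq_zero_of_singular hM (eB_sat_mem_ZR hsat) (eB_mul_self s) hh
  obtain ⟨x, hx⟩ := exists_coset_sum hne hsat hsing T' hT'
  -- the same with the coefficients of `B`
  have hf : ¬ MemLocalIdeal M (∑ h : C, blockCoeff B (h : G) * if h • ((1 : C) : C ⧸ T') = x then 1 else 0) := by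
    intro hmem
    apply hx
    have h1 : MemLocalIdeal M ((∑ h : C, blockCoeff B (h : G) * if h • ((1 : C) : C ⧸ T') = x then 1 else 0) -
        cosetMat T' (blockCoeff s) x ((1 : C) : C ⧸ T')) := by
      simp only [cosetMat, Matrix.of_apply]
      rw [← Finset.sum_sub_distrib]
      refine mli_sum _ _ fun h _ => ?_
      rw [← sub_mul]
      refine mli_mul_right (hcong h) ?_
      split_ifs
      · exact mlr_one
      · exact mlr_zero
    have h2 := mli_sub hmem h1
    simpa using h2
  obtain ⟨h₀, hh₀⟩ : ∃ h₀ : C, ¬ MemLocalIdeal M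
      (blockCoeff B (h₀ : G) * if h₀ • ((1 : C) : C ⧸ T') = x then 1 else 0) := by
    by_contra hcon
    push Not at hcon
    exact hf (mli_sum _ _ fun h _ => hcon h)
  have hmk : ∀ h : C, h • ((1 : C) : C ⧸ T') = ((h : C) : C ⧸ T') := fun h => by
    rw [MulAction.Quotient.smul_mk]
    simp
  have hx₀ : x = ((h₀ : C) : C ⧸ T') := by
    by_contra hc
    apply hh₀
    rw [if_neg (by rw [hmk]; exact fun h => hc h.symm), mul_zero]
    exact mli_zero
  have hcoef : ¬ MemLocalIdeal M (blockCoeff B (h₀ : G)) := by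
    rw [if_pos (by rw [hmk]; exact hx₀.symm), mul_one] at hh₀
    exact hh₀
  -- the set `Y`
  let Y : Finset G := (Finset.univ.filter fun h : C => ((h : C) : C ⧸ T') = x).image Subtype.val
  have hYsum : ∑ h ∈ Y, blockCoeff B h =
      ∑ h : C, blockCoeff B (h : G) * if h • ((1 : C) : C ⧸ T') = x then 1 else 0 := by
    simp only [Y]
    rw [Finset.sum_image (fun a _ b _ h => Subtype.ext h), Finset.sum_filter]
    refine Finset.sum_congr rfl fun h _ => ?_
    rw [hmk]
    split_ifs <;> simp
  have hY : ∀ h ∈ Y, h ∈ C := by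
    intro h hh
    obtain ⟨c, -, rfl⟩ := Finset.mem_image.mp hh
    exact c.2
  let W : Subgroup G := (Subgroup.normalizer (D : Set G) ⊓ (P : Subgroup G)) ⊓
    (P : Subgroup G).map (MulAut.conj (h₀ : G)).toMonoidHom
  have hW : W ≤ D := by
    by_contra hWD
    apply hf
    rw [← hYsum]
    refine coset_sum_mem hM hB hD hPp hDP (W := W) (fun q hq => hq.1.2) hWD Y hY ?_
    rintro q ⟨⟨hqN, hqP⟩, v, hv, hvq⟩ h hh
    obtain ⟨c, hc, rfl⟩ := Finset.mem_image.mp hh
    have hc' : ((c : C) : C ⧸ T') = x := (Finset.mem_filter.mp hc).2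
    rw [hx₀, eq_comm, QuotientGroup.eq] at hc'
    have hc2 : (h₀ : G)⁻¹ * (c : G) ∈ (P : Subgroup G) := hc'
    have hvq' : (h₀ : G) * v * (h₀ : G)⁻¹ = q := hvq
    have hqc : q * (c : G) * q⁻¹ ∈ C := by
      refine Subgroup.mem_centralizer_iff.mpr ?_
      intro d hd
      have hd' : q⁻¹ * d * q ∈ D := by
        have := (Subgroup.mem_normalizer_iff.mp hqN ((q⁻¹ * d * q))).mp
        have h1 : q⁻¹ * d * q ∈ (D : Subgroup G) ↔ d ∈ D := by
          have h2 := Subgroup.mem_normalizer_iff.mp hqN (q⁻¹ * d * q)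
          rw [show q * (q⁻¹ * d * q) * q⁻¹ = d by group] at h2
          exact h2
        exact h1.mpr hd
      have h3 := Subgroup.mem_centralizer_iff.mp c.2 _ hd'
      have h4 : d * (q * (c : G) * q⁻¹) = q * ((q⁻¹ * d * q) * (c : G)) * q⁻¹ := by group
      have h5 : (q * (c : G) * q⁻¹) * d = q * ((c : G) * (q⁻¹ * d * q)) * q⁻¹ := by group
      rw [h4, h5, h3]
    refine Finset.mem_image.mpr ⟨⟨_, hqc⟩, Finset.mem_filter.mpr ⟨Finset.mem_univ _, ?_⟩, rfl⟩
    rw [hx₀, eq_comm, QuotientGroup.eq]
    show (h₀ : G)⁻¹ * (q * (c : G) * q⁻¹) ∈ (P : Subgroup G)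
    have h6 : (h₀ : G)⁻¹ * (q * (c : G) * q⁻¹) = v * ((h₀ : G)⁻¹ * (c : G)) * q⁻¹ := by
      rw [← hvq']
      group
    rw [h6]
    exact (P : Subgroup G).mul_mem ((P : Subgroup G).mul_mem hv hc2) ((P : Subgroup G).inv_mem hqP)
  -- the intersection
  set X₀ : Subgroup G := (P : Subgroup G) ⊓ (P : Subgroup G).map (MulAut.conj (h₀ : G)).toMonoidHom with hX₀
  have hDX : D ≤ X₀ := by
    refine le_inf hDP fun d hd => ?_
    refine ⟨d, hDP hd, ?_⟩
    show (h₀ : G) * d * (h₀ : G)⁻¹ = d
    have := Subgroup.mem_centralizer_iff.mp h₀.2 d hd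
    rw [← this]
    group
  have hX₀p : IsPGroup p X₀ := hPp.to_le inf_le_left
  have hXD : X₀ = D := by
    by_contra hne'
    have hlt : D < X₀ := lt_of_le_of_ne hDX (fun h => hne' h.symm)
    have h1 := lt_inf_normalizer hX₀p hlt
    refine not_le_of_gt h1 ?_
    intro z hz
    exact hW ⟨⟨hz.2, hz.1.1⟩, hz.1.2⟩
  refine ⟨h₀, ?_, ?_, hXD⟩
  · intro hdvd
    apply hcoef
    rw [blockCoeff_eq_zero_of_singular hM hB hdvd]
    exact mli_zero
  · set C₀ := Subgroup.centralizer ({(h₀ : G)} : Set G) with hC₀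
    obtain ⟨S₀⟩ : Nonempty (Sylow p C₀) := inferInstance
    have hDC₀ : D ≤ C₀ := by
      intro d hd
      rw [hC₀, Subgroup.mem_centralizer_singleton_iff]
      exact Subgroup.mem_centralizer_iff.mp h₀.2 d hd
    have hS₁p : IsPGroup p ((S₀ : Subgroup C₀).map C₀.subtype) := S₀.2.map _
    have hS₁le : (S₀ : Subgroup C₀).map C₀.subtype ≤ C₀ := by
      rintro _ ⟨u, _, rfl⟩
      exact u.2
    have h1 := card_le_of_subConj (subConj_defect_of_coeff hM hB hD hcoef hS₁p hS₁le)
    have h2 : Nat.card ((S₀ : Subgroup C₀).map C₀.subtype) = Nat.card S₀ :=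
      Subgroup.card_map_of_injective (Subgroup.subtype_injective C₀)
    rw [h2, Sylow.card_eq_multiplicity] at h1
    have hcardD : Nat.card (D.subgroupOf C₀) = Nat.card D :=
      Nat.card_congr (Subgroup.subgroupOfEquivOfLe hDC₀).toEquiv
    have hD₁p : IsPGroup p (D.subgroupOf C₀) := by
      intro z
      have hz : ((z : C₀) : G) ∈ D := Subgroup.mem_subgroupOf.mp z.2
      obtain ⟨k, hk⟩ := hDp ⟨((z : C₀) : G), hz⟩
      refine ⟨k, ?_⟩
      apply Subtype.ext
      apply Subtype.ext
      simpa using congrArg Subtype.val hk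
    obtain ⟨j, hj⟩ := IsPGroup.iff_card.mp hD₁p
    have h3 : p ^ j ∣ Nat.card C₀ := by
      rw [← hj]
      exact Subgroup.card_subgroup_dvd_card _
    have h4 := (Nat.Prime.pow_dvd_iff_le_factorization hpp Nat.card_pos.ne').1 h3
    have h5 : Nat.card (D.subgroupOf C₀) = p ^ (Nat.card C₀).factorization p := by
      rw [hcardD] at hj ⊢
      rw [hj] at h1 ⊢
      have h6 := (Nat.pow_le_pow_iff_right hpp.one_lt).mp h1
      congr 1
      omega
    refine ⟨Sylow.ofCard (D.subgroupOf C₀) h5, ?_⟩
    rw [Sylow.coe_ofCard]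
    exact Subgroup.map_subgroupOf_eq_of_le hDC₀


end Cfsg.Agent.H21
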