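import Cfsg.Agent.Lib.H21.KleinOrder
import Cfsg.Agent.Lib.H22.FSPerm

/-!
# The order formula in the case of sign `-1`
-/

set_option autoImplicit false
set_option linter.unusedSectionVars false
set_option linter.style.haveILetI false
set_option linter.unusedSimpArgs false

namespace Cfsg.Agent.H21

open scoped ComplexConjugate Pointwise
open Cfsg Module Cfsg.Agent.H22 Cfsg.Agent.H23

universe u

section Final

variable {G : Type u} [Group G] [Finite G] {M : Ideal AlgInt} [hMp : M.IsPrime]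

/-- The complex conjugate character. -/
noncomputable def starIrr (χ : IrrCharacter G) : IrrCharacter G :=
  ⟨fun g => conj (χ.1 g), isIrr_star χ.2⟩

theorem starIrr_apply (χ : IrrCharacter G) (g : G) : (starIrr χ).1 g = conj (χ.1 g) := rfl

theorem charDegree_starIrr (χ : IrrCharacter G) : charDegree (starIrr χ).1 = charDegree χ.1 := by
  unfold charDegree
  rw [starIrr_apply, Complex.conj_re]

theorem centralChar_starIrr (χ : IrrCharacter G) (g : G) :
    centralChar (starIrr χ).1 g = centralChar χ.1 g⁻¹ := by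
  unfold centralChar
  have h1 : (Subgroup.centralizer ({g} : Set G)).index =
      (Subgroup.centralizer ({g⁻¹} : Set G)).index := by
    congr 1
    ext x
    simp only [Subgroup.mem_centralizer_singleton_iff]
    constructor
    · intro h
      exact ((show Commute x g from h).inv_right).eq
    · intro h
      have := ((show Commute x g⁻¹ from h).inv_right)
      rwa [inv_inv] at this
  rw [h1, starIrr_apply, starIrr_apply, ← isCharacter_inv (isCharacter_of_irr χ.2) g,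
    one_eq_charDegree (isCharacter_of_irr χ.2)]
  simp

theorem starIrr_mem_principal {χ : IrrCharacter G} (hχ : χ ∈ principalBlock M G) :
    starIrr χ ∈ principalBlock M G := by
  intro g
  have h1 := hχ g⁻¹
  rw [centralChar_starIrr]
  show MemLocalIdeal M (centralChar (oneIrr G).1 g - _)
  have h2 : centralChar (oneIrr G).1 g = centralChar (oneIrr G).1 g⁻¹ := by
    have h3 := centralChar_starIrr (oneIrr G) g
    have h4 : (starIrr (oneIrr G)).1 = (oneIrr G).1 := by
      funext x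
      rw [starIrr_apply]
      show conj (1 : ℂ) = 1
      simp
    rw [h4] at h3
    exact h3
  rw [h2]
  exact h1

/-- The relation from Frobenius–Schur indicators. -/
theorem fs_relation (hM : IsPModular 2 M) (P : Sylow 2 G) (hP4 : Nat.card P = 4)
    (hexp : ∀ x : P, x * x = 1)
    (hone : ∀ s t : G, orderOf s = 2 → orderOf t = 2 → IsConj s t) {J : G} (hJ : orderOf J = 2) :
    ∑ χ : IrrCharacter G, eB (principalBlock M G) χ * (fsInd χ.1 * χ.1 J) = 0 := by
  classical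
  have hodd : ∀ g : G, ¬ 2 ∣ orderOf (g * g) := by
    intro g hg
    obtain ⟨z, y, rfl, hc, hk, hy⟩ := exists_pPart (p := 2) g
    obtain ⟨k, hk'⟩ := hk
    have hzz : z * z = 1 := mul_self_of_two_element P hexp hk'
    rw [comm_mul_sq hc, hzz, one_mul] at hg
    apply hy
    have h1 : orderOf (y * y) ∣ orderOf y := by
      apply _root_.orderOf_dvd_of_pow_eq_one
      rw [← sq, ← pow_mul, mul_comm, pow_mul, pow_orderOf_eq_one, one_pow]
    exact hg.trans h1
  have h1 : ∀ g : G, ∑ χ : IrrCharacter G, eB (principalBlock M G) χ * (χ.1 (g * g) * χ.1 J) = 0 := by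
    intro g
    rw [sum_sign_value hM P hP4 hexp hone hJ, if_neg (hodd g)]
  have h2 : ∑ χ : IrrCharacter G, eB (principalBlock M G) χ * (fsInd χ.1 * χ.1 J) =
      (Nat.card G : ℂ)⁻¹ * ∑ g : G, ∑ χ : IrrCharacter G,
        eB (principalBlock M G) χ * (χ.1 (g * g) * χ.1 J) := by
    rw [Finset.sum_comm, Finset.mul_sum]
    refine Finset.sum_congr rfl fun χ _ => ?_
    have h3 : ∑ g : G, eB (principalBlock M G) χ * (χ.1 (g * g) * χ.1 J) =
        eB (principalBlock M G) χ * (∑ g : G, χ.1 (g * g)) * χ.1 J := by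
      rw [Finset.mul_sum, Finset.sum_mul]
      refine Finset.sum_congr rfl fun g _ => ?_
      ring
    rw [h3]
    unfold fsInd
    ring
  rw [h2, Finset.sum_eq_zero fun g _ => h1 g, mul_zero]

theorem klein_q_formula (hM : IsPModular 2 M) {g₀ : ℕ} (hg₀ : Odd g₀) (hG : Nat.card G = 4 * g₀)
    (hnc : ¬ ∃ N : Subgroup G, N.Normal ∧ Nat.card N = g₀) (P : Sylow 2 G) {J : G}
    (hJ2 : orderOf J = 2) (χ₁ χ₂ χ₃ : IrrCharacter G) (ε₁ ε₂ ε₃ : ℤ)
    (hB : principalBlock M G =
      {χ : IrrCharacter G | (χ : G → ℂ) = (fun _ => 1) ∨ χ = χ₁ ∨ χ = χ₂ ∨ χ = χ₃})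
    (hdist : (χ₁ : G → ℂ) ≠ (fun _ => 1) ∧ (χ₂ : G → ℂ) ≠ (fun _ => 1) ∧
      (χ₃ : G → ℂ) ≠ (fun _ => 1) ∧ χ₁ ≠ χ₂ ∧ χ₁ ≠ χ₃ ∧ χ₂ ≠ χ₃)
    (hε : (ε₁ = 1 ∨ ε₁ = -1) ∧ (ε₂ = 1 ∨ ε₂ = -1) ∧ (ε₃ = 1 ∨ ε₃ = -1))
    (hval : (χ₁ : G → ℂ) J = ε₁ ∧ (χ₂ : G → ℂ) J = ε₂ ∧ (χ₃ : G → ℂ) J = ε₃)
    (hprod : ε₁ * ε₂ * ε₃ = -1) (hε₃ : ε₃ = -1) :
    ∃ m : ℕ, 4 * Nat.card (Subgroup.centralizer ({J} : Set G)) =
        m * Nat.card (Subgroup.centralizer ((P : Subgroup G) : Set G)) * (charDegree (χ₃ : G → ℂ) + 1) ∧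
      8 * Nat.card G = m ^ 3 * Nat.card (Subgroup.centralizer ((P : Subgroup G) : Set G)) *
        (charDegree (χ₃ : G → ℂ) ^ 3 - charDegree (χ₃ : G → ℂ)) := by
  classical
  obtain ⟨r, hr, hid, hrel, h41, h42, h43⟩ :=
    klein_relations hM hg₀ hG hnc P hJ2 χ₁ χ₂ χ₃ ε₁ ε₂ ε₃ hB hdist hval
  obtain ⟨hP4, hexp, hone⟩ := klein_of_no_npc hg₀ hG hnc P
  obtain ⟨hv1, hv2, hv3⟩ := hval
  have hd1 : 1 ≤ charDegree χ₁.1 := irr_charDegree_pos χ₁.2
  have hd2 : 1 ≤ charDegree χ₂.1 := irr_charDegree_pos χ₂.2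
  have hd3 : 1 ≤ charDegree χ₃.1 := irr_charDegree_pos χ₃.2
  subst hε₃
  -- the signs
  have hε₁₂ : ε₁ = 1 ∧ ε₂ = 1 := by
    obtain ⟨he1, he2, -⟩ := hε
    rcases he1 with rfl | rfl <;> rcases he2 with rfl | rfl
    · exact ⟨rfl, rfl⟩
    · norm_num at hprod
    · norm_num at hprod
    · exfalso
      omega
  obtain ⟨rfl, rfl⟩ := hε₁₂
  have hv1' : χ₁.1 J = 1 := by rw [hv1]; simp
  have hv2' : χ₂.1 J = 1 := by rw [hv2]; simp
  have hv3' : χ₃.1 J = -1 := by rw [hv3]; simp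
  have hmem1 : χ₁ ∈ principalBlock M G := by rw [hB]; simp
  have hmem2 : χ₂ ∈ principalBlock M G := by rw [hB]; simp
  have hmem3 : χ₃ ∈ principalBlock M G := by rw [hB]; simp
  have hodd1 : Odd (charDegree χ₁.1) := by
    rw [Nat.odd_iff]
    omega
  have hodd2 : Odd (charDegree χ₂.1) := by
    rw [Nat.odd_iff]
    omega
  have hodd3 : Odd (charDegree χ₃.1) := by
    rw [Nat.odd_iff]
    omega
  -- Frobenius–Schur
  have hfs := fs_relation (M := M) hM P hP4 hexp hone hJ2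
  rw [sum_block_four (M := M) hB hdist, hv1', hv2', hv3', fsInd_one] at hfs
  have hoJ : (oneIrr G).1 J = 1 := rfl
  rw [hoJ] at hfs
  -- the members, by their values at `J`
  have hcases : ∀ χ : IrrCharacter G, χ ∈ principalBlock M G →
      χ = oneIrr G ∨ χ = χ₁ ∨ χ = χ₂ ∨ χ = χ₃ := by
    intro χ hχ
    rw [hB] at hχ
    rcases hχ with h | h
    · left
      exact Subtype.ext h
    · exact Or.inr h
  have hneone : (1 : ℂ) ≠ -1 := by norm_num
  have hreal3 : ∀ g, conj (χ₃.1 g) = χ₃.1 g := by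
    have h1 := hcases _ (starIrr_mem_principal hmem3)
    have hval : (starIrr χ₃).1 J = -1 := by
      rw [starIrr_apply, hv3']
      simp
    rcases h1 with h | h | h | h
    · exfalso
      rw [h, hoJ] at hval
      exact hneone hval
    · exfalso
      rw [h, hv1'] at hval
      exact hneone hval
    · exfalso
      rw [h, hv2'] at hval
      exact hneone hval
    · intro g
      rw [← starIrr_apply, h]
  have hν3 := fsInd_eq_one_of_odd χ₃ hreal3 hodd3
  rw [hν3] at hfs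
  have hsum0 : fsInd χ₁.1 + fsInd χ₂.1 = 0 := by
    linear_combination hfs
  have hnr1 : ¬ ∀ g, conj (χ₁.1 g) = χ₁.1 g := by
    intro hreal1
    have hν1 := fsInd_eq_one_of_odd χ₁ hreal1 hodd1
    have hν2 : fsInd χ₂.1 = -1 := by
      rw [hν1] at hsum0
      linear_combination hsum0
    have hreal2 : ∀ g, conj (χ₂.1 g) = χ₂.1 g := by
      apply real_of_fsInd_ne_zero
      rw [hν2]
      norm_num
    have h3 := fsInd_eq_one_of_odd χ₂ hreal2 hodd2
    rw [hν2] at h3
    exact hneone h3.symm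
  have hx12 : charDegree χ₂.1 = charDegree χ₁.1 := by
    have h1 := hcases _ (starIrr_mem_principal hmem1)
    have hval : (starIrr χ₁).1 J = 1 := by
      rw [starIrr_apply, hv1']
      simp
    rcases h1 with h | h | h | h
    · exfalso
      apply hnr1
      have h2 : χ₁ = oneIrr G := by
        apply Subtype.ext
        funext g
        have h3 : (starIrr χ₁).1 g = 1 := by rw [h]; rfl
        rw [starIrr_apply] at h3
        have h4 := congrArg conj h3
        show χ₁.1 g = 1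
        simpa using h4
      intro g
      rw [h2]
      show conj (1 : ℂ) = 1
      simp
    · exfalso
      apply hnr1
      intro g
      rw [← starIrr_apply, h]
    · rw [← h, charDegree_starIrr]
    · exfalso
      rw [h, hv3'] at hval
      exact hneone hval.symm
  -- the arithmetic
  obtain ⟨x, hx⟩ : ∃ x, x = charDegree χ₁.1 := ⟨_, rfl⟩
  obtain ⟨q, hq⟩ : ∃ q, q = charDegree χ₃.1 := ⟨_, rfl⟩
  rw [hx12, ← hx] at hrel hid
  rw [← hq] at hrel hid ⊢
  have hx1 : 1 ≤ x := by rw [hx]; exact hd1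
  have hq2 : q = 2 * x + 1 := by
    push_cast at hrel
    omega
  subst hq2
  clear hq
  obtain ⟨I, hI⟩ : ∃ I, I = (Subgroup.centralizer ({J} : Set G)).index := ⟨_, rfl⟩
  rw [← hI] at hid
  obtain ⟨cP, hcP⟩ : ∃ c, c = Nat.card (Subgroup.centralizer ((P : Subgroup G) : Set G)) := ⟨_, rfl⟩
  rw [← hcP] at hr ⊢
  have hGc : Nat.card G = I * (r * cP) := by
    rw [hr, hI]
    exact (index_mul_card_centralizer J).symm
  rw [hGc, ← hr]
  -- the identity in ℕ
  have hkey : I * (x + 1) ^ 2 = (2 * r) ^ 2 * (x * (2 * x + 1)) := by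
    have hxQ : (x : ℚ) ≠ 0 := by
      have : x ≠ 0 := by omega
      exact_mod_cast this
    have hqQ : ((2 : ℚ) * x + 1) ≠ 0 := by
      have : (2 * x + 1 : ℕ) ≠ 0 := by omega
      exact_mod_cast this
    have h1 : (I : ℚ) * ((x : ℚ) + 1) ^ 2 = (2 * (r : ℚ)) ^ 2 * ((x : ℚ) * (2 * x + 1)) := by
      push_cast at hid
      have h2 : (I : ℚ) * (1 + ((1 : ℤ) : ℚ) ^ 3 / (x : ℚ) + ((1 : ℤ) : ℚ) ^ 3 / (x : ℚ) +
          ((-1 : ℤ) : ℚ) ^ 3 / (2 * (x : ℚ) + 1)) = 8 * (r : ℚ) ^ 2 := by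
        push_cast
        exact hid
      push_cast at h2
      field_simp at h2
      linear_combination (1 / 2) * h2
    exact_mod_cast h1
  -- divisibility
  have hcop1 : Nat.Coprime (x + 1) x := by
    have : Nat.Coprime x (x + 1) := by simp
    exact this.symm
  have hcop2 : Nat.Coprime (x + 1) (2 * x + 1) := by
    have h1 : Nat.gcd (x + 1) (2 * x + 1) ∣ 1 := by
      have h2 := Nat.gcd_dvd_left (x + 1) (2 * x + 1)
      have h3 := Nat.gcd_dvd_right (x + 1) (2 * x + 1)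
      have h4 : Nat.gcd (x + 1) (2 * x + 1) ∣ 2 * (x + 1) := Dvd.dvd.mul_left h2 2
      have h5 : 2 * (x + 1) = (2 * x + 1) + 1 := by ring
      rw [h5] at h4
      exact (Nat.dvd_add_right h3).mp h4
    exact Nat.dvd_one.mp h1
  have hcop : Nat.Coprime ((x + 1) ^ 2) (x * (2 * x + 1)) :=
    Nat.Coprime.pow_left 2 (Nat.Coprime.mul_right hcop1 hcop2)
  have hdvd : (x + 1) ^ 2 ∣ (2 * r) ^ 2 := by
    apply hcop.dvd_of_dvd_mul_right
    rw [← hkey]
    exact Dvd.intro_left I rfl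
  have hdvd' : x + 1 ∣ 2 * r := (Nat.pow_dvd_pow_iff (by norm_num)).mp hdvd
  obtain ⟨m, hm⟩ := hdvd'
  refine ⟨m, ?_, ?_⟩
  · calc 4 * (r * cP) = 2 * (2 * r) * cP := by ring
      _ = 2 * ((x + 1) * m) * cP := by rw [hm]
      _ = m * cP * (2 * x + 1 + 1) := by ring
  · have hI' : I = m ^ 2 * (x * (2 * x + 1)) := by
      have h1 : I * (x + 1) ^ 2 = (m ^ 2 * (x * (2 * x + 1))) * (x + 1) ^ 2 := by
        rw [hkey, hm]
        ring
      exact Nat.eq_of_mul_eq_mul_right (by positivity) h1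
    have hsub : (2 * x + 1) ^ 3 - (2 * x + 1) = 4 * x * (x + 1) * (2 * x + 1) := by
      apply Nat.sub_eq_of_eq_add
      ring
    rw [hsub, hI']
    calc 8 * (m ^ 2 * (x * (2 * x + 1)) * (r * cP))
        = 4 * (m ^ 2 * (x * (2 * x + 1))) * (2 * r) * cP := by ring
      _ = 4 * (m ^ 2 * (x * (2 * x + 1))) * ((x + 1) * m) * cP := by rw [hm]
      _ = m ^ 3 * cP * (4 * x * (x + 1) * (2 * x + 1)) := by ring

end Final

end Cfsg.Agent.H21
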