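import Cfsg.Agent.Lib.H21.BlockBasics
import Cfsg.Agent.Lib.H21.InflateBlocks
import Cfsg.Agent.Lib.H22.MaxPair2
import Cfsg.Agent.Lib.H22.KnorrStab
import Cfsg.Agent.Lib.H22.Osima2
import Cfsg.Agent.Lib.H22.Brauer2

/-!
# Defect groups of blocks of quotient groups
-/

set_option autoImplicit false
set_option linter.unusedSectionVars false
set_option linter.style.haveILetI false
set_option linter.unusedSimpArgs false

namespace Cfsg.Agent.H21

open scoped ComplexConjugate
open Cfsg Module Cfsg.Agent.H22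

universe u

variable {G : Type u} [Group G] [Finite G] {p : ℕ} [hp : Fact p.Prime] (N : Subgroup G) [hN : N.Normal]

theorem card_centralizer_fib (g : G) :
    Nat.card (Subgroup.centralizer ({g} : Set G)) * fibCount N g =
      Nat.card N * Nat.card (Subgroup.centralizer ({(g : G ⧸ N)} : Set (G ⧸ N))) := by
  have h1 := index_centralizer_eq_fibCount_mul N g
  have h2 := Subgroup.card_mul_index (Subgroup.centralizer ({g} : Set G))
  have h3 := Subgroup.card_mul_index (Subgroup.centralizer ({(g : G ⧸ N)} : Set (G ⧸ N)))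
  have h4 := Subgroup.card_mul_index N
  have h5 : N.index = Nat.card (G ⧸ N) := rfl
  set ib := (Subgroup.centralizer ({(g : G ⧸ N)} : Set (G ⧸ N))).index with hib
  have hpos : 0 < ib := Nat.pos_of_ne_zero Subgroup.index_ne_zero_of_finite
  apply Nat.eq_of_mul_eq_mul_right hpos
  calc Nat.card (Subgroup.centralizer ({g} : Set G)) * fibCount N g * ib
      = Nat.card (Subgroup.centralizer ({g} : Set G)) * (fibCount N g * ib) := by ring
    _ = Nat.card G := by rw [← h1, h2]
    _ = Nat.card N * (Nat.card (Subgroup.centralizer ({(g : G ⧸ N)} : Set (G ⧸ N))) * ib) := by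
        rw [h3, ← h5, h4]
    _ = _ := by ring

/-- If the fibre count is prime to `p`, the image of a Sylow `p`-subgroup of the centralizer is a
maximal `p`-subgroup of the centralizer in the quotient. -/
theorem map_sylow_max {g : G} (hfib : ¬ p ∣ fibCount N g)
    (T : Sylow p (Subgroup.centralizer ({g} : Set G))) :
    let S := (T : Subgroup (Subgroup.centralizer ({g} : Set G))).map
      (Subgroup.centralizer ({g} : Set G)).subtype
    S.map (QuotientGroup.mk' N) ≤ Subgroup.centralizer ({(g : G ⧸ N)} : Set (G ⧸ N)) ∧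
    IsPGroup p (S.map (QuotientGroup.mk' N)) ∧
    ∀ U : Subgroup (G ⧸ N), IsPGroup p U → S.map (QuotientGroup.mk' N) ≤ U →
      U ≤ Subgroup.centralizer ({(g : G ⧸ N)} : Set (G ⧸ N)) → U = S.map (QuotientGroup.mk' N) := by
  classical
  intro S
  have hScent : S ≤ Subgroup.centralizer ({g} : Set G) := by
    rintro _ ⟨t, _, rfl⟩
    exact t.2
  have hSp : IsPGroup p S := by
    have h1 : IsPGroup p T := T.isPGroup'
    exact h1.map _
  refine ⟨?_, hSp.map _, ?_⟩
  · rintro _ ⟨s, hs, rfl⟩
    have h1 := hScent hs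
    rw [mem_centralizer_singleton_iff] at h1 ⊢
    show (g : G ⧸ N) * (s : G ⧸ N) = (s : G ⧸ N) * (g : G ⧸ N)
    rw [← QuotientGroup.mk_mul, ← QuotientGroup.mk_mul, h1]
  · intro U hU hSU hUC
    set c := Nat.card (Subgroup.centralizer ({g} : Set G)) with hc
    set cb := Nat.card (Subgroup.centralizer ({(g : G ⧸ N)} : Set (G ⧸ N))) with hcb
    have hrel : c * fibCount N g = Nat.card N * cb := card_centralizer_fib N g
    have hfibpos : fibCount N g ≠ 0 := by
      intro h0
      apply hfib
      rw [h0]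
      exact dvd_zero p
    have hcne : c ≠ 0 := Nat.card_pos.ne'
    have hcbne : cb ≠ 0 := Nat.card_pos.ne'
    have hnne : Nat.card N ≠ 0 := Nat.card_pos.ne'
    have hval : c.factorization p = (Nat.card N).factorization p + cb.factorization p := by
      have h1 := congrArg (fun n => n.factorization p) hrel
      rw [Nat.factorization_mul hcne hfibpos, Nat.factorization_mul hnne hcbne] at h1
      simp only [Finsupp.add_apply] at h1
      rw [Nat.factorization_eq_zero_of_not_dvd hfib] at h1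
      omega
    -- the orders
    have hScard : Nat.card S = p ^ c.factorization p := by
      have h1 : Nat.card S = Nat.card T :=
        Nat.card_congr ((T : Subgroup (Subgroup.centralizer ({g} : Set G))).equivMapOfInjective _
          (Subgroup.subtype_injective _)).symm.toEquiv
      rw [h1]
      exact T.card_eq_multiplicity
    let f : S →* G ⧸ N := (QuotientGroup.mk' N).comp S.subtype
    have hrange : Nat.card f.range = Nat.card (S.map (QuotientGroup.mk' N)) := by
      have : f.range = S.map (QuotientGroup.mk' N) := by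
        ext x
        constructor
        · rintro ⟨s, rfl⟩
          exact ⟨s, s.2, rfl⟩
        · rintro ⟨s, hs, rfl⟩
          exact ⟨⟨s, hs⟩, rfl⟩
      rw [this]
    have hk1 : Nat.card f.ker * Nat.card f.range = Nat.card S := by
      rw [← Subgroup.index_ker f]
      exact Subgroup.card_mul_index f.ker
    have hkp : IsPGroup p f.ker := IsPGroup.to_subgroup hSp _
    obtain ⟨j, hj⟩ := (IsPGroup.iff_card).1 hkp
    have hkdvd : Nat.card f.ker ∣ Nat.card N := by
      have hle : f.ker.map S.subtype ≤ N := by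
        rintro _ ⟨s, hs, rfl⟩
        have h2 : f s = 1 := hs
        exact (QuotientGroup.eq_one_iff _).1 h2
      have h3 : Nat.card (f.ker.map S.subtype) = Nat.card f.ker :=
        Nat.card_congr (f.ker.equivMapOfInjective _ (Subgroup.subtype_injective _)).symm.toEquiv
      rw [← h3]
      exact Subgroup.card_dvd_of_le hle
    have hjle : j ≤ (Nat.card N).factorization p := by
      rw [hj] at hkdvd
      exact (hp.out.pow_dvd_iff_le_factorization hnne).1 hkdvd
    obtain ⟨m, hm⟩ := (IsPGroup.iff_card).1 hU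
    have hUC' : Nat.card U ∣ cb := Subgroup.card_dvd_of_le hUC
    have hmle : m ≤ cb.factorization p := by
      rw [hm] at hUC'
      exact (hp.out.pow_dvd_iff_le_factorization hcbne).1 hUC'
    obtain ⟨r, hr⟩ := (IsPGroup.iff_card).1 (hSp.map (QuotientGroup.mk' N))
    have hsum : j + r = c.factorization p := by
      have h2 : p ^ j * p ^ r = p ^ c.factorization p := by
        rw [← hj, ← hr, ← hrange, hk1, hScard]
      rw [← pow_add] at h2
      exact Nat.pow_right_injective hp.out.two_le h2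
    have hcards : Nat.card U ≤ Nat.card (S.map (QuotientGroup.mk' N)) := by
      rw [hm, hr]
      exact Nat.pow_le_pow_right hp.out.pos (by omega)
    exact (Subgroup.eq_of_le_of_card_ge hSU hcards).symm

variable {M : Ideal AlgInt}

/-- A block of the quotient contained in a block of the group: there is a class of the group
where all the data are units. -/
theorem exists_good_class [hMp : M.IsPrime] (hM : IsPModular p M) {B : Set (IrrCharacter G)}
    (χ : IrrCharacter (G ⧸ N)) (ψ : IrrCharacter G) (hψ : ψ.1 = χ.1 ∘ QuotientGroup.mk' N)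
    (hB : IsPBlock M B) (hmem : ψ ∈ B) :
    ∃ g : G, ¬ MemLocalIdeal M (blockCoeff B g) ∧ ¬ p ∣ fibCount N g ∧
      ¬ MemLocalIdeal M (cc (g : G ⧸ N) χ) := by
  classical
  haveI : Fintype (ConjClasses G) := Fintype.ofFinite _
  have h1 : om ψ (blockCoeff B) = 1 := by
    rw [blockCoeff_fun_eq, om_ofOm, eB_apply_mem hmem]
  have h2 := om_eq_sum_classes (blockCoeff B) (blockCoeff_isClass B) ψ
  by_contra hcon
  push Not at hcon
  apply not_mli_one (M := M)
  rw [← h1, h2]
  refine mli_sum _ _ ?_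
  intro C _
  set g := C.out with hg
  by_cases h3 : MemLocalIdeal M (blockCoeff B g)
  · exact mli_mul_right h3 (cc_mlr _ _)
  · refine mli_mul_left ?_ (blockCoeff_mlr hB _)
    have h4 : cc g ψ = (fibCount N g : ℂ) * cc (g : G ⧸ N) χ := by
      show centralChar ψ.1 g = _
      rw [hψ, centralChar_inflate]
      rfl
    rw [h4]
    by_cases h5 : p ∣ fibCount N g
    · exact mli_mul_right (mli_natCast_of_dvd hM h5) (cc_mlr _ _)
    · exact mli_mul_left (hcon g h3 h5) (mlr_natCast _)

theorem quot_defect_main [hMp : M.IsPrime] (hM : IsPModular p M)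
    {Bbar : Set (IrrCharacter (G ⧸ N))} (hBbar : IsPBlock M Bbar)
    {B : Set (IrrCharacter G)} (hB : IsPBlock M B)
    (hsub : ∀ χ ∈ Bbar, ∀ ψ : IrrCharacter G, ψ.1 = χ.1 ∘ QuotientGroup.mk' N → ψ ∈ B)
    {Dbar : Subgroup (G ⧸ N)} (hDbar : IsDefectGroup p M Bbar Dbar) :
    ∃ P : Subgroup G, IsDefectGroup p M B P ∧ Dbar ≤ P.map (QuotientGroup.mk' N) := by
  classical
  obtain ⟨χ, hχ⟩ := block_nonempty hBbar
  let ψ : IrrCharacter G := ⟨χ.1 ∘ QuotientGroup.mk' N, isIrr_inflate N χ.2⟩
  have hψ : ψ ∈ B := hsub χ hχ ψ rfl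
  obtain ⟨g, hg1, hg2, hg3⟩ := exists_good_class N hM χ ψ rfl hB hψ
  obtain ⟨T⟩ : Nonempty (Sylow p (Subgroup.centralizer ({g} : Set G))) := inferInstance
  obtain ⟨h1, h2, h3⟩ := map_sylow_max N hg2 T
  set S := (T : Subgroup (Subgroup.centralizer ({g} : Set G))).map
    (Subgroup.centralizer ({g} : Set G)).subtype with hS
  have hsc1 := subConj_of_cc hM hBbar hDbar hχ hg3 h2 h1 h3
  obtain ⟨D, hD⟩ : ∃ D, IsDefectGroup p M B D := isDefectGroup_exists hB
  have hSp : IsPGroup p S := T.isPGroup'.map _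
  have hSg : S ≤ Subgroup.centralizer ({g} : Set G) := by
    rintro _ ⟨t, _, rfl⟩
    exact t.2
  have hsc2 := subConj_defect_of_coeff hM hB hD hg1 hSp hSg
  obtain ⟨a, ha⟩ := hsc1
  obtain ⟨y, hy⟩ := hsc2
  obtain ⟨a', rfl⟩ := QuotientGroup.mk'_surjective N a
  refine ⟨cq (y * a')⁻¹ D, isDefectGroup_cq _ hD, ?_⟩
  intro d hd
  obtain ⟨s, hs, hsd⟩ := ha d hd
  refine ⟨(y * a')⁻¹ * (y * s * y⁻¹) * (y * a'), ?_, ?_⟩
  · refine ⟨y * s * y⁻¹, hy s hs, ?_⟩
    simp [MulAut.conj_apply]
    group
  · have h5 : (QuotientGroup.mk' N) s = QuotientGroup.mk' N a' * d * (QuotientGroup.mk' N a')⁻¹ := hsd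
    simp only [map_mul, map_inv, h5]
    group

open scoped Classical in
/-- Data of a block idempotent pushed to the quotient. -/
noncomputable def pushCoeff (a : G → ℂ) (q : G ⧸ N) : ℂ :=
  ∑ y : G, if (y : G ⧸ N) = q then a y else 0

theorem pushCoeff_isClass {a : G → ℂ} (ha : IsClassFunction G a) :
    IsClassFunction (G ⧸ N) (pushCoeff N a) := by
  classical
  intro q t
  obtain ⟨t', rfl⟩ := QuotientGroup.mk'_surjective N t
  unfold pushCoeff
  refine Finset.sum_equiv (MulAut.conj t'⁻¹).toEquiv (by simp) ?_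
  intro y _
  have h0 : (MulAut.conj t'⁻¹).toEquiv y = t'⁻¹ * y * t' := by
    simp [MulAut.conj_apply]
  rw [h0]
  have h1 : a (t'⁻¹ * y * t') = a y := by
    have := ha y t'⁻¹
    simpa using this
  have h2 : ((t'⁻¹ * y * t' : G) : G ⧸ N) = q ↔
      (y : G ⧸ N) = (QuotientGroup.mk' N t') * q * (QuotientGroup.mk' N t')⁻¹ := by
    show QuotientGroup.mk' N (t'⁻¹ * y * t') = q ↔ QuotientGroup.mk' N y = _
    rw [map_mul, map_mul, map_inv]
    constructor
    · intro h
      rw [← h]
      group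
    · intro h
      rw [h]
      group
  by_cases h3 : (y : G ⧸ N) = (QuotientGroup.mk' N t') * q * (QuotientGroup.mk' N t')⁻¹
  · rw [if_pos h3, if_pos (h2.2 h3), h1]
  · rw [if_neg h3, if_neg (fun h => h3 (h2.1 h))]

theorem om_pushCoeff (a : G → ℂ) (χ : IrrCharacter (G ⧸ N)) :
    om χ (pushCoeff N a) =
      om (⟨χ.1 ∘ QuotientGroup.mk' N, isIrr_inflate N χ.2⟩ : IrrCharacter G) a := by
  classical
  unfold om pushCoeff
  have h1 : (⟨χ.1 ∘ QuotientGroup.mk' N, isIrr_inflate N χ.2⟩ : IrrCharacter G).1 1 = χ.1 1 := by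
    show χ.1 (QuotientGroup.mk' N 1) = _
    rw [map_one]
  rw [h1]
  congr 1
  simp only [Finset.sum_mul]
  rw [Finset.sum_comm]
  refine Finset.sum_congr rfl ?_
  intro y _
  rw [Finset.sum_eq_single (y : G ⧸ N)]
  · simp only [if_true]
    rfl
  · intro q _ hq
    rw [if_neg (Ne.symm hq), zero_mul]
  · simp

theorem exists_block_of_sat {K : Type*} [Group K] [Finite K] [hMp : M.IsPrime]
    {S : Set (IrrCharacter K)} (hS : BlockSat M S) {g : K}
    (hg : ¬ MemLocalIdeal M (blockCoeff S g)) :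
    ∃ f : Set (IrrCharacter K), IsPBlock M f ∧ f ⊆ S ∧ ¬ MemLocalIdeal M (blockCoeff f g) := by
  classical
  haveI : Fintype (IrrCharacter K) := Fintype.ofFinite _
  let T := (blocksF M K).filter (fun f => f ⊆ S)
  have h1 : eB S = ∑ f ∈ T, eB f := by
    funext χ
    rw [Finset.sum_apply]
    by_cases hχ : χ ∈ S
    · rw [eB_apply_mem hχ, Finset.sum_eq_single (blockOf M χ.1)]
      · rw [eB_apply_mem (self_mem_blockOf χ)]
      · intro f hf hne
        have hfb : IsPBlock M f := mem_blocksF.1 (Finset.mem_filter.1 hf).1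
        apply eB_apply_not_mem
        intro hcf
        apply hne
        exact block_eq_of_mem hfb hcf
      · intro h2
        exfalso
        apply h2
        refine Finset.mem_filter.2 ⟨mem_blocksF.2 (isBlock_blockOf χ), ?_⟩
        intro ψ hψ
        exact hS χ ψ hψ hχ
    · rw [eB_apply_not_mem hχ]
      symm
      apply Finset.sum_eq_zero
      intro f hf
      apply eB_apply_not_mem
      intro hcf
      exact hχ ((Finset.mem_filter.1 hf).2 hcf)
  by_contra hcon
  push Not at hcon
  apply hg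
  have h2 : blockCoeff S g = ∑ f ∈ T, blockCoeff f g := by
    rw [blockCoeff_eq_ofOm, h1]
    have : ∀ (T : Finset (Set (IrrCharacter K))), ofOm (∑ f ∈ T, eB f) g = ∑ f ∈ T, ofOm (eB f) g := by
      intro T
      induction T using Finset.induction_on with
      | empty =>
        simp only [Finset.sum_empty]
        rw [ofOm_zero]
        rfl
      | insert a s ha ih =>
        rw [Finset.sum_insert ha, Finset.sum_insert ha, ofOm_add, Pi.add_apply, ih]
    rw [this]
    refine Finset.sum_congr rfl fun f _ => ?_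
    exact (blockCoeff_eq_ofOm f g).symm
  rw [h2]
  refine mli_sum _ _ ?_
  intro f hf
  have hf' := Finset.mem_filter.1 hf
  exact hcon f (mem_blocksF.1 hf'.1) hf'.2

/-- The block of the quotient contained in a given block, `N` a normal `p`-subgroup. -/
theorem quot_block_main [hMp : M.IsPrime] (hM : IsPModular p M) (hNp : IsPGroup p N)
    {B : Set (IrrCharacter G)} (hB : IsPBlock M B) :
    ∃ Bbar : Set (IrrCharacter (G ⧸ N)), IsPBlock M Bbar ∧
      (∀ χ ∈ Bbar, ∀ ψ : IrrCharacter G, ψ.1 = χ.1 ∘ QuotientGroup.mk' N → ψ ∈ B) ∧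
      ∀ Dbar : Subgroup (G ⧸ N), IsDefectGroup p M Bbar Dbar ↔
        ∃ P : Subgroup G, IsDefectGroup p M B P ∧ Dbar = P.map (QuotientGroup.mk' N) := by
  classical
  obtain ⟨P₀, hP₀⟩ : ∃ D, IsDefectGroup p M B D := isDefectGroup_exists hB
  have hNP : N ≤ P₀ := normal_le_defect hM hNp hB hP₀
  obtain ⟨g, ⟨-, hg1, -⟩, T, hT⟩ := id hP₀
  have hg0 : blockCoeff B g ≠ 0 := by
    intro h
    apply hg1
    rw [h]
    exact (locI M).zero_mem
  have hreg : ¬ p ∣ orderOf g := fun h => hg0 (blockCoeff_eq_zero_of_singular hM hB h)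
  have hNg : g ∈ Subgroup.centralizer (N : Set G) := by
    apply le_centralizer_singleton_iff.1
    refine hNP.trans ?_
    rw [hT]
    rintro _ ⟨t, _, rfl⟩
    exact t.2
  have hfib : fibCount N g = 1 := fibCount_eq_one hNp hNg hreg
  have hfib' : ¬ p ∣ fibCount N g := by
    rw [hfib]
    exact hp.out.one_lt.ne' ∘ Nat.dvd_one.1
  obtain ⟨h1, h2, h3⟩ := map_sylow_max N hfib' T
  rw [← hT] at h1 h2 h3
  -- the set of inflations lying in `B`
  let Sb : Set (IrrCharacter (G ⧸ N)) :=
    {χ | (⟨χ.1 ∘ QuotientGroup.mk' N, isIrr_inflate N χ.2⟩ : IrrCharacter G) ∈ B}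
  have hSat : BlockSat M Sb := by
    intro χ ψ hχψ hχ
    have h4 := sameBlock_inflate (M := M) N hχψ
    exact blockSat_of_isBlock hB ⟨χ.1 ∘ QuotientGroup.mk' N, isIrr_inflate N χ.2⟩
      ⟨ψ.1 ∘ QuotientGroup.mk' N, isIrr_inflate N ψ.2⟩ h4 hχ
  have hpush : pushCoeff N (blockCoeff B) = blockCoeff Sb := by
    rw [← ofOm_om _ (pushCoeff_isClass N (blockCoeff_isClass B)), blockCoeff_fun_eq Sb]
    congr 1
    funext χ
    rw [om_pushCoeff, blockCoeff_fun_eq, om_ofOm]
    by_cases hχ : χ ∈ Sb
    · rw [eB_apply_mem hχ]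
      exact eB_apply_mem hχ
    · rw [eB_apply_not_mem hχ]
      exact eB_apply_not_mem hχ
  have hval : blockCoeff Sb (g : G ⧸ N) = blockCoeff B g := by
    rw [← hpush]
    unfold pushCoeff
    rw [Finset.sum_eq_single g]
    · simp
    · intro y _ hy
      by_cases hq : (y : G ⧸ N) = (g : G ⧸ N)
      · rw [if_pos hq]
        apply blockCoeff_eq_zero_of_singular hM hB
        by_contra hy'
        apply hy
        have hn : g⁻¹ * y ∈ N := QuotientGroup.eq.1 hq.symm
        have hcomm : Commute g (g⁻¹ * y) := by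
          have := hNg (g⁻¹ * y) hn
          exact this.symm
        have hcy : Commute g⁻¹ y := by
          have h5 : Commute g⁻¹ (g⁻¹ * y) := hcomm.inv_left
          have h6 : y = g * (g⁻¹ * y) := by group
          rw [h6]
          exact (Commute.inv_left (Commute.refl g)).mul_right h5
        have h7 : orderOf (g⁻¹ * y) ∣ (orderOf g⁻¹ * orderOf y) := hcy.orderOf_mul_dvd_mul_orderOf
        have h8 : ¬ p ∣ orderOf (g⁻¹ * y) := by
          intro h9
          rw [orderOf_inv] at h7
          rcases (Nat.Prime.dvd_mul hp.out).1 (h9.trans h7) with h10 | h10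
          · exact hreg h10
          · exact hy' h10
        obtain ⟨k, hk⟩ := (IsPGroup.iff_orderOf).1 hNp ⟨_, hn⟩
        have h11 : orderOf (g⁻¹ * y) = p ^ k := by
          rw [← hk]
          exact (Subgroup.orderOf_mk _ hn).symm
        have h12 : k = 0 := by
          by_contra hk0
          apply h8
          rw [h11]
          exact dvd_pow_self p hk0
        rw [h12, pow_zero, orderOf_eq_one_iff] at h11
        have := eq_of_inv_mul_eq_one h11
        exact this.symm
      · rw [if_neg hq]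
    · simp
  have hSbg : ¬ MemLocalIdeal M (blockCoeff Sb (g : G ⧸ N)) := by
    rw [hval]
    exact hg1
  obtain ⟨Bb, hBb, hBbS, hBbg⟩ := exists_block_of_sat hSat hSbg
  have hsub : ∀ χ ∈ Bb, ∀ ψ : IrrCharacter G, ψ.1 = χ.1 ∘ QuotientGroup.mk' N → ψ ∈ B := by
    intro χ hχ ψ hψ
    have h4 := hBbS hχ
    have h5 : ψ = (⟨χ.1 ∘ QuotientGroup.mk' N, isIrr_inflate N χ.2⟩ : IrrCharacter G) :=
      Subtype.ext hψ
    rw [h5]
    exact h4
  have hP₀conj : ∀ {P : Subgroup G}, IsDefectGroup p M B P →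
      Nat.card (P.map (QuotientGroup.mk' N)) = Nat.card (P₀.map (QuotientGroup.mk' N)) := by
    intro P hP
    obtain ⟨x, rfl⟩ := exists_conj_defect hM hB hP₀ hP
    have h4 : (cq x P₀).map (QuotientGroup.mk' N) =
        cq (QuotientGroup.mk' N x) (P₀.map (QuotientGroup.mk' N)) := by
      ext q
      constructor
      · rintro ⟨_, ⟨d, hd, rfl⟩, rfl⟩
        refine ⟨QuotientGroup.mk' N d, ⟨d, hd, rfl⟩, ?_⟩
        simp [MulAut.conj_apply]
      · rintro ⟨_, ⟨d, hd, rfl⟩, rfl⟩
        refine ⟨(MulAut.conj x).toMonoidHom d, ⟨d, hd, rfl⟩, ?_⟩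
        simp [MulAut.conj_apply]
    rw [h4]
    exact Nat.card_congr (((P₀.map (QuotientGroup.mk' N)).equivMapOfInjective _
      (MulAut.conj (QuotientGroup.mk' N x)).injective).symm.toEquiv)
  have hdir : ∀ Dbar : Subgroup (G ⧸ N), IsDefectGroup p M Bb Dbar →
      ∃ P : Subgroup G, IsDefectGroup p M B P ∧ Dbar = P.map (QuotientGroup.mk' N) := by
    intro Dbar hDbar
    obtain ⟨P, hP, hle⟩ := quot_defect_main N hM hBb hB hsub hDbar
    refine ⟨P, hP, ?_⟩
    have hsc := subConj_defect_of_coeff hM hBb hDbar hBbg h2 h1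
    obtain ⟨x, hx⟩ := hsc
    have hcard : Nat.card (P₀.map (QuotientGroup.mk' N)) ≤ Nat.card Dbar := by
      have h5 : (P₀.map (QuotientGroup.mk' N)).map (MulAut.conj x).toMonoidHom ≤ Dbar := by
        rintro _ ⟨s, hs, rfl⟩
        exact hx s hs
      have h6 := Subgroup.card_le_of_le h5
      have h7 : Nat.card ((P₀.map (QuotientGroup.mk' N)).map (MulAut.conj x).toMonoidHom) =
          Nat.card (P₀.map (QuotientGroup.mk' N)) :=
        Nat.card_congr (((P₀.map (QuotientGroup.mk' N)).equivMapOfInjective _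
          (MulAut.conj x).injective).symm.toEquiv)
      rwa [h7] at h6
    refine Subgroup.eq_of_le_of_card_ge hle ?_
    rw [hP₀conj hP]
    exact hcard
  refine ⟨Bb, hBb, hsub, ?_⟩
  intro Dbar
  refine ⟨hdir Dbar, ?_⟩
  rintro ⟨P, hP, rfl⟩
  obtain ⟨D₀, hD₀⟩ : ∃ D, IsDefectGroup p M Bb D := isDefectGroup_exists hBb
  obtain ⟨P', hP', rfl⟩ := hdir D₀ hD₀
  obtain ⟨x, rfl⟩ := exists_conj_defect hM hB hP' hP
  have h4 : (cq x P').map (QuotientGroup.mk' N) =
      cq (QuotientGroup.mk' N x) (P'.map (QuotientGroup.mk' N)) := by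
    ext q
    constructor
    · rintro ⟨_, ⟨d, hd, rfl⟩, rfl⟩
      refine ⟨QuotientGroup.mk' N d, ⟨d, hd, rfl⟩, ?_⟩
      simp [MulAut.conj_apply]
    · rintro ⟨_, ⟨d, hd, rfl⟩, rfl⟩
      refine ⟨(MulAut.conj x).toMonoidHom d, ⟨d, hd, rfl⟩, ?_⟩
      simp [MulAut.conj_apply]
  rw [h4]
  exact isDefectGroup_cq _ hD₀

end Cfsg.Agent.H21
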