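import Cfsg.Agent.Lib.H21.SelfCent

/-!
`G'/O_{p'}(G)` is simple when `x` is self-centralizing of prime order and not all classes of
elements of order `p` are distinct.
-/

set_option autoImplicit false
set_option linter.style.haveILetI false
set_option linter.unusedSectionVars false

namespace Cfsg.Agent.H21

open Subgroup
open scoped Pointwise commutatorElement

namespace SelfCent

variable {G : Type*} [Group G] [Finite G] {p : ℕ} {x : G}

theorem not_dvd_pPrimeCore (h : SelfCent p x) : ¬ p ∣ Nat.card (Cfsg.pPrimeCore p G) := by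
  have := card_pPrimeCore_coprime (G := G) p
  exact (Nat.Prime.coprime_iff_not_dvd h.prime).1 this.symm

theorem simple_quot (h : SelfCent p x)
    (he : (zpowers x).relIndex (normalizer (zpowers x : Set G)) ≠ 1)
    [hn : ((Cfsg.pPrimeCore p G).subgroupOf (commutator G)).Normal] :
    IsSimpleGroup (↥(commutator G) ⧸ (Cfsg.pPrimeCore p G).subgroupOf (commutator G)) := by
  haveI : Fact p.Prime := ⟨h.prime⟩
  set A := commutator G with hAdef
  set Sc := Cfsg.pPrimeCore p G with hSc
  haveI hScn : Sc.Normal := pPrimeCore_isNormal p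
  have hScd : ¬ p ∣ Nat.card Sc := h.not_dvd_pPrimeCore
  have hxA : x ∈ A := h.zpowers_le_commutator he (mem_zpowers x)
  have hxSc : x ∉ Sc := fun hx => h.x_ne_one (h.zpowers_disjoint hScd hx (mem_zpowers x))
  set Q := ↥A ⧸ Sc.subgroupOf A with hQ
  let x' : A := ⟨x, hxA⟩
  have h' : SelfCent p x' := h.subtype A hxA
  have hne : ((x' : A) : Q) ≠ 1 := by
    intro e
    exact hxSc ((Subgroup.mem_subgroupOf).1 ((QuotientGroup.eq_one_iff _).1 e))
  by_cases hD : p ∣ Nat.card (⁅A, A⁆ : Subgroup G)
  · have hAle : A ≤ ⁅A, A⁆ := h.commutator_le_of_dvd hD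
    have hAtop : commutator A = ⊤ := by
      rw [eq_top_iff]
      intro a _
      have : (a : G) ∈ (commutator A).map A.subtype := by
        rw [Subgroup.map_subtype_commutator]
        exact hAle a.2
      obtain ⟨b, hb, hba⟩ := this
      have : b = a := Subtype.ext hba
      rwa [← this]
    haveI : Nontrivial Q := ⟨⟨((x' : A) : Q), 1, hne⟩⟩
    refine ⟨?_⟩
    intro L hL
    let T : Subgroup A := L.comap (QuotientGroup.mk' (Sc.subgroupOf A))
    haveI hTn : T.Normal := inferInstance
    by_cases hT : p ∣ Nat.card T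
    · right
      have h1 : commutator A ≤ T := h'.commutator_le_of_dvd hT
      rw [hAtop] at h1
      rw [eq_top_iff]
      intro q _
      obtain ⟨a, rfl⟩ := QuotientGroup.mk_surjective q
      exact h1 (mem_top a)
    · left
      have h1 : T ≤ Cfsg.pPrimeCore p A := by
        apply le_pPrimeCore hTn
        exact ((Nat.Prime.coprime_iff_not_dvd h.prime).2 hT).symm
      have h2 : (Cfsg.pPrimeCore p A).map A.subtype ≤ Sc := map_pPrimeCore_le
      rw [eq_bot_iff]
      intro q hq
      obtain ⟨a, rfl⟩ := QuotientGroup.mk_surjective q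
      have h3 : a ∈ T := hq
      have h4 : (a : G) ∈ Sc := h2 (Subgroup.mem_map_of_mem _ (h1 h3))
      rw [Subgroup.mem_bot, QuotientGroup.eq_one_iff, Subgroup.mem_subgroupOf]
      exact h4
  · haveI : (⁅A, A⁆ : Subgroup G).Normal := inferInstance
    have hle : (⁅A, A⁆ : Subgroup G) ≤ Sc :=
      le_pPrimeCore inferInstance ((Nat.Prime.coprime_iff_not_dvd h.prime).2 hD).symm
    have hgen : ∀ q : Q, q ∈ zpowers ((x' : A) : Q) := by
      intro q
      obtain ⟨a, rfl⟩ := QuotientGroup.mk_surjective q
      obtain ⟨k, hk⟩ := h.mem_sup_of_derived hScd hle hxA a.2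
      refine ⟨k, ?_⟩
      show (((x' : A) : Q)) ^ k = a
      rw [← QuotientGroup.mk_zpow, QuotientGroup.eq, Subgroup.mem_subgroupOf]
      simpa using hk
    have hord : orderOf ((x' : A) : Q) = p := by
      apply orderOf_eq_prime
      · rw [← QuotientGroup.mk_pow, ← h'.order, pow_orderOf_eq_one, QuotientGroup.mk_one]
      · exact hne
    have hcard : Nat.card Q = p := by
      rw [← orderOf_eq_card_of_forall_mem_zpowers hgen, hord]
    exact isSimpleGroup_of_prime_card hcard

end SelfCent

end Cfsg.Agent.H21
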