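import Cfsg.Agent.Lib.H21.RegProj
import Cfsg.Agent.Lib.H21.GlaubCore
import Cfsg.Agent.Lib.H21.ModP
import Cfsg.Agent.Lib.H22.DefectZero
import Cfsg.Agent.Lib.H22.Osima2
import Cfsg.Agent.Lib.H22.Brauer2

/-!
# Principal blocks with small defect; characters of prime-power degree in `{p,q,r}`-groups
-/

set_option autoImplicit false
set_option linter.unusedSectionVars false
set_option linter.style.haveILetI false
set_option linter.unusedSimpArgs false

namespace Cfsg.Agent.H21

open scoped ComplexConjugate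
open Cfsg Module Cfsg.Agent.H22

universe u

variable {G : Type u} [Group G] [Finite G]

/-- If a character has `crt = 1` it vanishes on `p`-singular elements. -/
theorem vanish_of_crt_int {p : ℕ} [hp : Fact p.Prime] (χ : IrrCharacter G) {m : ℤ}
    (h : crt p χ χ = m) {y : G} (hy : p ∣ orderOf y) : χ.1 y = 0 := by
  classical
  have hGpos : (0 : ℝ) < (Nat.card G : ℝ) := by exact_mod_cast Nat.card_pos
  set f : G → ℝ := fun g => ‖χ.1 g‖ ^ 2 with hf
  set fr : G → ℝ := fun g => if p ∣ orderOf g then 0 else ‖χ.1 g‖ ^ 2 with hfr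
  have hconj : ∀ g, χ.1 g * conj (χ.1 g) = ((f g : ℝ) : ℂ) := by
    intro g
    rw [Complex.mul_conj, Complex.normSq_eq_norm_sq]
  have hall : ∑ g, f g = (Nat.card G : ℝ) := by
    have h1 := classInner_irr χ χ
    rw [if_pos rfl] at h1
    unfold classInner at h1
    simp only [hconj] at h1
    have h2 : (∑ g, ((f g : ℝ) : ℂ)) = (Nat.card G : ℂ) := by
      have h0 : (Nat.card G : ℂ) ≠ 0 := by exact_mod_cast hGpos.ne'
      field_simp at h1
      linear_combination h1
    have h3 : ((∑ g, f g : ℝ) : ℂ) = ((Nat.card G : ℝ) : ℂ) := by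
      push_cast
      rw [← h2]
    exact_mod_cast h3
  have hreg : ∑ g, fr g = (m : ℝ) * (Nat.card G : ℝ) := by
    have h1 := crt_eq_sum p χ χ
    rw [h] at h1
    have h2 : ∀ g, rp p χ.1 g * conj (χ.1 g) = ((fr g : ℝ) : ℂ) := by
      intro g
      by_cases hg : p ∣ orderOf g
      · rw [rp_of_sing _ hg]
        simp [hfr, hg]
      · rw [rp_of_reg _ hg, hconj]
        simp [hfr, hg, hf]
    simp only [h2] at h1
    have h0 : (Nat.card G : ℂ) ≠ 0 := by exact_mod_cast hGpos.ne'
    field_simp at h1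
    have h3 : (((m : ℝ) * (Nat.card G : ℝ) : ℝ) : ℂ) = ((∑ g, fr g : ℝ) : ℂ) := by
      push_cast
      linear_combination h1
    exact_mod_cast h3.symm
  have hle : ∀ g, fr g ≤ f g := by
    intro g
    simp only [hfr, hf]
    split_ifs
    · positivity
    · exact le_rfl
  have hfr0 : ∀ g, 0 ≤ fr g := by
    intro g
    simp only [hfr]
    split_ifs
    · exact le_rfl
    · positivity
  have hsum_le : ∑ g, fr g ≤ ∑ g, f g := Finset.sum_le_sum fun g _ => hle g
  have hpos1 : 0 < fr 1 := by
    simp only [hfr]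
    rw [if_neg (by simpa using hp.out.one_lt.ne')]
    have := irr_one_ne_zero' χ
    positivity
  have hsum_pos : 0 < ∑ g, fr g :=
    lt_of_lt_of_le hpos1 (Finset.single_le_sum (fun g _ => hfr0 g) (Finset.mem_univ 1))
  have hm1 : m = 1 := by
    have h1 : (0 : ℝ) < m := by
      rw [hreg] at hsum_pos
      exact (pos_iff_pos_of_mul_pos hsum_pos).2 hGpos
    have h2 : (m : ℝ) ≤ 1 := by
      rw [hreg, hall] at hsum_le
      exact le_of_mul_le_mul_right (by simpa using hsum_le) hGpos
    have h3 : 0 < m := by exact_mod_cast h1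
    have h4 : m ≤ 1 := by exact_mod_cast h2
    omega
  have heq : ∑ g, fr g = ∑ g, f g := by
    rw [hreg, hall, hm1]
    simp
  have hall_eq := (Finset.sum_eq_sum_iff_of_le (fun g _ => hle g)).1 heq y (Finset.mem_univ y)
  simp only [hfr, hf] at hall_eq
  rw [if_pos hy] at hall_eq
  have h5 : ‖χ.1 y‖ ^ 2 = 0 := hall_eq.symm
  simpa using h5

/-- With `|G|_p ≤ p²` the characters of the principal `p`-block have degree prime to `p`. -/
theorem principal_pprime_of_small {p : ℕ} [hp : Fact p.Prime] {M : Ideal AlgInt} [M.IsPrime]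
    (hM : IsPModular p M) (ha : (Nat.card G).factorization p ≤ 2) {χ : IrrCharacter G}
    (hχ : χ ∈ principalBlock M G) : ¬ p ∣ charDegree χ.1 := by
  classical
  intro hdvd
  have hB : IsPBlock M (principalBlock M G) := principalBlock_isBlock
  obtain ⟨n, hn⟩ := crt_int (p := p) χ χ
  have hv1 : 1 ≤ (charDegree χ.1).factorization p :=
    (Nat.Prime.dvd_iff_one_le_factorization hp.out (irr_charDegree_pos χ.2).ne').1 hdvd
  have hmin : minExp p (principalBlock M G) = 0 := by
    have h1 := minExp_le (p := p) (oneIrr_mem_principal (M := M) (G := G))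
    have h2 : charDegree (oneIrr G).1 = 1 := by
      have h3 := one_eq_charDegree (isCharacter_of_irr (oneIrr G).2)
      have h4 : (oneIrr G).1 1 = 1 := rfl
      rw [h4] at h3
      exact_mod_cast h3.symm
    rw [h2] at h1
    simpa using h1
  have h2 := tilde_exact hM hB hχ hχ hn
  have h3 : (p : ℤ) ^ ((charDegree χ.1).factorization p + 1) ∣ n := by
    by_contra h
    have := h2.2 h
    omega
  have h4 : (p : ℤ) ^ (Nat.card G).factorization p ∣ n :=
    (pow_dvd_pow _ (by omega)).trans h3
  obtain ⟨m, hm⟩ := h4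
  have h5 : crt p χ χ = m := by
    have h0 : ((p ^ (Nat.card G).factorization p : ℕ) : ℂ) ≠ 0 := by
      exact_mod_cast (pow_pos hp.out.pos _).ne'
    apply mul_left_cancel₀ h0
    rw [hn, hm]
    push_cast
    ring
  have hvan : ∀ y : G, p ∣ orderOf y → χ.1 y = 0 := fun y hy => vanish_of_crt_int χ h5 hy
  have hd0 := card_sylow_dvd_degree_of_vanish χ hvan
  have hs : SameBlock M χ.1 (oneIrr G).1 :=
    block_sameBlock hB hχ oneIrr_mem_principal
  have heq := eq_of_mem_block_of_defect_zero hM χ hd0 hs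
  have h6 : charDegree χ.1 = 1 := by
    have h3 := one_eq_charDegree (isCharacter_of_irr χ.2)
    rw [← heq] at h3 ⊢
    have h4 : (oneIrr G).1 1 = 1 := rfl
    rw [h4] at h3
    exact_mod_cast h3.symm
  rw [h6] at hdvd
  exact hp.out.one_lt.ne' (Nat.dvd_one.1 hdvd)

/-- Brauer: when a prime `s` divides `|G|`, for each prime `t` the principal `s`-block has a
non-principal character of degree prime to `t`. -/
theorem exists_principal_coprime {s t : ℕ} [hs : Fact s.Prime] (ht : t.Prime) {M : Ideal AlgInt}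
    [M.IsPrime] (hM : IsPModular s M) (hsG : s ∣ Nat.card G) :
    ∃ χ ∈ principalBlock M G, χ ≠ oneIrr G ∧ ¬ t ∣ charDegree χ.1 := by
  classical
  by_contra hcon
  push Not at hcon
  obtain ⟨y, hy⟩ := exists_prime_orderOf_dvd_card' s hsG
  have hx : ¬ s ∣ orderOf (1 : G) := by simpa using hs.out.one_lt.ne'
  have hy' : s ∣ orderOf y := by rw [hy]
  have h := block_orth_regular_singular hM (principalBlock_isBlock (M := M) (G := G)) hx hy'
  rw [← Finset.add_sum_erase _ _ (Finset.mem_univ (oneIrr G))] at h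
  rw [eB_apply_mem oneIrr_mem_principal] at h
  have h1 : (oneIrr G).1 1 = 1 := rfl
  have h2 : (oneIrr G).1 y = 1 := rfl
  rw [h1, h2] at h
  simp only [map_one, one_mul] at h
  -- each remaining term is divisible by `t`
  have hdiv : ∀ χ : IrrCharacter G, ∃ w : ℂ, IsIntegral ℤ w ∧
      eB (principalBlock M G) χ * (χ.1 1 * conj (χ.1 y)) = if χ = oneIrr G then
        eB (principalBlock M G) χ * (χ.1 1 * conj (χ.1 y)) else (t : ℂ) * w := by
    intro χ
    by_cases hχ1 : χ = oneIrr G
    · exact ⟨0, isIntegral_zero, by rw [if_pos hχ1]⟩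
    simp only [if_neg hχ1]
    by_cases hχ : χ ∈ principalBlock M G
    · obtain ⟨d, hd⟩ := hcon χ hχ hχ1
      refine ⟨(d : ℂ) * conj (χ.1 y), ?_, ?_⟩
      · refine IsIntegral.mul ?_ ?_
        · simpa using isIntegral_algebraMap (R := ℤ) (A := ℂ) (x := (d : ℤ))
        · rw [← irr_inv']
          exact irr_isIntegral' χ _
      · rw [eB_apply_mem hχ, one_eq_charDegree (isCharacter_of_irr χ.2), hd]
        push_cast
        ring
    · exact ⟨0, isIntegral_zero, by rw [eB_apply_not_mem hχ]; simp⟩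
  choose w hw hwe using hdiv
  have h3 : ∑ χ ∈ Finset.univ.erase (oneIrr G),
      eB (principalBlock M G) χ * (χ.1 1 * conj (χ.1 y)) =
      (t : ℂ) * ∑ χ ∈ Finset.univ.erase (oneIrr G), w χ := by
    rw [Finset.mul_sum]
    refine Finset.sum_congr rfl fun χ hχ => ?_
    rw [hwe χ, if_neg (Finset.ne_of_mem_erase hχ)]
  rw [h3] at h
  have h4 : ((-1 : ℤ) : ℂ) = (t : ℂ) * ∑ χ ∈ Finset.univ.erase (oneIrr G), w χ := by
    push_cast
    linear_combination -h
  have h5 := p_dvd_of_eq_mul ht (-1) _ (IsIntegral.sum _ fun χ _ => hw χ) h4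
  have h6 : (t : ℤ) ∣ 1 := by simpa using h5
  have h7 : t ∣ 1 := by exact_mod_cast h6
  exact ht.one_lt.ne' (Nat.dvd_one.1 h7)

theorem charDegree_oneIrr : charDegree (oneIrr G).1 = 1 := by
  have h3 := one_eq_charDegree (isCharacter_of_irr (oneIrr G).2)
  have h4 : (oneIrr G).1 1 = 1 := rfl
  rw [h4] at h3
  exact_mod_cast h3.symm

/-- Core of the three primes theorem. -/
theorem three_prime_aux [Nontrivial G] (p q r a b c : ℕ) (hp : p.Prime) (hq : q.Prime) (hr : r.Prime)
    (hpq : p ≠ q) (hpr : p ≠ r) (hqr : q ≠ r) (ha : a ≤ 2)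
    (hG : Nat.card G = p ^ a * q ^ b * r ^ c) :
    ∃ χ : IrrCharacter G, χ ≠ oneIrr G ∧ ∃ k : ℕ, charDegree χ.1 = q ^ k := by
  classical
  have hdiv : ∀ χ : IrrCharacter G, charDegree χ.1 ∣ p ^ a * q ^ b * r ^ c := fun χ => by
    rw [← hG]; exact charDegree_dvd_card χ
  by_cases hpG : p ∣ Nat.card G
  · -- the principal `p`-block
    haveI := Fact.mk hp
    obtain ⟨M, hM⟩ := exists_pModular hp
    haveI : M.IsPrime := hM.2.1.isPrime
    obtain ⟨χ, hχ, hne, htr⟩ := exists_principal_coprime hr hM hpG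
    have hfac : (Nat.card G).factorization p ≤ 2 := by
      rw [hG]
      have h1 : q ^ b ≠ 0 := (pow_pos hq.pos _).ne'
      have h2 : r ^ c ≠ 0 := (pow_pos hr.pos _).ne'
      have h3 : p ^ a ≠ 0 := (pow_pos hp.pos _).ne'
      rw [Nat.factorization_mul (mul_ne_zero h3 h1) h2, Nat.factorization_mul h3 h1]
      simp only [Finsupp.add_apply, Nat.factorization_pow, Finsupp.smul_apply, smul_eq_mul,
        hp.factorization_self, hq.factorization, hr.factorization,
        Finsupp.single_apply, if_neg hpq.symm, if_neg hpr.symm]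
      omega
    have hpd := principal_pprime_of_small hM hfac hχ
    refine ⟨χ, hne, ?_⟩
    have h1 : Nat.Coprime (charDegree χ.1) (r ^ c) :=
      Nat.Coprime.pow_right _ ((Nat.Prime.coprime_iff_not_dvd hr).2 htr).symm
    have h2 : Nat.Coprime (charDegree χ.1) (p ^ a) :=
      Nat.Coprime.pow_right _ ((Nat.Prime.coprime_iff_not_dvd hp).2 hpd).symm
    have h3 := h1.dvd_of_dvd_mul_right (hdiv χ)
    have h4 := h2.dvd_of_dvd_mul_left h3
    obtain ⟨k, -, hk⟩ := (Nat.dvd_prime_pow hq).1 h4
    exact ⟨k, hk⟩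
  · have ha0 : p ^ a = 1 ∨ p ∣ p ^ a * q ^ b * r ^ c := by
      rcases Nat.eq_zero_or_pos a with h | h
      · left; simp [h]
      · right
        exact Dvd.dvd.mul_right (Dvd.dvd.mul_right (dvd_pow_self _ h.ne') _) _
    have ha1 : p ^ a = 1 := by
      rcases ha0 with h | h
      · exact h
      · rw [← hG] at h; exact absurd h hpG
    have hG' : Nat.card G = q ^ b * r ^ c := by rw [hG, ha1, one_mul]
    by_cases hqG : q ∣ Nat.card G
    · haveI := Fact.mk hq
      obtain ⟨M, hM⟩ := exists_pModular hq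
      haveI : M.IsPrime := hM.2.1.isPrime
      obtain ⟨χ, -, hne, htr⟩ := exists_principal_coprime hr hM hqG
      refine ⟨χ, hne, ?_⟩
      have h1 : Nat.Coprime (charDegree χ.1) (r ^ c) :=
        Nat.Coprime.pow_right _ ((Nat.Prime.coprime_iff_not_dvd hr).2 htr).symm
      have h3 : charDegree χ.1 ∣ q ^ b * r ^ c := by rw [← hG']; exact charDegree_dvd_card χ
      have h4 := h1.dvd_of_dvd_mul_right h3
      obtain ⟨k, -, hk⟩ := (Nat.dvd_prime_pow hq).1 h4
      exact ⟨k, hk⟩
    · have hb1 : q ^ b = 1 := by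
        rcases Nat.eq_zero_or_pos b with h | h
        · simp [h]
        · exact absurd (by rw [hG']; exact Dvd.dvd.mul_right (dvd_pow_self _ h.ne') _) hqG
      have hG'' : Nat.card G = r ^ c := by rw [hG', hb1, one_mul]
      have hrG : r ∣ Nat.card G := by
        have hc : c ≠ 0 := by
          rintro rfl
          have : Nat.card G = 1 := by simpa using hG''
          haveI := (Nat.card_eq_one_iff_unique.1 this).1
          exact not_subsingleton G ‹_›
        rw [hG'']
        exact dvd_pow_self _ hc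
      haveI := Fact.mk hr
      obtain ⟨M, hM⟩ := exists_pModular hr
      haveI : M.IsPrime := hM.2.1.isPrime
      obtain ⟨χ, -, hne, htr⟩ := exists_principal_coprime hr hM hrG
      refine ⟨χ, hne, 0, ?_⟩
      have h3 : charDegree χ.1 ∣ r ^ c := by rw [← hG'']; exact charDegree_dvd_card χ
      obtain ⟨k, -, hk⟩ := (Nat.dvd_prime_pow hr).1 h3
      rcases Nat.eq_zero_or_pos k with h | h
      · rw [hk, h]; simp
      · exact absurd (by rw [hk]; exact dvd_pow_self _ h.ne') htr

end Cfsg.Agent.H21
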